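import Mathlib

set_option autoImplicit false

namespace Cfsg.Agent.Helper21

open Matrix

theorem br21_finrank_prod {F : Type*} [Field F] {M₁ M₂ : Type*} [AddCommGroup M₁] [Module F M₁]
    [AddCommGroup M₂] [Module F M₂] [FiniteDimensional F M₁] [FiniteDimensional F M₂]
    (p : Submodule F M₁) (q : Submodule F M₂) :
    Module.finrank F (p.prod q) = Module.finrank F p + Module.finrank F q := by
  have hinj : Function.Injective (p.subtype.prodMap q.subtype) := by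
    rintro ⟨a, b⟩ ⟨c, d⟩ h
    simp only [LinearMap.prodMap_apply, Submodule.subtype_apply, Prod.mk.injEq] at h
    exact Prod.ext (Subtype.ext h.1) (Subtype.ext h.2)
  have h1 := LinearMap.finrank_range_of_inj hinj
  rw [LinearMap.range_prodMap, Submodule.range_subtype, Submodule.range_subtype] at h1
  rw [h1, Module.finrank_prod]

theorem br21_rank_fromBlocks {F : Type*} [Field F] {m n : Type*} [Fintype m] [Fintype n]
    [DecidableEq m] [DecidableEq n] (X : Matrix m m F) (Y : Matrix n n F) :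
    (Matrix.fromBlocks X 0 0 Y).rank = X.rank + Y.rank := by
  have hX : LinearMap.toMatrix (Pi.basisFun F m) (Pi.basisFun F m)
      (Matrix.toLin (Pi.basisFun F m) (Pi.basisFun F m) X) = X := LinearMap.toMatrix_toLin _ _ X
  have hY : LinearMap.toMatrix (Pi.basisFun F n) (Pi.basisFun F n)
      (Matrix.toLin (Pi.basisFun F n) (Pi.basisFun F n) Y) = Y := LinearMap.toMatrix_toLin _ _ Y
  have key : Matrix.fromBlocks X 0 0 Y =
      LinearMap.toMatrix ((Pi.basisFun F m).prod (Pi.basisFun F n))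
        ((Pi.basisFun F m).prod (Pi.basisFun F n))
        ((Matrix.toLin (Pi.basisFun F m) (Pi.basisFun F m) X).prodMap
          (Matrix.toLin (Pi.basisFun F n) (Pi.basisFun F n) Y)) := by
    rw [LinearMap.toMatrix_prodMap, hX, hY]
  rw [key, Matrix.rank_eq_finrank_range_toLin _ ((Pi.basisFun F m).prod (Pi.basisFun F n))
    ((Pi.basisFun F m).prod (Pi.basisFun F n)), Matrix.toLin_toMatrix, LinearMap.range_prodMap,
    br21_finrank_prod, Matrix.rank_eq_finrank_range_toLin X (Pi.basisFun F m) (Pi.basisFun F m),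
    Matrix.rank_eq_finrank_range_toLin Y (Pi.basisFun F n) (Pi.basisFun F n)]

/-- block sum of two "isometry data" -/
theorem br21_combine {F : Type*} [Field F] {m n : Type*} [Fintype m] [Fintype n]
    [DecidableEq m] [DecidableEq n] (A₁ M₁ : Matrix m m F) (A₂ M₂ : Matrix n n F)
    (hM₁ : M₁ᵀ = M₁) (hM₂ : M₂ᵀ = M₂) (hd₁ : M₁.det ≠ 0) (hd₂ : M₂.det ≠ 0)
    (hA₁ : A₁ᵀ * M₁ * A₁ = M₁) (hA₂ : A₂ᵀ * M₂ * A₂ = M₂) :
    (Matrix.fromBlocks M₁ 0 0 M₂)ᵀ = Matrix.fromBlocks M₁ 0 0 M₂ ∧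
    (Matrix.fromBlocks M₁ 0 0 M₂).det ≠ 0 ∧
    (Matrix.fromBlocks A₁ 0 0 A₂)ᵀ * Matrix.fromBlocks M₁ 0 0 M₂ * Matrix.fromBlocks A₁ 0 0 A₂ =
      Matrix.fromBlocks M₁ 0 0 M₂ ∧
    ∀ k, ((Matrix.fromBlocks A₁ 0 0 A₂ - 1) ^ k).rank =
      ((A₁ - 1) ^ k).rank + ((A₂ - 1) ^ k).rank := by
  refine ⟨?_, ?_, ?_, ?_⟩
  · rw [Matrix.fromBlocks_transpose, hM₁, hM₂]
    simp
  · rw [Matrix.det_fromBlocks_zero₂₁]
    exact mul_ne_zero hd₁ hd₂
  · rw [Matrix.fromBlocks_transpose, Matrix.fromBlocks_multiply, Matrix.fromBlocks_multiply]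
    simp [hA₁, hA₂]
  · intro k
    have h1 : Matrix.fromBlocks A₁ 0 0 A₂ - 1 = Matrix.fromBlocks (A₁ - 1) 0 0 (A₂ - 1) := by
      ext (i | i) (j | j) <;> simp [Matrix.one_apply, Matrix.sub_apply]
    rw [h1, Matrix.fromBlocks_diagonal_pow, br21_rank_fromBlocks]

end Cfsg.Agent.Helper21
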