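import Mathlib
import Cfsg.Agent.Helper9.Fitting

set_option autoImplicit false

namespace Cfsg.Agent.Helper21

/-- In a group all of whose nontrivial elements have prime-power order, commuting nontrivial
elements have orders divisible by the same prime. -/
theorem cp_dvd_of_commute {X : Type*} [Group X]
    (hpp : ∀ g : X, g ≠ 1 → IsPrimePow (orderOf g)) {x y : X} (hxy : Commute x y)
    (hx : x ≠ 1) (hy : y ≠ 1) {p : ℕ} (hp : p.Prime) (hpx : p ∣ orderOf x) : p ∣ orderOf y := by
  obtain ⟨p₁, a, hp₁, ha, hxo⟩ := (isPrimePow_nat_iff _).1 (hpp x hx)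
  obtain ⟨p₂, b, hp₂, hb, hyo⟩ := (isPrimePow_nat_iff _).1 (hpp y hy)
  have hpp₁ : p = p₁ := by
    rw [← hxo] at hpx
    exact (Nat.prime_dvd_prime_iff_eq hp hp₁).1 (hp.dvd_of_dvd_pow hpx)
  subst hpp₁
  by_cases hne : p = p₂
  · subst hne
    rw [← hyo]
    exact dvd_pow_self _ hb.ne'
  · exfalso
    have hco : Nat.Coprime (orderOf x) (orderOf y) := by
      rw [← hxo, ← hyo]
      exact Nat.Coprime.pow _ _ ((Nat.coprime_primes hp hp₂).2 hne)
    have hmul : orderOf (x * y) = orderOf x * orderOf y :=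
      hxy.orderOf_mul_eq_mul_orderOf_of_coprime hco
    have hxy1 : x * y ≠ 1 := by
      intro h1
      rw [h1, orderOf_one] at hmul
      have h2 : orderOf x = 1 := Nat.dvd_one.1 (Dvd.intro (orderOf y) hmul.symm)
      exact hx (orderOf_eq_one_iff.1 h2)
    obtain ⟨p₃, c, hp₃, hc, hzo⟩ := (isPrimePow_nat_iff _).1 (hpp (x * y) hxy1)
    rw [hmul, ← hxo, ← hyo] at hzo
    have h1 : p ∣ p₃ ^ c := by rw [hzo]; exact (dvd_pow_self p ha.ne').mul_right _
    have h2 : p₂ ∣ p₃ ^ c := by rw [hzo]; exact (dvd_pow_self p₂ hb.ne').mul_left _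
    exact hne (((Nat.prime_dvd_prime_iff_eq hp hp₃).1 (hp.dvd_of_dvd_pow h1)).trans
      ((Nat.prime_dvd_prime_iff_eq hp₂ hp₃).1 (hp₂.dvd_of_dvd_pow h2)).symm)

/-- No element has order a product of two distinct primes. -/
theorem cp_no_mul_order {X : Type*} [Group X]
    (hpp : ∀ g : X, g ≠ 1 → IsPrimePow (orderOf g)) {a b : ℕ} (ha : a.Prime) (hb : b.Prime)
    (hab : a ≠ b) (x : X) (hx : orderOf x = a * b) : False := by
  have hx1 : x ≠ 1 := by
    rintro rfl
    rw [orderOf_one] at hx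
    exact ha.ne_one (Nat.dvd_one.1 (Dvd.intro b hx.symm))
  obtain ⟨p, c, hp, hc, hzo⟩ := (isPrimePow_nat_iff _).1 (hpp x hx1)
  rw [hx] at hzo
  have h1 : a ∣ p ^ c := by rw [hzo]; exact dvd_mul_right a b
  have h2 : b ∣ p ^ c := by rw [hzo]; exact dvd_mul_left b a
  exact hab (((Nat.prime_dvd_prime_iff_eq ha hp).1 (ha.dvd_of_dvd_pow h1)).trans
    ((Nat.prime_dvd_prime_iff_eq hb hp).1 (hb.dvd_of_dvd_pow h2)).symm)

/-- The elements commuting with a fixed nontrivial element are all `s`-elements for one prime. -/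
theorem cp_exists_prime_of_commute {X : Type*} [Group X]
    (hpp : ∀ g : X, g ≠ 1 → IsPrimePow (orderOf g)) (n : X) (hn : n ≠ 1) :
    ∃ s : ℕ, s.Prime ∧ ∀ h : X, Commute n h → ∃ k : ℕ, h ^ s ^ k = 1 := by
  obtain ⟨s, k, hs, hk, hno⟩ := (isPrimePow_nat_iff _).1 (hpp n hn)
  refine ⟨s, hs, fun h hc => ?_⟩
  by_cases h1 : h = 1
  · exact ⟨0, by rw [h1, one_pow]⟩
  · obtain ⟨s', j, hs', hj, hho⟩ := (isPrimePow_nat_iff _).1 (hpp h h1)
    have hsn : s ∣ orderOf n := by rw [← hno]; exact dvd_pow_self s hk.ne'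
    have hsh : s ∣ orderOf h := cp_dvd_of_commute hpp hc hn h1 hs hsn
    rw [← hho] at hsh
    have hss : s = s' := (Nat.prime_dvd_prime_iff_eq hs hs').1 (hs.dvd_of_dvd_pow hsh)
    subst hss
    refine ⟨j, ?_⟩
    rw [hho]
    exact pow_orderOf_eq_one _

/-- A subgroup centralising a nontrivial element is solvable. -/
theorem cp_solvable_of_commute {X : Type*} [Group X] [Finite X]
    (hpp : ∀ g : X, g ≠ 1 → IsPrimePow (orderOf g)) (H : Subgroup X) (n : X) (hn : n ≠ 1)
    (hH : ∀ h ∈ H, Commute n h) : Group.IsSolvable ↥H := by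
  obtain ⟨s, hs, hall⟩ := cp_exists_prime_of_commute hpp n hn
  have hP : IsPGroup s ↥H := by
    intro h
    obtain ⟨k, hk⟩ := hall (h : X) (hH h h.2)
    exact ⟨k, Subtype.ext (by rw [Subgroup.coe_pow, Subgroup.coe_one, hk])⟩
  haveI : Fact s.Prime := ⟨hs⟩
  haveI := hP.isNilpotent
  infer_instance

/-- A finite group with all elements of prime-power order and no nontrivial solvable normal
subgroup has a nonabelian simple normal subgroup contained in every nontrivial normal
subgroup. -/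
theorem cp_simple_socle {X : Type*} [Group X] [Finite X] [Nontrivial X]
    (hpp : ∀ g : X, g ≠ 1 → IsPrimePow (orderOf g))
    (hrad : ∀ N : Subgroup X, N.Normal → Group.IsSolvable ↥N → N = ⊥) :
    ∃ M : Subgroup X, M.Normal ∧ IsSimpleGroup ↥M ∧ ¬ IsMulCommutative ↥M ∧
      ∀ N : Subgroup X, N.Normal → N ≠ ⊥ → M ≤ N := by
  classical
  have hex : ∃ n, ∃ N : Subgroup X, N.Normal ∧ N ≠ ⊥ ∧ Nat.card N = n :=
    ⟨_, ⊤, inferInstance, top_ne_bot, rfl⟩
  obtain ⟨M, hMn, hMne, hMc⟩ := Nat.find_spec hex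
  have hMmin : ∀ N : Subgroup X, N.Normal → N ≠ ⊥ → Nat.card M ≤ Nat.card N := by
    intro N hN hNe
    rw [hMc]
    exact Nat.find_min' hex ⟨N, hN, hNe, rfl⟩
  have hMns : ¬ Group.IsSolvable ↥M := fun h => hMne (hrad M hMn h)
  have hMle : ∀ N : Subgroup X, N.Normal → N ≠ ⊥ → M ≤ N := by
    intro N hN hNe
    by_contra hMN
    have hinf : M ⊓ N = ⊥ := by
      by_contra hne
      haveI := hMn
      haveI := hN
      have h1 : Nat.card M ≤ Nat.card (M ⊓ N : Subgroup X) := hMmin _ inferInstance hne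
      have h2 : M ⊓ N = M := Subgroup.eq_of_le_of_card_ge inf_le_left h1
      exact hMN (h2 ▸ (inf_le_right : M ⊓ N ≤ N))
    obtain ⟨⟨n, hnN⟩, hn1⟩ := (Subgroup.ne_bot_iff_exists_ne_one).1 hNe
    have hn1' : n ≠ 1 := fun h => hn1 (Subtype.ext h)
    apply hMns
    exact cp_solvable_of_commute hpp M n hn1' (fun m hm =>
      (Subgroup.commute_of_normal_of_disjoint M N hMn hN (disjoint_iff.2 hinf) m n hm hnN).symm)
  haveI : Nontrivial ↥M := (Subgroup.nontrivial_iff_ne_bot M).2 hMne
  haveI := hMn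
  have hexT : ∃ n, ∃ T : Subgroup ↥M, T.Normal ∧ T ≠ ⊥ ∧ Nat.card T = n :=
    ⟨_, ⊤, inferInstance, top_ne_bot, rfl⟩
  obtain ⟨T, hTn, hTne, hTc⟩ := Nat.find_spec hexT
  have hTmin : ∀ U : Subgroup ↥M, U.Normal → U ≠ ⊥ → Nat.card T ≤ Nat.card U := by
    intro U hU hUe
    rw [hTc]
    exact Nat.find_min' hexT ⟨U, hU, hUe, rfl⟩
  have hTXne : T.map M.subtype ≠ ⊥ := by
    rwa [Ne, Subgroup.map_eq_bot_iff_of_injective _ M.subtype_injective]
  have hTtop : T = ⊤ := by
    by_contra hTtop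
    by_cases hinv : ∀ g : X, ∀ t : ↥M, t ∈ T → MulAut.conjNormal g t ∈ T
    · have hTX : (T.map M.subtype).Normal := by
        constructor
        rintro _ ⟨t, ht, rfl⟩ g
        exact ⟨MulAut.conjNormal g t, hinv g t ht, rfl⟩
      have h3 := hMle _ hTX hTXne
      apply hTtop
      rw [eq_top_iff]
      intro m _
      obtain ⟨t, ht, hte⟩ := h3 m.2
      have htm : t = m := Subtype.ext hte
      exact htm ▸ ht
    · push_neg at hinv
      obtain ⟨g, t, ht, htg⟩ := hinv
      obtain ⟨T₂, hT₂⟩ : ∃ T₂ : Subgroup ↥M,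
          T₂ = T.map (MulAut.conjNormal g : MulAut ↥M).toMonoidHom := ⟨_, rfl⟩
      have hT₂n : T₂.Normal := by
        rw [hT₂]
        exact hTn.map _ (MulEquiv.surjective _)
      have hT₂c : Nat.card T₂ = Nat.card T := by
        rw [hT₂]
        exact Subgroup.card_map_of_injective (MulEquiv.injective _)
      have hv : MulAut.conjNormal g t ∈ T₂ := by
        rw [hT₂]
        exact ⟨t, ht, rfl⟩
      have hinf : T ⊓ T₂ = ⊥ := by
        by_contra hne
        have h1 : Nat.card T ≤ Nat.card (T ⊓ T₂ : Subgroup ↥M) := hTmin _ inferInstance hne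
        have h2 : T ⊓ T₂ = T := Subgroup.eq_of_le_of_card_ge inf_le_left h1
        have h3 : T ≤ T₂ := h2 ▸ (inf_le_right : T ⊓ T₂ ≤ T₂)
        have h4 : T = T₂ := Subgroup.eq_of_le_of_card_ge h3 hT₂c.le
        exact htg (h4 ▸ hv)
      have hv1 : ((MulAut.conjNormal g t : ↥M) : X) ≠ 1 := by
        intro h
        apply htg
        have h' : MulAut.conjNormal g t = 1 := Subtype.ext h
        rw [h']
        exact T.one_mem
      obtain ⟨s, hs, hall⟩ := cp_exists_prime_of_commute hpp _ hv1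
      have hPT : IsPGroup s ↥T := by
        intro u
        have hc := Subgroup.commute_of_normal_of_disjoint T T₂ hTn hT₂n (disjoint_iff.2 hinf)
          (u : ↥M) _ u.2 hv
        have hc' : Commute ((MulAut.conjNormal g t : ↥M) : X) ((u : ↥M) : X) :=
          (hc.map M.subtype).symm
        obtain ⟨k, hk⟩ := hall _ hc'
        exact ⟨k, Subtype.ext (Subtype.ext (by
          rw [Subgroup.coe_pow, Subgroup.coe_pow, Subgroup.coe_one, Subgroup.coe_one, hk]))⟩
      have hconj : ∀ h : X, ∀ u : ↥M, u ∈ T → MulAut.conjNormal h u ∈ Cfsg.pCore s ↥M := by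
        intro h u hu
        have hn' : (T.map (MulAut.conjNormal h : MulAut ↥M).toMonoidHom).Normal :=
          hTn.map _ (MulEquiv.surjective _)
        have hp' : IsPGroup s ↥(T.map (MulAut.conjNormal h : MulAut ↥M).toMonoidHom) :=
          hPT.map _
        exact Helper9.le_pCore hn' hp' ⟨u, hu, rfl⟩
      have hW : Subgroup.normalClosure ((T.map M.subtype : Subgroup X) : Set X) ≤
          (Cfsg.pCore s ↥M).map M.subtype := by
        rw [Subgroup.normalClosure, Subgroup.closure_le]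
        intro a ha
        obtain ⟨a', ha', hconj'⟩ := Group.mem_conjugatesOfSet_iff.1 ha
        obtain ⟨c, rfl⟩ := isConj_iff.1 hconj'
        obtain ⟨u, hu, rfl⟩ := ha'
        exact ⟨MulAut.conjNormal c u, hconj c u hu, rfl⟩
      have hWne : Subgroup.normalClosure ((T.map M.subtype : Subgroup X) : Set X) ≠ ⊥ := by
        intro h
        apply hTXne
        rw [eq_bot_iff, ← h]
        exact Subgroup.le_normalClosure
      have h5 := (hMle _ Subgroup.normalClosure_normal hWne).trans hW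
      apply hMns
      have hPM : IsPGroup s ↥M := by
        have hPc := Helper9.pCore_isPGroup (G := ↥M) s
        intro m
        obtain ⟨u, hu, hue⟩ := h5 m.2
        obtain ⟨k, hk⟩ := hPc ⟨u, hu⟩
        refine ⟨k, ?_⟩
        have hum : u = m := Subtype.ext hue
        subst hum
        simpa using congrArg Subtype.val hk
      haveI : Fact s.Prime := ⟨hs⟩
      haveI := hPM.isNilpotent
      infer_instance
  refine ⟨M, hMn, ?_, ?_, hMle⟩
  · refine { toNontrivial := inferInstance, eq_bot_or_eq_top_of_normal := ?_ }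
    intro U hU
    by_cases hU1 : U = ⊥
    · exact Or.inl hU1
    · right
      have h1 := hTmin U hU hU1
      rw [hTtop, Subgroup.card_top] at h1
      exact Subgroup.eq_top_of_le_card U h1
  · intro hcomm
    apply hMns
    exact Group.isSolvable_of_comm (fun a b => hcomm.is_comm.comm a b)

end Cfsg.Agent.Helper21
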