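import Mathlib
import Cfsg.Prelude.Def_KGroupFacts
import Cfsg.Agent.Helper21.CentralExt

/-!
A central extension of `Q` that maps onto a Schur cover `Γ` of `Q`: the kernel of the map to `Γ`
meets the commutator subgroup trivially.
-/

set_option autoImplicit false

namespace Cfsg.Agent.Helper21

universe u v w

open scoped IsMulCommutative commutatorElement

theorem exists_units_pow_eq (N : ℕ) (hN : 0 < N) (c : ℂˣ) : ∃ i : ℂˣ, i ^ N = c := by
  obtain ⟨z, hz⟩ := IsAlgClosed.exists_pow_nat_eq (c : ℂ) hN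
  have hz0 : z ≠ 0 := by
    intro h
    rw [h, zero_pow hN.ne'] at hz
    exact c.ne_zero hz.symm
  refine ⟨Units.mk0 z hz0, ?_⟩
  apply Units.ext
  rw [Units.val_pow_eq_pow_val, Units.val_mk0, hz]

set_option maxHeartbeats 1600000 in
/-- Let `σ : Γ → Q` be a stem extension of maximal kernel order (a Schur cover), and `ε : E → Γ`
a surjection such that `E` is a central extension of `Q`. Then `ker ε` meets `[E, E]` trivially. -/
theorem ker_inf_commutator_eq_bot {Q : Type u} [Group Q] {A : Type v} [CommGroup A]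
    (hA : Cfsg.HasSchurMultiplier Q A) {Γ : Type u} [Group Γ] [Finite Γ] (σ : Γ →* Q)
    (hσ : Cfsg.IsStemExtension σ) (hk : Nat.card A ≤ Nat.card σ.ker)
    {E : Type w} [Group E] [Finite E] (ε : E →* Γ) (hε : Function.Surjective ε)
    (hc : (σ.comp ε).ker ≤ Subgroup.center E) : ε.ker ⊓ commutator E = ⊥ := by
  classical
  by_contra hne
  obtain ⟨x₀, hx₀, hx₀1⟩ : ∃ x₀ ∈ ε.ker ⊓ commutator E, x₀ ≠ 1 := by
    by_contra hall
    push_neg at hall
    exact hne ((Subgroup.eq_bot_iff_forall _).2 hall)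
  have hKZ : ε.ker ≤ Subgroup.center E := fun x hx => hc (by
    rw [MonoidHom.mem_ker, MonoidHom.comp_apply, MonoidHom.mem_ker.1 hx, map_one])
  haveI : NeZero (Monoid.exponent ↥(Subgroup.center E)) := ⟨Monoid.exponent_ne_zero_of_finite⟩
  haveI : NeZero (Monoid.exponent (Abelianization E)) := ⟨Monoid.exponent_ne_zero_of_finite⟩
  obtain ⟨χ, hχ⟩ := CommGroup.exists_apply_ne_one_of_hasEnoughRootsOfUnity
    ↥(Subgroup.center E) ℂ (a := ⟨x₀, hKZ hx₀.1⟩) (fun h => hx₀1 (congrArg Subtype.val h))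
  -- the image of `D` under `χ`
  let DZ : Subgroup ↥(Subgroup.center E) := (ε.ker ⊓ commutator E).subgroupOf (Subgroup.center E)
  let D' : Subgroup ℂˣ := DZ.map χ
  haveI : Finite ↥D' := Finite.of_surjective (χ.subgroupMap DZ) (χ.subgroupMap_surjective DZ)
  obtain ⟨ω', hω'⟩ := IsCyclic.exists_generator (α := ↥D')
  obtain ⟨d₁, hd₁, hd₁ω⟩ := Subgroup.mem_map.1 ω'.2
  have hNpos : 0 < orderOf (ω' : ℂˣ) := by
    rw [Subgroup.orderOf_coe]; exact orderOf_pos ω'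
  obtain ⟨N, hN⟩ : ∃ N : ℕ, N = orderOf (ω' : ℂˣ) := ⟨_, rfl⟩
  rw [← hN] at hNpos
  haveI : NeZero N := ⟨hNpos.ne'⟩
  have hωN : (ω' : ℂˣ) ^ N = 1 := by rw [hN]; exact pow_orderOf_eq_one _
  have hD'pow : ∀ y ∈ D', y ^ N = 1 := by
    intro y hy
    obtain ⟨j, hj⟩ := Subgroup.mem_zpowers_iff.1 (hω' ⟨y, hy⟩)
    have hj' : (ω' : ℂˣ) ^ j = y := by
      have := congrArg Subtype.val hj
      simpa using this
    rw [← hj', ← zpow_natCast, ← zpow_mul, mul_comm, zpow_mul, zpow_natCast, hωN, one_zpow]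
  have hDZpow : ∀ d ∈ DZ, χ d ^ N = 1 := fun d hd => hD'pow _ (Subgroup.mem_map_of_mem χ hd)
  have hroots : ∀ ζ : ℂˣ, ζ ^ N = 1 → ∃ d ∈ DZ, χ d = ζ := by
    intro ζ hζ
    have hprim : IsPrimitiveRoot ((ω' : ℂˣ) : ℂ) N := by
      rw [IsPrimitiveRoot.coe_units_iff, hN]
      exact IsPrimitiveRoot.orderOf _
    have hζ' : (ζ : ℂ) ^ N = 1 := by
      rw [← Units.val_pow_eq_pow_val, hζ, Units.val_one]
    obtain ⟨i, _, hi⟩ := hprim.eq_pow_of_pow_eq_one hζ'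
    refine ⟨d₁ ^ i, pow_mem hd₁ i, ?_⟩
    rw [map_pow, hd₁ω]
    apply Units.ext
    rw [Units.val_pow_eq_pow_val, hi]
  have hω1 : (ω' : ℂˣ) ≠ 1 := by
    intro h
    have hN1 : N = 1 := by rw [hN, h, orderOf_one]
    have h2 := hDZpow ⟨x₀, hKZ hx₀.1⟩ (Subgroup.mem_subgroupOf.2 hx₀)
    rw [hN1, pow_one] at h2
    exact hχ h2
  -- extend `χ ^ N` to a homomorphism `ψ` on `E`
  let ab : E →* Abelianization E := Abelianization.of
  let θ : ↥ε.ker →* ℂˣ := (powMonoidHom N).comp (χ.comp (Subgroup.inclusion hKZ))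
  let q : ↥ε.ker →* ↥(ε.ker.map ab) := ab.subgroupMap ε.ker
  have hq : Function.Surjective q := ab.subgroupMap_surjective ε.ker
  have hker : q.ker ≤ θ.ker := by
    intro k hk
    rw [MonoidHom.mem_ker] at hk ⊢
    have h1 : ab (k : E) = 1 := congrArg Subtype.val hk
    have h2 : (k : E) ∈ commutator E := by
      rw [← Abelianization.ker_of]; exact MonoidHom.mem_ker.2 h1
    exact hDZpow (Subgroup.inclusion hKZ k) (Subgroup.mem_subgroupOf.2 ⟨k.2, h2⟩)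
  let gbar : ↥(ε.ker.map ab) →* ℂˣ := q.liftOfSurjective hq ⟨θ, hker⟩
  have hgbar : ∀ k : ↥ε.ker, gbar (q k) = θ k := fun k =>
    MonoidHom.liftOfRightInverse_comp_apply _ _ _ ⟨θ, hker⟩ k
  obtain ⟨g, hg⟩ := (MonoidHom.domRestrict_surjective (G := Abelianization E) ℂ
    (ε.ker.map ab)) gbar
  let ψ : E →* ℂˣ := g.comp ab
  have hψK : ∀ (k : E) (hk : k ∈ ε.ker), ψ k = χ ⟨k, hKZ hk⟩ ^ N := by
    intro k hk
    have h1 : gbar (q ⟨k, hk⟩) = g (ab k) := by rw [← hg]; rfl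
    have h2 := hgbar ⟨k, hk⟩
    rw [h1] at h2
    exact h2
  have hψc : ∀ y ∈ commutator E, ψ y = 1 := by
    intro y hy
    have h1 : ab y = 1 := by
      rw [← Abelianization.ker_of] at hy; exact MonoidHom.mem_ker.1 hy
    show g (ab y) = 1
    rw [h1, map_one]
  -- N-th roots
  choose r hr using fun x : E => exists_units_pow_eq N hNpos (ψ x)
  -- the group `P`
  let P : Subgroup (E × ℂˣ) :=
    { carrier := {y | y.2 ^ N = ψ y.1}
      mul_mem' := by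
        intro a b ha hb
        simp only [Set.mem_setOf_eq, Prod.snd_mul, Prod.fst_mul, mul_pow, map_mul] at ha hb ⊢
        rw [ha, hb]
      one_mem' := by simp
      inv_mem' := by
        intro a ha
        simp only [Set.mem_setOf_eq, Prod.snd_inv, Prod.fst_inv, inv_pow, map_inv] at ha ⊢
        rw [ha] }
  have hPmem : ∀ y : E × ℂˣ, y ∈ P ↔ y.2 ^ N = ψ y.1 := fun y => Iff.rfl
  let R : Subgroup (E × ℂˣ) := (ε.ker.subtype.prod (χ.comp (Subgroup.inclusion hKZ))).range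
  have hRmem : ∀ y : E × ℂˣ, y ∈ R ↔ ∃ (k : E) (hk : k ∈ ε.ker), y = (k, χ ⟨k, hKZ hk⟩) := by
    intro y
    constructor
    · rintro ⟨k, rfl⟩
      exact ⟨k.1, k.2, rfl⟩
    · rintro ⟨k, hk, rfl⟩
      exact ⟨⟨k, hk⟩, rfl⟩
  haveI hRn : (R.subgroupOf P).Normal := by
    refine ⟨fun n hn g => ?_⟩
    rw [Subgroup.mem_subgroupOf] at hn ⊢
    obtain ⟨k, hk, hnk⟩ := (hRmem _).1 hn
    have : ((g * n * g⁻¹ : ↥P) : E × ℂˣ) = (n : E × ℂˣ) := by
      rw [Subgroup.coe_mul, Subgroup.coe_mul, Subgroup.coe_inv, hnk]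
      apply Prod.ext
      · show (g : E × ℂˣ).1 * k * ((g : E × ℂˣ).1)⁻¹ = k
        rw [Subgroup.mem_center_iff.1 (hKZ hk) (g : E × ℂˣ).1, mul_inv_cancel_right]
      · show (g : E × ℂˣ).2 * χ ⟨k, hKZ hk⟩ * ((g : E × ℂˣ).2)⁻¹ = χ ⟨k, hKZ hk⟩
        rw [mul_comm, inv_mul_cancel_left]
    rw [this]; exact hn
  haveI : Finite ↥P := by
    let f : ↥P → E × rootsOfUnity N ℂ := fun y =>
      (y.1.1, ⟨y.1.2 * (r y.1.1)⁻¹, by
        rw [mem_rootsOfUnity, mul_pow, inv_pow, (hPmem _).1 y.2, hr, mul_inv_cancel]⟩)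
    have hf : Function.Injective f := by
      intro y z hyz
      have h1 : y.1.1 = z.1.1 := congrArg (fun t : E × rootsOfUnity N ℂ => t.1) hyz
      have h2 : y.1.2 * (r y.1.1)⁻¹ = z.1.2 * (r z.1.1)⁻¹ :=
        congrArg (fun t : E × rootsOfUnity N ℂ => (t.2 : ℂˣ)) hyz
      rw [h1] at h2
      exact Subtype.ext (Prod.ext h1 (mul_right_cancel h2))
    exact Finite.of_injective f hf
  -- the maps
  let φ₀ : ↥P →* Γ := ε.comp ((MonoidHom.fst E ℂˣ).comp P.subtype)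
  have hφ₀ : R.subgroupOf P ≤ φ₀.ker := by
    intro y hy
    rw [Subgroup.mem_subgroupOf] at hy
    obtain ⟨k, hk, hyk⟩ := (hRmem _).1 hy
    rw [MonoidHom.mem_ker]
    show ε (y : E × ℂˣ).1 = 1
    rw [hyk]
    exact MonoidHom.mem_ker.1 hk
  let εt : (↥P ⧸ R.subgroupOf P) →* Γ := QuotientGroup.lift (R.subgroupOf P) φ₀ hφ₀
  let φ : (↥P ⧸ R.subgroupOf P) →* Q := σ.comp εt
  -- commutators of `P`
  have hcommP : ∀ y ∈ commutator E, ∀ h : ((y, 1) : E × ℂˣ) ∈ P,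
      (⟨(y, 1), h⟩ : ↥P) ∈ commutator ↥P := by
    have hle : commutator E ≤ ((commutator ↥P).map P.subtype).comap (MonoidHom.inl E ℂˣ) := by
      rw [commutator_eq_closure, Subgroup.closure_le]
      rintro _ ⟨a, b, rfl⟩
      show ∃ t ∈ commutator ↥P, P.subtype t = MonoidHom.inl E ℂˣ ⁅a, b⁆
      refine ⟨⁅(⟨(a, r a), hr a⟩ : ↥P), (⟨(b, r b), hr b⟩ : ↥P)⁆, ?_, ?_⟩
      · rw [commutator_def]
        exact Subgroup.commutator_mem_commutator (Subgroup.mem_top _) (Subgroup.mem_top _)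
      · apply Prod.ext
        · rfl
        · show r a * r b * (r a)⁻¹ * (r b)⁻¹ = 1
          rw [mul_comm (r a) (r b), mul_inv_cancel_right, mul_inv_cancel]
    intro y hy h
    obtain ⟨t, ht, hty⟩ := Subgroup.mem_map.1 (Subgroup.mem_comap.1 (hle hy))
    have : t = ⟨(y, 1), h⟩ := Subtype.ext hty
    rw [← this]; exact ht
  have hφ : Cfsg.IsStemExtension φ := by
    refine ⟨?_, ?_, ?_⟩
    · intro qq
      obtain ⟨γ, rfl⟩ := hσ.1 qq
      obtain ⟨x, rfl⟩ := hε γ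
      exact ⟨QuotientGroup.mk ⟨(x, r x), hr x⟩, rfl⟩
    · intro z hz
      obtain ⟨y, rfl⟩ := QuotientGroup.mk_surjective z
      have h1 : σ (ε (y : E × ℂˣ).1) = 1 := MonoidHom.mem_ker.1 hz
      have h2 : (y : E × ℂˣ).1 ∈ Subgroup.center E := hc (MonoidHom.mem_ker.2 h1)
      rw [Subgroup.mem_center_iff]
      intro g
      obtain ⟨g', rfl⟩ := QuotientGroup.mk_surjective g
      rw [← QuotientGroup.mk_mul, ← QuotientGroup.mk_mul]
      congr 1
      apply Subtype.ext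
      apply Prod.ext
      · exact Subgroup.mem_center_iff.1 h2 (g' : E × ℂˣ).1
      · exact mul_comm _ _
    · intro z hz
      obtain ⟨y, rfl⟩ := QuotientGroup.mk_surjective z
      have h1 : σ (ε (y : E × ℂˣ).1) = 1 := MonoidHom.mem_ker.1 hz
      have h3 : ε (y : E × ℂˣ).1 ∈ commutator Γ := hσ.2.2 (MonoidHom.mem_ker.2 h1)
      obtain ⟨y₁, hy₁, hy₁e⟩ := exists_mem_commutator_of_surjective ε hε h3
      obtain ⟨k, hkdef⟩ : ∃ k : E, k = y₁⁻¹ * (y : E × ℂˣ).1 := ⟨_, rfl⟩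
      have hkK : k ∈ ε.ker := by
        rw [MonoidHom.mem_ker, hkdef, map_mul, map_inv, hy₁e, inv_mul_cancel]
      have hyk : (y : E × ℂˣ).1 = y₁ * k := by rw [hkdef, mul_inv_cancel_left]
      have hψk : ψ (y : E × ℂˣ).1 = χ ⟨k, hKZ hkK⟩ ^ N := by
        rw [hyk, map_mul, hψc y₁ hy₁, one_mul, hψK k hkK]
      have hζ : ((y : E × ℂˣ).2 * (χ ⟨k, hKZ hkK⟩)⁻¹) ^ N = 1 := by
        rw [mul_pow, inv_pow, (hPmem _).1 y.2, hψk, mul_inv_cancel]
      obtain ⟨d, hd, hdζ⟩ := hroots _ hζ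
      have hdD : (d : E) ∈ ε.ker ⊓ commutator E := Subgroup.mem_subgroupOf.1 hd
      have haP : ((y₁, 1) : E × ℂˣ) ∈ P := by
        rw [hPmem]; show (1 : ℂˣ) ^ N = ψ y₁
        rw [one_pow, hψc y₁ hy₁]
      have hbP : (((d : E)⁻¹, 1) : E × ℂˣ) ∈ P := by
        rw [hPmem]; show (1 : ℂˣ) ^ N = ψ (d : E)⁻¹
        rw [one_pow, hψc _ (inv_mem hdD.2)]
      have hkd : k * (d : E) ∈ ε.ker := mul_mem hkK hdD.1
      have hcR : ((k * (d : E), χ ⟨k * (d : E), hKZ hkd⟩) : E × ℂˣ) ∈ R :=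
        (hRmem _).2 ⟨_, hkd, rfl⟩
      have hcP : ((k * (d : E), χ ⟨k * (d : E), hKZ hkd⟩) : E × ℂˣ) ∈ P := by
        rw [hPmem]; show χ ⟨k * (d : E), hKZ hkd⟩ ^ N = ψ (k * (d : E))
        rw [hψK _ hkd]
      have hχkd : χ ⟨k * (d : E), hKZ hkd⟩ = χ ⟨k, hKZ hkK⟩ * χ d := by
        rw [← map_mul]; rfl
      have hdecomp : y = (⟨(y₁, 1), haP⟩ : ↥P) * ⟨_, hcP⟩ * ⟨_, hbP⟩ := by
        apply Subtype.ext
        apply Prod.ext
        · show (y : E × ℂˣ).1 = y₁ * (k * (d : E)) * (d : E)⁻¹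
          rw [hyk]; group
        · show (y : E × ℂˣ).2 = 1 * χ ⟨k * (d : E), hKZ hkd⟩ * 1
          rw [hχkd, hdζ, one_mul, mul_one, mul_comm ((y : E × ℂˣ).2), mul_inv_cancel_left]
      rw [hdecomp, QuotientGroup.mk_mul, QuotientGroup.mk_mul]
      have hc1 : ((⟨_, hcP⟩ : ↥P) : ↥P ⧸ R.subgroupOf P) = 1 :=
        (QuotientGroup.eq_one_iff _).2 (Subgroup.mem_subgroupOf.2 hcR)
      rw [hc1, mul_one]
      exact mul_mem
        (map_mem_commutator (QuotientGroup.mk' (R.subgroupOf P)) (hcommP y₁ hy₁ haP))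
        (map_mem_commutator (QuotientGroup.mk' (R.subgroupOf P))
          (hcommP _ (inv_mem hdD.2) hbP))
  -- the contradiction
  have hcard1 : Nat.card φ.ker ≤ Nat.card A := stem_ker_card_le hA φ hφ
  let ρ : φ.ker → σ.ker := fun z => ⟨εt z.1, MonoidHom.mem_ker.2 (MonoidHom.mem_ker.1 z.2)⟩
  have hρs : Function.Surjective ρ := by
    rintro ⟨γ, hγ⟩
    obtain ⟨x, rfl⟩ := hε γ
    exact ⟨⟨QuotientGroup.mk ⟨(x, r x), hr x⟩, MonoidHom.mem_ker.2 (MonoidHom.mem_ker.1 hγ)⟩, rfl⟩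
  have hρb : Function.Bijective ρ := hρs.bijective_of_nat_card_le (hcard1.trans hk)
  have hωP : ((1, (ω' : ℂˣ)) : E × ℂˣ) ∈ P := by
    rw [hPmem]; show (ω' : ℂˣ) ^ N = ψ 1
    rw [hωN, map_one]
  have hz1 : (QuotientGroup.mk (⟨_, hωP⟩ : ↥P) : ↥P ⧸ R.subgroupOf P) ∈ φ.ker := by
    rw [MonoidHom.mem_ker]
    show σ (ε 1) = 1
    rw [map_one, map_one]
  have heq : ρ ⟨_, hz1⟩ = ρ 1 := by
    apply Subtype.ext
    show ε 1 = εt 1
    rw [map_one, map_one]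
  have h1 := hρb.1 heq
  have h2 : (QuotientGroup.mk (⟨_, hωP⟩ : ↥P) : ↥P ⧸ R.subgroupOf P) = 1 :=
    congrArg Subtype.val h1
  rw [QuotientGroup.eq_one_iff, Subgroup.mem_subgroupOf] at h2
  obtain ⟨k, hk', hkeq⟩ := (hRmem _).1 h2
  have hk1 : k = 1 := (congrArg Prod.fst hkeq).symm
  have hω2 : (ω' : ℂˣ) = χ ⟨k, hKZ hk'⟩ := congrArg Prod.snd hkeq
  apply hω1
  rw [hω2]
  have : (⟨k, hKZ hk'⟩ : ↥(Subgroup.center E)) = 1 := Subtype.ext hk1
  rw [this, map_one]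

end Cfsg.Agent.Helper21
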