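import Mathlib
import Cfsg.Prelude.Def_KGroupFacts
import Cfsg.Agent.Helper21.CentralExt
import Cfsg.Agent.Helper21.CentralKer

/-!
For a finite central extension `τ : E → Q` of a group `Q` with Schur multiplier `A`, the group
`ker τ ⊓ [E, E]` is a homomorphic image of `A`.
-/

set_option autoImplicit false

namespace Cfsg.Agent.Helper21

universe u v w

/-- The pullback (fibre product) of two homomorphisms, as a subgroup of the product. -/
def pullbackSubgroup {Γ E Q : Type*} [Group Γ] [Group E] [Group Q] (σ : Γ →* Q) (τ : E →* Q) :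
    Subgroup (Γ × E) :=
  (σ.comp (MonoidHom.fst Γ E)).eqLocus (τ.comp (MonoidHom.snd Γ E))

theorem mem_pullbackSubgroup {Γ E Q : Type*} [Group Γ] [Group E] [Group Q] (σ : Γ →* Q)
    (τ : E →* Q) (y : Γ × E) : y ∈ pullbackSubgroup σ τ ↔ σ y.1 = τ y.2 := Iff.rfl

theorem pullback_fst_surjective {Γ E Q : Type*} [Group Γ] [Group E] [Group Q] (σ : Γ →* Q)
    (τ : E →* Q) (hτ : Function.Surjective τ) :
    Function.Surjective ((MonoidHom.fst Γ E).comp (pullbackSubgroup σ τ).subtype) := by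
  intro γ
  obtain ⟨e, he⟩ := hτ (σ γ)
  exact ⟨⟨(γ, e), he.symm⟩, rfl⟩

theorem pullback_snd_surjective {Γ E Q : Type*} [Group Γ] [Group E] [Group Q] (σ : Γ →* Q)
    (τ : E →* Q) (hσ : Function.Surjective σ) :
    Function.Surjective ((MonoidHom.snd Γ E).comp (pullbackSubgroup σ τ).subtype) := by
  intro e
  obtain ⟨γ, hγ⟩ := hσ (τ e)
  exact ⟨⟨(γ, e), hγ⟩, rfl⟩

/-- In a commutative square of surjections, if `ker p₁` meets `[P, P]` trivially and
`ker σ ≤ [Γ, Γ]`, then `ker σ` maps onto `ker τ ⊓ [E, E]`. -/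
theorem exists_hom_of_square {P Γ E Q : Type*} [Group P] [Group Γ] [Group E] [Group Q]
    (σ : Γ →* Q) (τ : E →* Q) (p₁ : P →* Γ) (p₂ : P →* E)
    (hp₁ : Function.Surjective p₁) (hp₂ : Function.Surjective p₂)
    (hsq : ∀ t : P, σ (p₁ t) = τ (p₂ t)) (hσc : σ.ker ≤ commutator Γ)
    (h : p₁.ker ⊓ commutator P = ⊥) :
    ∃ π : σ.ker →* E, π.range = τ.ker ⊓ commutator E := by
  have huniq : ∀ t t' : P, t ∈ commutator P → t' ∈ commutator P → p₁ t = p₁ t' → t = t' := by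
    intro t t' ht ht' htt
    have h1 : t⁻¹ * t' ∈ (⊥ : Subgroup P) := by
      rw [← h]
      exact Subgroup.mem_inf.2 ⟨MonoidHom.mem_ker.2
        (by rw [map_mul, map_inv, htt, inv_mul_cancel]), mul_mem (inv_mem ht) ht'⟩
    rw [Subgroup.mem_bot] at h1
    exact inv_mul_eq_one.1 h1
  choose s hs1 hs2 using fun a : σ.ker =>
    exists_mem_commutator_of_surjective p₁ hp₁ (hσc a.2)
  have hsmul : ∀ a b : σ.ker, s (a * b) = s a * s b := by
    intro a b
    apply huniq _ _ (hs1 _) (mul_mem (hs1 a) (hs1 b))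
    rw [hs2, map_mul, hs2, hs2]; rfl
  have hsone : s 1 = 1 := by
    apply huniq _ _ (hs1 _) (one_mem _)
    rw [hs2, map_one]; rfl
  let π : σ.ker →* E :=
    { toFun := fun a => p₂ (s a)
      map_one' := by rw [hsone, map_one]
      map_mul' := fun a b => by rw [hsmul, map_mul] }
  refine ⟨π, ?_⟩
  ext e
  constructor
  · rintro ⟨a, rfl⟩
    refine Subgroup.mem_inf.2 ⟨MonoidHom.mem_ker.2 ?_, map_mem_commutator p₂ (hs1 a)⟩
    show τ (p₂ (s a)) = 1
    rw [← hsq, hs2]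
    exact MonoidHom.mem_ker.1 a.2
  · intro he
    obtain ⟨he1, he2⟩ := Subgroup.mem_inf.1 he
    obtain ⟨t, ht, hte⟩ := exists_mem_commutator_of_surjective p₂ hp₂ he2
    have ha : p₁ t ∈ σ.ker := by
      rw [MonoidHom.mem_ker, hsq, hte]
      exact MonoidHom.mem_ker.1 he1
    have hst : s ⟨p₁ t, ha⟩ = t := huniq _ _ (hs1 _) ht (hs2 _)
    refine ⟨⟨p₁ t, ha⟩, ?_⟩
    show p₂ (s ⟨p₁ t, ha⟩) = e
    rw [hst, hte]

/-- For a finite central extension `τ : E → Q` of a group `Q` with Schur multiplier `A`, the group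
`ker τ ⊓ [E, E]` is a homomorphic image of `A`. -/
theorem exists_hom_range_eq_ker_inf_commutator {Q : Type u} [Group Q] {A : Type v} [CommGroup A]
    (hA : Cfsg.HasSchurMultiplier Q A) {E : Type w} [Group E] [Finite E] (τ : E →* Q)
    (hτ : Function.Surjective τ) (hc : τ.ker ≤ Subgroup.center E) :
    ∃ π : A →* E, π.range = τ.ker ⊓ commutator E := by
  obtain ⟨Γ, _, _, σ, hσ, ⟨i⟩⟩ := hA.1
  have hk : Nat.card A ≤ Nat.card σ.ker := le_of_eq (Nat.card_congr i.symm.toEquiv)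
  let p₁ : ↥(pullbackSubgroup σ τ) →* Γ :=
    (MonoidHom.fst Γ E).comp (pullbackSubgroup σ τ).subtype
  let p₂ : ↥(pullbackSubgroup σ τ) →* E :=
    (MonoidHom.snd Γ E).comp (pullbackSubgroup σ τ).subtype
  have hp₁ : Function.Surjective p₁ := pullback_fst_surjective σ τ hτ
  have hp₂ : Function.Surjective p₂ := pullback_snd_surjective σ τ hσ.1
  have hcen : (σ.comp p₁).ker ≤ Subgroup.center ↥(pullbackSubgroup σ τ) := by
    intro y hy
    have h1 : σ (y : Γ × E).1 = 1 := MonoidHom.mem_ker.1 hy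
    have h2 : τ (y : Γ × E).2 = 1 := by
      rw [← (mem_pullbackSubgroup σ τ _).1 y.2]; exact h1
    have h3 : (y : Γ × E).1 ∈ Subgroup.center Γ := hσ.2.1 (MonoidHom.mem_ker.2 h1)
    have h4 : (y : Γ × E).2 ∈ Subgroup.center E := hc (MonoidHom.mem_ker.2 h2)
    rw [Subgroup.mem_center_iff]
    intro g
    apply Subtype.ext
    apply Prod.ext
    · exact Subgroup.mem_center_iff.1 h3 (g : Γ × E).1
    · exact Subgroup.mem_center_iff.1 h4 (g : Γ × E).2
  have hL := ker_inf_commutator_eq_bot hA σ hσ hk p₁ hp₁ hcen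
  obtain ⟨π, hπ⟩ := exists_hom_of_square σ τ p₁ p₂ hp₁ hp₂ (fun t => t.2) hσ.2.2 hL
  refine ⟨π.comp i.symm.toMonoidHom, ?_⟩
  rw [← hπ]
  ext e
  constructor
  · rintro ⟨a, rfl⟩; exact ⟨i.symm a, rfl⟩
  · rintro ⟨a, rfl⟩; exact ⟨i a, by simp⟩

end Cfsg.Agent.Helper21
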