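import Mathlib
import Cfsg.Prelude.Def_KGroupFacts

set_option autoImplicit false

namespace Cfsg.Agent.Helper21

universe u

theorem schur_one_of_ker_bot {G : Type u} [Group G] [Finite G]
    (h : ∀ (Γ : Type u) [Group Γ] [Finite Γ] (σ : Γ →* G), Cfsg.IsStemExtension σ → σ.ker = ⊥) :
    Cfsg.HasCyclicSchurMultiplier G 1 := by
  refine ⟨⟨G, inferInstance, inferInstance, MonoidHom.id G, ?_, ?_⟩, ?_⟩
  · refine ⟨Function.surjective_id, ?_, ?_⟩
    · rw [MonoidHom.ker_id]; exact bot_le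
    · rw [MonoidHom.ker_id]; exact bot_le
  · refine ⟨{ toFun := fun _ => 1, invFun := fun _ => 1, left_inv := ?_, right_inv := ?_,
              map_mul' := ?_ }⟩
    · intro x
      apply Subtype.ext
      have hx : (x : G) ∈ (⊥ : Subgroup G) := (MonoidHom.ker_id (G := G)) ▸ x.2
      rw [Subgroup.mem_bot] at hx
      simp [hx]
    · intro x
      exact Subsingleton.elim _ _
    · intro x y
      simp
  · intro Γ _ _ σ hσ
    refine ⟨1, ?_⟩
    intro x
    refine ⟨1, ?_⟩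
    apply Subtype.ext
    have hx : (x : Γ) ∈ (⊥ : Subgroup Γ) := (h Γ σ hσ) ▸ x.2
    rw [Subgroup.mem_bot] at hx
    simp [hx]

theorem ker_bot_of_schur_one {G : Type u} [Group G] (hG : Cfsg.HasCyclicSchurMultiplier G 1)
    (Γ : Type u) [Group Γ] [Finite Γ] (σ : Γ →* G) (hσ : Cfsg.IsStemExtension σ) : σ.ker = ⊥ := by
  obtain ⟨π, hπ⟩ := hG.2 Γ σ hσ
  rw [Subgroup.eq_bot_iff_forall]
  intro x hx
  obtain ⟨a, ha⟩ := hπ ⟨x, hx⟩
  have h1 : a = 1 := Subsingleton.elim _ _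
  rw [h1, map_one] at ha
  exact (congrArg Subtype.val ha).symm

end Cfsg.Agent.Helper21
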