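import Mathlib
import Cfsg.Prelude.Def_KGroupFacts
import Cfsg.Agent.Helper21.Schur

set_option autoImplicit false

namespace Cfsg.Agent.Helper21

universe u v

/-- A multiplicative map from a perfect group into the centre of a group is trivial. -/
theorem perfect_central_map_trivial {G X : Type*} [Group G] [Group X] (hG : Group.IsPerfect G)
    (d : G → X) (hd : ∀ g, d g ∈ Subgroup.center X) (hmul : ∀ g h, d (g * h) = d g * d h) :
    ∀ g, d g = 1 := by
  have hone : d 1 = 1 := by
    have h := hmul 1 1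
    rw [one_mul] at h
    exact (mul_eq_left.mp h.symm)
  obtain ⟨φ, hφd⟩ : ∃ φ : G →* Subgroup.center X, ∀ g : G, (φ g : X) = d g :=
    ⟨{ toFun := fun g => ⟨d g, hd g⟩, map_one' := Subtype.ext hone,
       map_mul' := fun a b => Subtype.ext (hmul a b) }, fun _ => rfl⟩
  intro g
  have h1 : commutator G ≤ φ.ker := by
    rw [commutator_def, Subgroup.commutator_le]
    intro a _ b _
    rw [MonoidHom.mem_ker, map_commutatorElement, commutatorElement_eq_one_iff_commute]
    apply Subtype.ext
    exact (Subgroup.mem_center_iff.mp (φ a).2 (φ b)).symm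
  have h2 : g ∈ commutator G := by
    rw [hG.commutator_eq_top]
    exact Subgroup.mem_top g
  have h3 : φ g = 1 := MonoidHom.mem_ker.mp (h1 h2)
  rw [← hφd g, h3]
  rfl

/-- Two lifts of a homomorphism from a perfect group through a central extension agree. -/
theorem perfect_lift_unique {G X Q : Type*} [Group G] [Group X] [Group Q] (hG : Group.IsPerfect G)
    (ξ : X →* Q) (hξ : ξ.ker ≤ Subgroup.center X) (f f' : G →* X) (h : ξ.comp f = ξ.comp f') :
    f = f' := by
  have hd : ∀ g, f g * (f' g)⁻¹ ∈ Subgroup.center X := by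
    intro g
    apply hξ
    rw [MonoidHom.mem_ker, map_mul, map_inv]
    have := DFunLike.congr_fun h g
    simp only [MonoidHom.comp_apply] at this
    rw [this, mul_inv_cancel]
  have hmul : ∀ g g', f (g * g') * (f' (g * g'))⁻¹ = f g * (f' g)⁻¹ * (f g' * (f' g')⁻¹) := by
    intro g g'
    have hc := Subgroup.mem_center_iff.mp (hd g') ((f' g)⁻¹)
    rw [map_mul, map_mul]
    calc f g * f g' * (f' g * f' g')⁻¹ = f g * ((f g' * (f' g')⁻¹) * (f' g)⁻¹) := by group
      _ = f g * ((f' g)⁻¹ * (f g' * (f' g')⁻¹)) := by rw [hc]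
      _ = f g * (f' g)⁻¹ * (f g' * (f' g')⁻¹) := by group
  have h1 := perfect_central_map_trivial hG (fun g => f g * (f' g)⁻¹) hd hmul
  ext g
  exact mul_inv_eq_one.mp (h1 g)

/-- In a perfect group, an element mapping into the centre under a homomorphism with central kernel is
central. -/
theorem perfect_mem_center_of_map_mem_center {G Q : Type*} [Group G] [Group Q] (hG : Group.IsPerfect G)
    (π : G →* Q) (hker : π.ker ≤ Subgroup.center G) (g : G) (hg : π g ∈ Subgroup.center Q) :
    g ∈ Subgroup.center G := by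
  have hc : ∀ h : G, g * h * g⁻¹ * h⁻¹ ∈ Subgroup.center G := by
    intro h
    apply hker
    rw [MonoidHom.mem_ker]
    have := Subgroup.mem_center_iff.mp hg (π h)
    simp only [map_mul, map_inv]
    rw [← this]
    group
  have hmul : ∀ a b : G, g * (a * b) * g⁻¹ * (a * b)⁻¹ = g * a * g⁻¹ * a⁻¹ * (g * b * g⁻¹ * b⁻¹) := by
    intro a b
    have hb := Subgroup.mem_center_iff.mp (hc b) (a⁻¹)
    calc g * (a * b) * g⁻¹ * (a * b)⁻¹
        = g * a * g⁻¹ * ((g * b * g⁻¹ * b⁻¹) * a⁻¹) := by group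
      _ = g * a * g⁻¹ * (a⁻¹ * (g * b * g⁻¹ * b⁻¹)) := by rw [hb]
      _ = g * a * g⁻¹ * a⁻¹ * (g * b * g⁻¹ * b⁻¹) := by group
  have h1 := perfect_central_map_trivial hG (fun h => g * h * g⁻¹ * h⁻¹) hc hmul
  rw [Subgroup.mem_center_iff]
  intro h
  have h3 : g * h * g⁻¹ * h⁻¹ = 1 := h1 h
  calc h * g = (g * h * g⁻¹ * h⁻¹)⁻¹ * (g * h) := by group
    _ = g * h := by rw [h3]; simp

/-- A stem extension of a perfect group is perfect. -/
theorem perfect_of_stem {Γ G : Type*} [Group Γ] [Group G] (hG : Group.IsPerfect G) (τ : Γ →* G)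
    (hτ : Cfsg.IsStemExtension τ) : Group.IsPerfect Γ := by
  obtain ⟨hsurj, -, hcomm⟩ := hτ
  rw [Group.isPerfect_def, eq_top_iff]
  intro x _
  have h1 : (commutator Γ).map τ = commutator G := by
    rw [commutator_def, Subgroup.map_commutator, ← MonoidHom.range_eq_map,
      MonoidHom.range_eq_top.mpr hsurj, ← commutator_def]
  have h2 : τ x ∈ (commutator Γ).map τ := by
    rw [h1, hG.commutator_eq_top]
    exact Subgroup.mem_top _
  obtain ⟨y, hy, hyx⟩ := h2
  have h3 : x * y⁻¹ ∈ commutator Γ := by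
    apply hcomm
    rw [MonoidHom.mem_ker, map_mul, map_inv, hyx, mul_inv_cancel]
  have h4 : x = x * y⁻¹ * y := by group
  rw [h4]
  exact Subgroup.mul_mem _ h3 hy

end Cfsg.Agent.Helper21
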