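import Mathlib
import Cfsg.Prelude.Def_KGroupFacts
import Cfsg.Agent.Helper21.Schur
import Cfsg.Agent.Helper21.Perfect

set_option autoImplicit false

namespace Cfsg.Agent.Helper21

universe u v

/-- For a homomorphism with central kernel, commutators only depend on the images. -/
theorem commutator_eq_of_map_eq {E G : Type*} [Group E] [Group G] (pr : E →* G)
    (hZ : pr.ker ≤ Subgroup.center E) (a a' b b' : E) (h1 : pr a = pr a') (h2 : pr b = pr b') :
    a * b * a⁻¹ * b⁻¹ = a' * b' * a'⁻¹ * b'⁻¹ := by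
  have hleft : ∀ a a' b : E, pr a = pr a' → a * b * a⁻¹ * b⁻¹ = a' * b * a'⁻¹ * b⁻¹ := by
    intro a a' b h
    have hz : a'⁻¹ * a ∈ Subgroup.center E := by
      apply hZ
      rw [MonoidHom.mem_ker, map_mul, map_inv, h, inv_mul_cancel]
    have hzb := Subgroup.mem_center_iff.mp hz b
    calc a * b * a⁻¹ * b⁻¹ = a' * ((a'⁻¹ * a) * b) * (a'⁻¹ * a)⁻¹ * a'⁻¹ * b⁻¹ := by group
      _ = a' * (b * (a'⁻¹ * a)) * (a'⁻¹ * a)⁻¹ * a'⁻¹ * b⁻¹ := by rw [hzb]
      _ = a' * b * a'⁻¹ * b⁻¹ := by group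
  have hright : ∀ a b b' : E, pr b = pr b' → a * b * a⁻¹ * b⁻¹ = a * b' * a⁻¹ * b'⁻¹ := by
    intro a b b' h
    have h1 := hleft b b' a h
    have h2 : a * b * a⁻¹ * b⁻¹ = (b * a * b⁻¹ * a⁻¹)⁻¹ := by group
    have h3 : a * b' * a⁻¹ * b'⁻¹ = (b' * a * b'⁻¹ * a⁻¹)⁻¹ := by group
    rw [h2, h3, h1]
  rw [hleft a a' b h1, hright a' b b' h2]

theorem card_commutatorSet_le {E G : Type*} [Group E] [Group G] [Finite E] [Finite G] (pr : E →* G)
    (hsurj : Function.Surjective pr) (hZ : pr.ker ≤ Subgroup.center E) :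
    Nat.card (commutatorSet E) ≤ Nat.card G ^ 2 := by
  have hsub : commutatorSet E ⊆ (fun ab : G × G =>
      Function.surjInv hsurj ab.1 * Function.surjInv hsurj ab.2
        * (Function.surjInv hsurj ab.1)⁻¹ * (Function.surjInv hsurj ab.2)⁻¹) '' Set.univ := by
    rintro x ⟨e1, e2, rfl⟩
    refine ⟨(pr e1, pr e2), Set.mem_univ _, ?_⟩
    rw [commutatorElement_def]
    exact commutator_eq_of_map_eq pr hZ _ _ _ _ (Function.surjInv_eq hsurj _)
      (Function.surjInv_eq hsurj _)
  calc Nat.card (commutatorSet E) = (commutatorSet E).ncard := Nat.card_coe_set_eq _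
    _ ≤ ((fun ab : G × G =>
      Function.surjInv hsurj ab.1 * Function.surjInv hsurj ab.2
        * (Function.surjInv hsurj ab.1)⁻¹ * (Function.surjInv hsurj ab.2)⁻¹) '' Set.univ).ncard :=
        Set.ncard_le_ncard hsub (Set.toFinite _)
    _ ≤ (Set.univ : Set (G × G)).ncard := Set.ncard_image_le (Set.toFinite _)
    _ = Nat.card G ^ 2 := by rw [Set.ncard_univ, Nat.card_prod, sq]

theorem stem_card_le {G : Type*} {Q : Type*} [Group G] [Group Q] [Finite G] [Finite Q] (π : G →* Q)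
    (hπ : Cfsg.IsStemExtension π) :
    Nat.card G ≤ Nat.card Q * Nat.card Q ^ (Nat.card Q * Nat.card Q ^ 2 + 1) := by
  have hQpos : 0 < Nat.card Q := Nat.card_pos
  have hidx : π.ker.index = Nat.card Q := by
    rw [Subgroup.index_ker, MonoidHom.range_eq_top.mpr hπ.1, Subgroup.card_top]
  have h1 : Nat.card G = Nat.card Q * Nat.card π.ker := by
    rw [← hidx]
    exact (Subgroup.index_mul_card _).symm
  have h2 : Nat.card π.ker ≤ Nat.card (commutator G) := Subgroup.card_le_of_le hπ.2.2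
  have h3 := Subgroup.card_commutator_dvd_index_center_pow G
  have hcpos : 0 < (Subgroup.center G).index := Nat.pos_of_ne_zero Subgroup.FiniteIndex.index_ne_zero
  have h4 : (Subgroup.center G).index ≤ Nat.card Q := by
    rw [← hidx]
    exact Nat.le_of_dvd (by rw [hidx]; exact hQpos) (Subgroup.index_dvd_of_le hπ.2.1)
  have h5 : Nat.card (commutatorSet G) ≤ Nat.card Q ^ 2 := card_commutatorSet_le π hπ.1 hπ.2.1
  have h6 : Nat.card (commutator G) ≤ Nat.card Q ^ (Nat.card Q * Nat.card Q ^ 2 + 1) := by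
    calc Nat.card (commutator G)
        ≤ (Subgroup.center G).index ^ ((Subgroup.center G).index * Nat.card (commutatorSet G) + 1) :=
          Nat.le_of_dvd (pow_pos hcpos _) h3
      _ ≤ Nat.card Q ^ ((Subgroup.center G).index * Nat.card (commutatorSet G) + 1) :=
          Nat.pow_le_pow_left h4 _
      _ ≤ Nat.card Q ^ (Nat.card Q * Nat.card Q ^ 2 + 1) :=
          Nat.pow_le_pow_right hQpos (Nat.succ_le_succ (Nat.mul_le_mul h4 h5))
  rw [h1]
  exact Nat.mul_le_mul_left _ (h2.trans h6)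

/-- A finite perfect group has a finite stem extension with trivial Schur multiplier. -/
theorem exists_stem_schur_one {Q : Type u} [Group Q] [Finite Q] (hQ : Group.IsPerfect Q) :
    ∃ (G : Type u) (_ : Group G) (_ : Finite G) (π : G →* Q),
      Cfsg.IsStemExtension π ∧ Cfsg.HasCyclicSchurMultiplier G 1 := by
  let S : Set ℕ := {N | ∃ (G : Type u) (_ : Group G) (_ : Finite G) (π : G →* Q),
    Cfsg.IsStemExtension π ∧ Nat.card G = N}
  have hne : S.Nonempty := by
    refine ⟨Nat.card Q, Q, inferInstance, inferInstance, MonoidHom.id Q, ⟨Function.surjective_id, ?_, ?_⟩, rfl⟩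
    · rw [MonoidHom.ker_id]; exact bot_le
    · rw [MonoidHom.ker_id]; exact bot_le
  have hbdd : BddAbove S := by
    refine ⟨Nat.card Q * Nat.card Q ^ (Nat.card Q * Nat.card Q ^ 2 + 1), ?_⟩
    rintro N ⟨G, _, _, π, hπ, rfl⟩
    exact stem_card_le π hπ
  obtain ⟨G, _, _, π, hπ, hN⟩ := Nat.sSup_mem hne hbdd
  refine ⟨G, inferInstance, inferInstance, π, hπ, ?_⟩
  apply schur_one_of_ker_bot
  intro Γ _ _ τ hτ
  have hGp : Group.IsPerfect G := perfect_of_stem hQ π hπ
  have hΓp : Group.IsPerfect Γ := perfect_of_stem hGp τ hτ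
  have hcomp : Cfsg.IsStemExtension (π.comp τ) := by
    refine ⟨hπ.1.comp hτ.1, ?_, ?_⟩
    · intro x hx
      apply perfect_mem_center_of_map_mem_center hΓp τ hτ.2.1 x
      apply hπ.2.1
      rw [MonoidHom.mem_ker]
      exact MonoidHom.mem_ker.mp hx
    · intro x _
      rw [hΓp.commutator_eq_top]
      exact Subgroup.mem_top _
  have hle : Nat.card Γ ≤ Nat.card G := by
    rw [hN]
    exact le_csSup hbdd ⟨Γ, inferInstance, inferInstance, π.comp τ, hcomp, rfl⟩
  have hidx : τ.ker.index = Nat.card G := by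
    rw [Subgroup.index_ker, MonoidHom.range_eq_top.mpr hτ.1, Subgroup.card_top]
  have h1 : Nat.card Γ = Nat.card G * Nat.card τ.ker := by
    rw [← hidx]
    exact (Subgroup.index_mul_card _).symm
  have hGpos : 0 < Nat.card G := Nat.card_pos
  have h2 : Nat.card τ.ker ≤ 1 := by
    by_contra hlt
    have h3 : 2 ≤ Nat.card τ.ker := by omega
    have h4 : Nat.card G * 2 ≤ Nat.card G * Nat.card τ.ker := Nat.mul_le_mul_left _ h3
    omega
  exact (Subgroup.card_le_one_iff_eq_bot τ.ker).mp h2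

end Cfsg.Agent.Helper21
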