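import Mathlib
import Cfsg.Prelude.Def_KGroupFacts
import Cfsg.Agent.Helper21.CentralImage
import Cfsg.Agent.Helper21.UniversalExists

/-!
Growing a stem extension; every finite stem extension is a quotient of a Schur cover.
-/

set_option autoImplicit false

namespace Cfsg.Agent.Helper21

universe u v w

open scoped IsMulCommutative commutatorElement

set_option maxHeartbeats 1600000 in
/-- Let `σ : Γ → Q` be a stem extension and `ε : E → Γ` a surjection from a finite central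
extension `E` of `Q` such that `ker ε` meets `[E, E]` nontrivially. Then there is a finite group
`X` with a surjective, non-injective `η : X → Γ` such that `σ ∘ η` is still a stem extension. -/
theorem exists_stem_growth {Q : Type u} [Group Q] {Γ : Type v} [Group Γ] (σ : Γ →* Q)
    (hσ : Cfsg.IsStemExtension σ)
    {E : Type w} [Group E] [Finite E] (ε : E →* Γ) (hε : Function.Surjective ε)
    (hc : (σ.comp ε).ker ≤ Subgroup.center E) (hne : ε.ker ⊓ commutator E ≠ ⊥) :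
    ∃ (X : Type w) (_ : Group X) (_ : Finite X) (η : X →* Γ),
      Function.Surjective η ∧ Cfsg.IsStemExtension (σ.comp η) ∧ ¬ Function.Injective η := by
  classical
  obtain ⟨x₀, hx₀, hx₀1⟩ : ∃ x₀ ∈ ε.ker ⊓ commutator E, x₀ ≠ 1 := by
    by_contra hall
    push_neg at hall
    exact hne ((Subgroup.eq_bot_iff_forall _).2 hall)
  have hKZ : ε.ker ≤ Subgroup.center E := fun x hx => hc (by
    rw [MonoidHom.mem_ker, MonoidHom.comp_apply, MonoidHom.mem_ker.1 hx, map_one])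
  haveI : NeZero (Monoid.exponent ↥(Subgroup.center E)) := ⟨Monoid.exponent_ne_zero_of_finite⟩
  haveI : NeZero (Monoid.exponent (Abelianization E)) := ⟨Monoid.exponent_ne_zero_of_finite⟩
  obtain ⟨χ, hχ⟩ := CommGroup.exists_apply_ne_one_of_hasEnoughRootsOfUnity
    ↥(Subgroup.center E) ℂ (a := ⟨x₀, hKZ hx₀.1⟩) (fun h => hx₀1 (congrArg Subtype.val h))
  -- the image of `D` under `χ`
  let DZ : Subgroup ↥(Subgroup.center E) := (ε.ker ⊓ commutator E).subgroupOf (Subgroup.center E)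
  let D' : Subgroup ℂˣ := DZ.map χ
  haveI : Finite ↥D' := Finite.of_surjective (χ.subgroupMap DZ) (χ.subgroupMap_surjective DZ)
  obtain ⟨ω', hω'⟩ := IsCyclic.exists_generator (α := ↥D')
  obtain ⟨d₁, hd₁, hd₁ω⟩ := Subgroup.mem_map.1 ω'.2
  have hNpos : 0 < orderOf (ω' : ℂˣ) := by
    rw [Subgroup.orderOf_coe]; exact orderOf_pos ω'
  obtain ⟨N, hN⟩ : ∃ N : ℕ, N = orderOf (ω' : ℂˣ) := ⟨_, rfl⟩
  rw [← hN] at hNpos
  haveI : NeZero N := ⟨hNpos.ne'⟩
  have hωN : (ω' : ℂˣ) ^ N = 1 := by rw [hN]; exact pow_orderOf_eq_one _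
  have hD'pow : ∀ y ∈ D', y ^ N = 1 := by
    intro y hy
    obtain ⟨j, hj⟩ := Subgroup.mem_zpowers_iff.1 (hω' ⟨y, hy⟩)
    have hj' : (ω' : ℂˣ) ^ j = y := by
      have := congrArg Subtype.val hj
      simpa using this
    rw [← hj', ← zpow_natCast, ← zpow_mul, mul_comm, zpow_mul, zpow_natCast, hωN, one_zpow]
  have hDZpow : ∀ d ∈ DZ, χ d ^ N = 1 := fun d hd => hD'pow _ (Subgroup.mem_map_of_mem χ hd)
  have hroots : ∀ ζ : ℂˣ, ζ ^ N = 1 → ∃ d ∈ DZ, χ d = ζ := by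
    intro ζ hζ
    have hprim : IsPrimitiveRoot ((ω' : ℂˣ) : ℂ) N := by
      rw [IsPrimitiveRoot.coe_units_iff, hN]
      exact IsPrimitiveRoot.orderOf _
    have hζ' : (ζ : ℂ) ^ N = 1 := by
      rw [← Units.val_pow_eq_pow_val, hζ, Units.val_one]
    obtain ⟨i, _, hi⟩ := hprim.eq_pow_of_pow_eq_one hζ'
    refine ⟨d₁ ^ i, pow_mem hd₁ i, ?_⟩
    rw [map_pow, hd₁ω]
    apply Units.ext
    rw [Units.val_pow_eq_pow_val, hi]
  have hω1 : (ω' : ℂˣ) ≠ 1 := by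
    intro h
    have hN1 : N = 1 := by rw [hN, h, orderOf_one]
    have h2 := hDZpow ⟨x₀, hKZ hx₀.1⟩ (Subgroup.mem_subgroupOf.2 hx₀)
    rw [hN1, pow_one] at h2
    exact hχ h2
  -- extend `χ ^ N` to a homomorphism `ψ` on `E`
  let ab : E →* Abelianization E := Abelianization.of
  let θ : ↥ε.ker →* ℂˣ := (powMonoidHom N).comp (χ.comp (Subgroup.inclusion hKZ))
  let q : ↥ε.ker →* ↥(ε.ker.map ab) := ab.subgroupMap ε.ker
  have hq : Function.Surjective q := ab.subgroupMap_surjective ε.ker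
  have hker : q.ker ≤ θ.ker := by
    intro k hk
    rw [MonoidHom.mem_ker] at hk ⊢
    have h1 : ab (k : E) = 1 := congrArg Subtype.val hk
    have h2 : (k : E) ∈ commutator E := by
      rw [← Abelianization.ker_of]; exact MonoidHom.mem_ker.2 h1
    exact hDZpow (Subgroup.inclusion hKZ k) (Subgroup.mem_subgroupOf.2 ⟨k.2, h2⟩)
  let gbar : ↥(ε.ker.map ab) →* ℂˣ := q.liftOfSurjective hq ⟨θ, hker⟩
  have hgbar : ∀ k : ↥ε.ker, gbar (q k) = θ k := fun k =>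
    MonoidHom.liftOfRightInverse_comp_apply _ _ _ ⟨θ, hker⟩ k
  obtain ⟨g, hg⟩ := (MonoidHom.domRestrict_surjective (G := Abelianization E) ℂ
    (ε.ker.map ab)) gbar
  let ψ : E →* ℂˣ := g.comp ab
  have hψK : ∀ (k : E) (hk : k ∈ ε.ker), ψ k = χ ⟨k, hKZ hk⟩ ^ N := by
    intro k hk
    have h1 : gbar (q ⟨k, hk⟩) = g (ab k) := by rw [← hg]; rfl
    have h2 := hgbar ⟨k, hk⟩
    rw [h1] at h2
    exact h2
  have hψc : ∀ y ∈ commutator E, ψ y = 1 := by
    intro y hy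
    have h1 : ab y = 1 := by
      rw [← Abelianization.ker_of] at hy; exact MonoidHom.mem_ker.1 hy
    show g (ab y) = 1
    rw [h1, map_one]
  -- N-th roots
  choose r hr using fun x : E => exists_units_pow_eq N hNpos (ψ x)
  -- the group `P`
  let P : Subgroup (E × ℂˣ) :=
    { carrier := {y | y.2 ^ N = ψ y.1}
      mul_mem' := by
        intro a b ha hb
        simp only [Set.mem_setOf_eq, Prod.snd_mul, Prod.fst_mul, mul_pow, map_mul] at ha hb ⊢
        rw [ha, hb]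
      one_mem' := by simp
      inv_mem' := by
        intro a ha
        simp only [Set.mem_setOf_eq, Prod.snd_inv, Prod.fst_inv, inv_pow, map_inv] at ha ⊢
        rw [ha] }
  have hPmem : ∀ y : E × ℂˣ, y ∈ P ↔ y.2 ^ N = ψ y.1 := fun y => Iff.rfl
  let R : Subgroup (E × ℂˣ) := (ε.ker.subtype.prod (χ.comp (Subgroup.inclusion hKZ))).range
  have hRmem : ∀ y : E × ℂˣ, y ∈ R ↔ ∃ (k : E) (hk : k ∈ ε.ker), y = (k, χ ⟨k, hKZ hk⟩) := by
    intro y
    constructor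
    · rintro ⟨k, rfl⟩
      exact ⟨k.1, k.2, rfl⟩
    · rintro ⟨k, hk, rfl⟩
      exact ⟨⟨k, hk⟩, rfl⟩
  haveI hRn : (R.subgroupOf P).Normal := by
    refine ⟨fun n hn g => ?_⟩
    rw [Subgroup.mem_subgroupOf] at hn ⊢
    obtain ⟨k, hk, hnk⟩ := (hRmem _).1 hn
    have : ((g * n * g⁻¹ : ↥P) : E × ℂˣ) = (n : E × ℂˣ) := by
      rw [Subgroup.coe_mul, Subgroup.coe_mul, Subgroup.coe_inv, hnk]
      apply Prod.ext
      · show (g : E × ℂˣ).1 * k * ((g : E × ℂˣ).1)⁻¹ = k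
        rw [Subgroup.mem_center_iff.1 (hKZ hk) (g : E × ℂˣ).1, mul_inv_cancel_right]
      · show (g : E × ℂˣ).2 * χ ⟨k, hKZ hk⟩ * ((g : E × ℂˣ).2)⁻¹ = χ ⟨k, hKZ hk⟩
        rw [mul_comm, inv_mul_cancel_left]
    rw [this]; exact hn
  haveI : Finite ↥P := by
    let f : ↥P → E × rootsOfUnity N ℂ := fun y =>
      (y.1.1, ⟨y.1.2 * (r y.1.1)⁻¹, by
        rw [mem_rootsOfUnity, mul_pow, inv_pow, (hPmem _).1 y.2, hr, mul_inv_cancel]⟩)
    have hf : Function.Injective f := by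
      intro y z hyz
      have h1 : y.1.1 = z.1.1 := congrArg (fun t : E × rootsOfUnity N ℂ => t.1) hyz
      have h2 : y.1.2 * (r y.1.1)⁻¹ = z.1.2 * (r z.1.1)⁻¹ :=
        congrArg (fun t : E × rootsOfUnity N ℂ => (t.2 : ℂˣ)) hyz
      rw [h1] at h2
      exact Subtype.ext (Prod.ext h1 (mul_right_cancel h2))
    exact Finite.of_injective f hf
  -- the maps
  let φ₀ : ↥P →* Γ := ε.comp ((MonoidHom.fst E ℂˣ).comp P.subtype)
  have hφ₀ : R.subgroupOf P ≤ φ₀.ker := by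
    intro y hy
    rw [Subgroup.mem_subgroupOf] at hy
    obtain ⟨k, hk, hyk⟩ := (hRmem _).1 hy
    rw [MonoidHom.mem_ker]
    show ε (y : E × ℂˣ).1 = 1
    rw [hyk]
    exact MonoidHom.mem_ker.1 hk
  let εt : (↥P ⧸ R.subgroupOf P) →* Γ := QuotientGroup.lift (R.subgroupOf P) φ₀ hφ₀
  let φ : (↥P ⧸ R.subgroupOf P) →* Q := σ.comp εt
  -- commutators of `P`
  have hcommP : ∀ y ∈ commutator E, ∀ h : ((y, 1) : E × ℂˣ) ∈ P,
      (⟨(y, 1), h⟩ : ↥P) ∈ commutator ↥P := by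
    have hle : commutator E ≤ ((commutator ↥P).map P.subtype).comap (MonoidHom.inl E ℂˣ) := by
      rw [commutator_eq_closure, Subgroup.closure_le]
      rintro _ ⟨a, b, rfl⟩
      show ∃ t ∈ commutator ↥P, P.subtype t = MonoidHom.inl E ℂˣ ⁅a, b⁆
      refine ⟨⁅(⟨(a, r a), hr a⟩ : ↥P), (⟨(b, r b), hr b⟩ : ↥P)⁆, ?_, ?_⟩
      · rw [commutator_def]
        exact Subgroup.commutator_mem_commutator (Subgroup.mem_top _) (Subgroup.mem_top _)
      · apply Prod.ext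
        · rfl
        · show r a * r b * (r a)⁻¹ * (r b)⁻¹ = 1
          rw [mul_comm (r a) (r b), mul_inv_cancel_right, mul_inv_cancel]
    intro y hy h
    obtain ⟨t, ht, hty⟩ := Subgroup.mem_map.1 (Subgroup.mem_comap.1 (hle hy))
    have : t = ⟨(y, 1), h⟩ := Subtype.ext hty
    rw [← this]; exact ht
  have hφ : Cfsg.IsStemExtension φ := by
    refine ⟨?_, ?_, ?_⟩
    · intro qq
      obtain ⟨γ, rfl⟩ := hσ.1 qq
      obtain ⟨x, rfl⟩ := hε γ
      exact ⟨QuotientGroup.mk ⟨(x, r x), hr x⟩, rfl⟩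
    · intro z hz
      obtain ⟨y, rfl⟩ := QuotientGroup.mk_surjective z
      have h1 : σ (ε (y : E × ℂˣ).1) = 1 := MonoidHom.mem_ker.1 hz
      have h2 : (y : E × ℂˣ).1 ∈ Subgroup.center E := hc (MonoidHom.mem_ker.2 h1)
      rw [Subgroup.mem_center_iff]
      intro g
      obtain ⟨g', rfl⟩ := QuotientGroup.mk_surjective g
      rw [← QuotientGroup.mk_mul, ← QuotientGroup.mk_mul]
      congr 1
      apply Subtype.ext
      apply Prod.ext
      · exact Subgroup.mem_center_iff.1 h2 (g' : E × ℂˣ).1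
      · exact mul_comm _ _
    · intro z hz
      obtain ⟨y, rfl⟩ := QuotientGroup.mk_surjective z
      have h1 : σ (ε (y : E × ℂˣ).1) = 1 := MonoidHom.mem_ker.1 hz
      have h3 : ε (y : E × ℂˣ).1 ∈ commutator Γ := hσ.2.2 (MonoidHom.mem_ker.2 h1)
      obtain ⟨y₁, hy₁, hy₁e⟩ := exists_mem_commutator_of_surjective ε hε h3
      obtain ⟨k, hkdef⟩ : ∃ k : E, k = y₁⁻¹ * (y : E × ℂˣ).1 := ⟨_, rfl⟩
      have hkK : k ∈ ε.ker := by
        rw [MonoidHom.mem_ker, hkdef, map_mul, map_inv, hy₁e, inv_mul_cancel]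
      have hyk : (y : E × ℂˣ).1 = y₁ * k := by rw [hkdef, mul_inv_cancel_left]
      have hψk : ψ (y : E × ℂˣ).1 = χ ⟨k, hKZ hkK⟩ ^ N := by
        rw [hyk, map_mul, hψc y₁ hy₁, one_mul, hψK k hkK]
      have hζ : ((y : E × ℂˣ).2 * (χ ⟨k, hKZ hkK⟩)⁻¹) ^ N = 1 := by
        rw [mul_pow, inv_pow, (hPmem _).1 y.2, hψk, mul_inv_cancel]
      obtain ⟨d, hd, hdζ⟩ := hroots _ hζ
      have hdD : (d : E) ∈ ε.ker ⊓ commutator E := Subgroup.mem_subgroupOf.1 hd
      have haP : ((y₁, 1) : E × ℂˣ) ∈ P := by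
        rw [hPmem]; show (1 : ℂˣ) ^ N = ψ y₁
        rw [one_pow, hψc y₁ hy₁]
      have hbP : (((d : E)⁻¹, 1) : E × ℂˣ) ∈ P := by
        rw [hPmem]; show (1 : ℂˣ) ^ N = ψ (d : E)⁻¹
        rw [one_pow, hψc _ (inv_mem hdD.2)]
      have hkd : k * (d : E) ∈ ε.ker := mul_mem hkK hdD.1
      have hcR : ((k * (d : E), χ ⟨k * (d : E), hKZ hkd⟩) : E × ℂˣ) ∈ R :=
        (hRmem _).2 ⟨_, hkd, rfl⟩
      have hcP : ((k * (d : E), χ ⟨k * (d : E), hKZ hkd⟩) : E × ℂˣ) ∈ P := by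
        rw [hPmem]; show χ ⟨k * (d : E), hKZ hkd⟩ ^ N = ψ (k * (d : E))
        rw [hψK _ hkd]
      have hχkd : χ ⟨k * (d : E), hKZ hkd⟩ = χ ⟨k, hKZ hkK⟩ * χ d := by
        rw [← map_mul]; rfl
      have hdecomp : y = (⟨(y₁, 1), haP⟩ : ↥P) * ⟨_, hcP⟩ * ⟨_, hbP⟩ := by
        apply Subtype.ext
        apply Prod.ext
        · show (y : E × ℂˣ).1 = y₁ * (k * (d : E)) * (d : E)⁻¹
          rw [hyk]; group
        · show (y : E × ℂˣ).2 = 1 * χ ⟨k * (d : E), hKZ hkd⟩ * 1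
          rw [hχkd, hdζ, one_mul, mul_one, mul_comm ((y : E × ℂˣ).2), mul_inv_cancel_left]
      rw [hdecomp, QuotientGroup.mk_mul, QuotientGroup.mk_mul]
      have hc1 : ((⟨_, hcP⟩ : ↥P) : ↥P ⧸ R.subgroupOf P) = 1 :=
        (QuotientGroup.eq_one_iff _).2 (Subgroup.mem_subgroupOf.2 hcR)
      rw [hc1, mul_one]
      exact mul_mem
        (map_mem_commutator (QuotientGroup.mk' (R.subgroupOf P)) (hcommP y₁ hy₁ haP))
        (map_mem_commutator (QuotientGroup.mk' (R.subgroupOf P))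
          (hcommP _ (inv_mem hdD.2) hbP))
  have hωP : ((1, (ω' : ℂˣ)) : E × ℂˣ) ∈ P := by
    rw [hPmem]; show (ω' : ℂˣ) ^ N = ψ 1
    rw [hωN, map_one]
  refine ⟨↥P ⧸ R.subgroupOf P, inferInstance, inferInstance, εt, ?_, hφ, ?_⟩
  · intro γ
    obtain ⟨x, rfl⟩ := hε γ
    exact ⟨QuotientGroup.mk ⟨(x, r x), hr x⟩, rfl⟩
  · intro hinj
    have heq : εt (QuotientGroup.mk (⟨_, hωP⟩ : ↥P)) = εt 1 := by
      show ε 1 = εt 1
      rw [map_one, map_one]
    have h2 : (QuotientGroup.mk (⟨_, hωP⟩ : ↥P) : ↥P ⧸ R.subgroupOf P) = 1 := hinj heq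
    rw [QuotientGroup.eq_one_iff, Subgroup.mem_subgroupOf] at h2
    obtain ⟨k, hk', hkeq⟩ := (hRmem _).1 h2
    have hk1 : k = 1 := (congrArg Prod.fst hkeq).symm
    have hω2 : (ω' : ℂˣ) = χ ⟨k, hKZ hk'⟩ := congrArg Prod.snd hkeq
    apply hω1
    rw [hω2]
    have : (⟨k, hKZ hk'⟩ : ↥(Subgroup.center E)) = 1 := Subtype.ext hk1
    rw [this, map_one]

/-- In a commutative square of surjections with `ker p₁ ⊓ [P, P] = ⊥`, either
`ker p₂ ⊓ [P, P] ≠ ⊥` or the kernels of `σ` and `τ` are isomorphic. -/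
theorem exists_mulEquiv_or_ne_one_of_square {P Γ E Q : Type*} [Group P] [Group Γ] [Group E]
    [Group Q] (σ : Γ →* Q) (τ : E →* Q) (p₁ : P →* Γ) (p₂ : P →* E)
    (hp₁ : Function.Surjective p₁) (hp₂ : Function.Surjective p₂)
    (hsq : ∀ t : P, σ (p₁ t) = τ (p₂ t)) (hσc : σ.ker ≤ commutator Γ)
    (hτc : τ.ker ≤ commutator E) (h : p₁.ker ⊓ commutator P = ⊥) :
    (∃ t ∈ p₂.ker ⊓ commutator P, t ≠ 1) ∨ Nonempty (σ.ker ≃* τ.ker) := by
  have huniq : ∀ t t' : P, t ∈ commutator P → t' ∈ commutator P → p₁ t = p₁ t' → t = t' := by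
    intro t t' ht ht' htt
    have h1 : t⁻¹ * t' ∈ (⊥ : Subgroup P) := by
      rw [← h]
      exact Subgroup.mem_inf.2 ⟨MonoidHom.mem_ker.2
        (by rw [map_mul, map_inv, htt, inv_mul_cancel]), mul_mem (inv_mem ht) ht'⟩
    rw [Subgroup.mem_bot] at h1
    exact inv_mul_eq_one.1 h1
  choose s hs1 hs2 using fun a : σ.ker =>
    exists_mem_commutator_of_surjective p₁ hp₁ (hσc a.2)
  have hsmul : ∀ a b : σ.ker, s (a * b) = s a * s b := by
    intro a b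
    apply huniq _ _ (hs1 _) (mul_mem (hs1 a) (hs1 b))
    rw [hs2, map_mul, hs2, hs2]; rfl
  have hsone : s 1 = 1 := by
    apply huniq _ _ (hs1 _) (one_mem _)
    rw [hs2, map_one]; rfl
  by_cases hex : ∃ a : σ.ker, a ≠ 1 ∧ p₂ (s a) = 1
  · obtain ⟨a, ha1, ha2⟩ := hex
    left
    refine ⟨s a, Subgroup.mem_inf.2 ⟨MonoidHom.mem_ker.2 ha2, hs1 a⟩, ?_⟩
    intro h1
    apply ha1
    apply Subtype.ext
    rw [← hs2 a, h1, map_one]; rfl
  · right
    push_neg at hex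
    have hmem : ∀ a : σ.ker, p₂ (s a) ∈ τ.ker := by
      intro a
      rw [MonoidHom.mem_ker, ← hsq, hs2]
      exact MonoidHom.mem_ker.1 a.2
    let π : σ.ker →* τ.ker :=
      { toFun := fun a => ⟨p₂ (s a), hmem a⟩
        map_one' := by
          apply Subtype.ext
          show p₂ (s 1) = 1
          rw [hsone, map_one]
        map_mul' := fun a b => by
          apply Subtype.ext
          show p₂ (s (a * b)) = p₂ (s a) * p₂ (s b)
          rw [hsmul, map_mul] }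
    have hinj : Function.Injective π := by
      rw [injective_iff_map_eq_one]
      intro a ha
      by_contra hne
      exact hex a hne (congrArg Subtype.val ha)
    have hsurj : Function.Surjective π := by
      rintro ⟨e, he⟩
      obtain ⟨t, ht, hte⟩ := exists_mem_commutator_of_surjective p₂ hp₂ (hτc he)
      have ha : p₁ t ∈ σ.ker := by
        rw [MonoidHom.mem_ker, hsq, hte]; exact MonoidHom.mem_ker.1 he
      have hst : s ⟨p₁ t, ha⟩ = t := huniq _ _ (hs1 _) ht (hs2 _)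
      refine ⟨⟨p₁ t, ha⟩, Subtype.ext ?_⟩
      show p₂ (s ⟨p₁ t, ha⟩) = e
      rw [hst, hte]
    exact ⟨MulEquiv.ofBijective π ⟨hinj, hsurj⟩⟩

/-- Every finite stem extension of `Q` is a quotient of a Schur covering group of `Q`. -/
theorem exists_schur_cover_over {Q : Type u} [Group Q] [Finite Q] {A : Type v} [CommGroup A]
    (hA : Cfsg.HasSchurMultiplier Q A) {Δ : Type u} [Group Δ] [Finite Δ] (τ : Δ →* Q)
    (hτ : Cfsg.IsStemExtension τ) :
    ∃ (Γ : Type u) (_ : Group Γ) (_ : Finite Γ) (σ : Γ →* Q), Cfsg.IsStemExtension σ ∧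
      Nonempty (σ.ker ≃* A) ∧ ∃ β : Γ →* Δ, Function.Surjective β ∧ τ.comp β = σ := by
  classical
  let S : Set ℕ := {N | ∃ (Γ : Type u) (_ : Group Γ) (_ : Finite Γ) (β : Γ →* Δ),
    Function.Surjective β ∧ Cfsg.IsStemExtension (τ.comp β) ∧ Nat.card Γ = N}
  have hne : S.Nonempty :=
    ⟨Nat.card Δ, Δ, inferInstance, inferInstance, MonoidHom.id Δ, Function.surjective_id,
      by rw [MonoidHom.comp_id]; exact hτ, rfl⟩
  have hbdd : BddAbove S := by
    refine ⟨Nat.card Q * Nat.card Q ^ (Nat.card Q * Nat.card Q ^ 2 + 1), ?_⟩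
    rintro N ⟨Γ, _, _, β, hβ, hst, rfl⟩
    exact stem_card_le (τ.comp β) hst
  obtain ⟨Γ, _, _, β, hβ, hst, hN⟩ := Nat.sSup_mem hne hbdd
  obtain ⟨Γ₀, _, _, σ₀, hσ₀, ⟨i₀⟩⟩ := hA.1
  have hk : Nat.card A ≤ Nat.card σ₀.ker := le_of_eq (Nat.card_congr i₀.symm.toEquiv)
  let p₁ : ↥(pullbackSubgroup σ₀ (τ.comp β)) →* Γ₀ :=
    (MonoidHom.fst Γ₀ Γ).comp (pullbackSubgroup σ₀ (τ.comp β)).subtype
  let p₂ : ↥(pullbackSubgroup σ₀ (τ.comp β)) →* Γ :=
    (MonoidHom.snd Γ₀ Γ).comp (pullbackSubgroup σ₀ (τ.comp β)).subtype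
  have hp₁ : Function.Surjective p₁ := pullback_fst_surjective σ₀ (τ.comp β) hst.1
  have hp₂ : Function.Surjective p₂ := pullback_snd_surjective σ₀ (τ.comp β) hσ₀.1
  have hsq : ∀ y : ↥(pullbackSubgroup σ₀ (τ.comp β)), σ₀ (p₁ y) = (τ.comp β) (p₂ y) :=
    fun y => y.2
  have hcen : ∀ y : ↥(pullbackSubgroup σ₀ (τ.comp β)), σ₀ (p₁ y) = 1 →
      y ∈ Subgroup.center ↥(pullbackSubgroup σ₀ (τ.comp β)) := by
    intro y h1
    have h2 : (τ.comp β) (p₂ y) = 1 := by rw [← hsq]; exact h1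
    have h3 : p₁ y ∈ Subgroup.center Γ₀ := hσ₀.2.1 (MonoidHom.mem_ker.2 h1)
    have h4 : p₂ y ∈ Subgroup.center Γ := hst.2.1 (MonoidHom.mem_ker.2 h2)
    rw [Subgroup.mem_center_iff]
    intro g
    apply Subtype.ext
    apply Prod.ext
    · exact Subgroup.mem_center_iff.1 h3 (p₁ g)
    · exact Subgroup.mem_center_iff.1 h4 (p₂ g)
  have hcen₁ : (σ₀.comp p₁).ker ≤ Subgroup.center ↥(pullbackSubgroup σ₀ (τ.comp β)) :=
    fun y hy => hcen y (MonoidHom.mem_ker.1 hy)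
  have hcen₂ : ((τ.comp β).comp p₂).ker ≤ Subgroup.center ↥(pullbackSubgroup σ₀ (τ.comp β)) :=
    fun y hy => hcen y (by rw [hsq]; exact MonoidHom.mem_ker.1 hy)
  have hL := ker_inf_commutator_eq_bot hA σ₀ hσ₀ hk p₁ hp₁ hcen₁
  rcases exists_mulEquiv_or_ne_one_of_square σ₀ (τ.comp β) p₁ p₂ hp₁ hp₂ hsq hσ₀.2.2 hst.2.2 hL
    with ⟨t, ht, ht1⟩ | ⟨⟨j⟩⟩
  · exfalso
    have hne' : p₂.ker ⊓ commutator ↥(pullbackSubgroup σ₀ (τ.comp β)) ≠ ⊥ := by
      intro hbot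
      rw [hbot, Subgroup.mem_bot] at ht
      exact ht1 ht
    obtain ⟨X, _, _, η, hη, hηst, hηinj⟩ := exists_stem_growth (τ.comp β) hst p₂ hp₂ hcen₂ hne'
    have hX : Nat.card X ∈ S :=
      ⟨X, inferInstance, inferInstance, β.comp η, hβ.comp hη, hηst, rfl⟩
    have hle : Nat.card X ≤ Nat.card Γ := by rw [hN]; exact le_csSup hbdd hX
    exact hηinj (hη.bijective_of_nat_card_le hle).1
  · exact ⟨Γ, inferInstance, inferInstance, τ.comp β, hst, ⟨j.symm.trans i₀⟩, β, hβ, rfl⟩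

end Cfsg.Agent.Helper21
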