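import Mathlib
import Cfsg.Prelude.Def_KGroupFacts
import Cfsg.Agent.Helper21.UniversalExists

/-!
The Schur multiplier of a finite group given by `n` generators and `r` relators is generated by
`r - n` elements.
-/

set_option autoImplicit false

namespace Cfsg.Agent.Helper21

/-- A homomorphism into a stem extension whose composite with the extension is surjective is
surjective. -/
theorem surjective_of_stem_comp {Γ G E : Type*} [Group Γ] [Group G] [Group E] (σ : Γ →* G)
    (hσ : Cfsg.IsStemExtension σ) (φ : E →* Γ) (h : Function.Surjective (σ.comp φ)) :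
    Function.Surjective φ := by
  have hcomm : commutator Γ ≤ φ.range := by
    rw [commutator_def, Subgroup.commutator_le]
    intro g₁ _ g₂ _
    obtain ⟨e₁, he₁⟩ := h (σ g₁)
    obtain ⟨e₂, he₂⟩ := h (σ g₂)
    refine ⟨e₁ * e₂ * e₁⁻¹ * e₂⁻¹, ?_⟩
    rw [commutatorElement_def,
      commutator_eq_of_map_eq σ hσ.2.1 g₁ (φ e₁) g₂ (φ e₂) he₁.symm he₂.symm]
    simp only [map_mul, map_inv]
  intro g
  obtain ⟨e, he⟩ := h (σ g)
  have hz : (φ e)⁻¹ * g ∈ σ.ker := by
    rw [MonoidHom.mem_ker, map_mul, map_inv]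
    have h1 : σ (φ e) = σ g := he
    rw [h1, inv_mul_cancel]
  obtain ⟨e', he'⟩ := hcomm (hσ.2.2 hz)
  exact ⟨e * e', by rw [map_mul, he']; group⟩

/-- The Schur multiplier of a finite group with `n` generators and a finite set of relators is
generated by a set `S` with `|S| + n ≤ |rels|`. -/
theorem schur_rank_presented (n : ℕ) (rels : Finset (FreeGroup (Fin n)))
    [Finite (PresentedGroup (rels : Set (FreeGroup (Fin n))))] {A : Type*} [CommGroup A]
    (hA : Cfsg.HasSchurMultiplier (PresentedGroup (rels : Set (FreeGroup (Fin n)))) A) :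
    ∃ S : Finset A, Subgroup.closure (S : Set A) = ⊤ ∧ S.card + n ≤ rels.card := by
  classical
  obtain ⟨Γ, _, _, σ, hσ, ⟨i⟩⟩ := hA.1
  choose x hx using fun j : Fin n => hσ.1 (PresentedGroup.of j)
  obtain ⟨φ, hφdef⟩ : ∃ φ : FreeGroup (Fin n) →* Γ, φ = FreeGroup.lift x := ⟨_, rfl⟩
  have hφ : ∀ w : FreeGroup (Fin n),
      σ (φ w) = PresentedGroup.mk (rels : Set (FreeGroup (Fin n))) w := by
    intro w
    have h1 : σ.comp φ = PresentedGroup.mk (rels : Set (FreeGroup (Fin n))) := by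
      ext j
      rw [MonoidHom.comp_apply, hφdef, FreeGroup.lift_apply_of, hx]
      rfl
    exact DFunLike.congr_fun h1 w
  have hφsurj : Function.Surjective φ := surjective_of_stem_comp σ hσ φ (by
    intro g
    obtain ⟨w, hw⟩ := PresentedGroup.mk_surjective (rels : Set (FreeGroup (Fin n))) g
    exact ⟨w, by rw [MonoidHom.comp_apply, hφ, hw]⟩)
  have hR : ∀ w : FreeGroup (Fin n),
      w ∈ Subgroup.normalClosure (rels : Set (FreeGroup (Fin n))) ↔ φ w ∈ σ.ker := by
    intro w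
    rw [MonoidHom.mem_ker, hφ, PresentedGroup.mk_eq_one_iff]
  have hcen : ∀ z : Γ, z ∈ σ.ker → ∀ g : Γ, g * z = z * g := fun z hz g =>
    Subgroup.mem_center_iff.1 (hσ.2.1 hz) g
  obtain ⟨ab, hab⟩ : ∃ ab : FreeGroup (Fin n) →* Multiplicative (Fin n →₀ ℤ),
      ∀ j, ab (FreeGroup.of j) = Multiplicative.ofAdd (Finsupp.single j 1) :=
    ⟨FreeGroup.lift (fun j => Multiplicative.ofAdd (Finsupp.single j (1 : ℤ))), fun j => by simp⟩
  have hrelR : ∀ j : ↥rels, φ (j : FreeGroup (Fin n)) ∈ σ.ker := fun j =>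
    (hR _).1 (Subgroup.subset_normalClosure (Finset.mem_coe.2 j.2))
  obtain ⟨α, hα⟩ : ∃ α : (↥rels →₀ ℤ) →ₗ[ℤ] Additive A, ∀ j : ↥rels,
      α (Finsupp.single j 1) = Additive.ofMul (i ⟨φ (j : FreeGroup (Fin n)), hrelR j⟩) :=
    ⟨Finsupp.linearCombination ℤ _, fun j => by
      rw [Finsupp.linearCombination_single, one_smul]⟩
  obtain ⟨β, hβ⟩ : ∃ β : (↥rels →₀ ℤ) →ₗ[ℤ] (Fin n →₀ ℤ), ∀ j : ↥rels,
      β (Finsupp.single j 1) = Multiplicative.toAdd (ab (j : FreeGroup (Fin n))) :=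
    ⟨Finsupp.linearCombination ℤ _, fun j => by
      rw [Finsupp.linearCombination_single, one_smul]⟩
  have K1 : ∀ w ∈ Subgroup.normalClosure (rels : Set (FreeGroup (Fin n))),
      ∃ l : ↥rels →₀ ℤ, (∃ hw : φ w ∈ σ.ker, α l = Additive.ofMul (i ⟨φ w, hw⟩)) ∧
        β l = Multiplicative.toAdd (ab w) := by
    let Θ : FreeGroup (Fin n) →* Γ × Multiplicative (Fin n →₀ ℤ) := φ.prod ab
    let T : Subgroup (Γ × Multiplicative (Fin n →₀ ℤ)) :=
      Subgroup.closure (Θ '' (rels : Set (FreeGroup (Fin n))))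
    have hT : ∀ y ∈ T, ∃ l : ↥rels →₀ ℤ,
        (∃ hy : y.1 ∈ σ.ker, α l = Additive.ofMul (i ⟨y.1, hy⟩)) ∧
        β l = Multiplicative.toAdd y.2 := by
      intro y hy
      refine Subgroup.closure_induction (p := fun y _ => ∃ l : ↥rels →₀ ℤ,
        (∃ hy : y.1 ∈ σ.ker, α l = Additive.ofMul (i ⟨y.1, hy⟩)) ∧
        β l = Multiplicative.toAdd y.2) ?_ ?_ ?_ ?_ hy
      · rintro _ ⟨w, hw, rfl⟩
        exact ⟨Finsupp.single ⟨w, Finset.mem_coe.1 hw⟩ 1,
          ⟨hrelR ⟨w, Finset.mem_coe.1 hw⟩, hα _⟩, hβ _⟩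
      · refine ⟨0, ⟨one_mem _, ?_⟩, ?_⟩
        · rw [map_zero]
          show (0 : Additive A) = Additive.ofMul (i (1 : σ.ker))
          rw [map_one]; rfl
        · rw [map_zero]; rfl
      · rintro y₁ y₂ _ _ ⟨l₁, ⟨h₁, e₁⟩, f₁⟩ ⟨l₂, ⟨h₂, e₂⟩, f₂⟩
        refine ⟨l₁ + l₂, ⟨mul_mem h₁ h₂, ?_⟩, ?_⟩
        · rw [map_add, e₁, e₂, ← ofMul_mul, ← map_mul]; rfl
        · rw [map_add, f₁, f₂]; rfl
      · rintro y _ ⟨l, ⟨h, e⟩, f⟩
        refine ⟨-l, ⟨inv_mem h, ?_⟩, ?_⟩
        · rw [map_neg, e, ← ofMul_inv, ← map_inv]; rfl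
        · rw [map_neg, f]; rfl
    haveI hN : (T.comap Θ).Normal := by
      constructor
      intro w hw g
      rw [Subgroup.mem_comap] at hw ⊢
      obtain ⟨l, ⟨h, -⟩, -⟩ := hT _ hw
      have h1 : Θ (g * w * g⁻¹) = Θ w := by
        apply Prod.ext
        · show φ (g * w * g⁻¹) = φ w
          rw [map_mul, map_mul, map_inv, hcen (φ w) h (φ g), mul_inv_cancel_right]
        · show ab (g * w * g⁻¹) = ab w
          rw [map_mul, map_mul, map_inv, mul_inv_cancel_comm]
      rw [h1]; exact hw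
    have hle : Subgroup.normalClosure (rels : Set (FreeGroup (Fin n))) ≤ T.comap Θ :=
      Subgroup.normalClosure_le_normal
        (fun w hw => Subgroup.subset_closure (Set.mem_image_of_mem Θ hw))
    intro w hw
    exact hT (Θ w) (hle hw)
  have hcommap : commutator Γ = (commutator (FreeGroup (Fin n))).map φ := by
    rw [commutator_def, commutator_def, Subgroup.map_commutator, ← MonoidHom.range_eq_map,
      MonoidHom.range_eq_top.2 hφsurj]
  have K2 : ∀ a : A, ∃ l : ↥rels →₀ ℤ, β l = 0 ∧ α l = Additive.ofMul a := by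
    intro a
    have hz : ((i.symm a : σ.ker) : Γ) ∈ commutator Γ := hσ.2.2 (i.symm a).2
    rw [hcommap] at hz
    obtain ⟨w, hwc, hwz⟩ := hz
    have hwR : w ∈ Subgroup.normalClosure (rels : Set (FreeGroup (Fin n))) := by
      rw [hR, hwz]; exact (i.symm a).2
    obtain ⟨l, ⟨hw, e⟩, f⟩ := K1 w hwR
    refine ⟨l, ?_, ?_⟩
    · rw [f]
      have h1 : ab w = 1 := MonoidHom.mem_ker.1 (Abelianization.commutator_subset_ker ab hwc)
      rw [h1]; rfl
    · rw [e]
      have h2 : (⟨φ w, hw⟩ : σ.ker) = i.symm a := Subtype.ext hwz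
      rw [h2, MulEquiv.apply_symm_apply]
  have he : 0 < Nat.card (PresentedGroup (rels : Set (FreeGroup (Fin n)))) := Nat.card_pos
  obtain ⟨e, hedef⟩ : ∃ e : ℕ, e = Nat.card (PresentedGroup (rels : Set (FreeGroup (Fin n)))) :=
    ⟨_, rfl⟩
  have he0 : (e : ℤ) ≠ 0 := by
    rw [hedef]; exact_mod_cast he.ne'
  have K3a : ∀ j : Fin n, (e : ℤ) • (Finsupp.single j (1 : ℤ)) ∈ LinearMap.range β := by
    intro j
    have h1 : (FreeGroup.of j) ^ e ∈ Subgroup.normalClosure (rels : Set (FreeGroup (Fin n))) := by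
      rw [← PresentedGroup.mk_eq_one_iff, map_pow, hedef, pow_card_eq_one']
    obtain ⟨l, -, f⟩ := K1 _ h1
    refine ⟨l, ?_⟩
    rw [f, map_pow, hab, toAdd_pow, toAdd_ofAdd, natCast_zsmul]
  have K3b : ∀ v : Fin n →₀ ℤ, (e : ℤ) • v ∈ LinearMap.range β := by
    intro v
    refine Finsupp.induction_linear v ?_ ?_ ?_
    · rw [smul_zero]; exact Submodule.zero_mem _
    · intro f g hf hg
      rw [smul_add]; exact Submodule.add_mem _ hf hg
    · intro j c
      have h1 : (e : ℤ) • Finsupp.single j c = c • ((e : ℤ) • Finsupp.single j (1 : ℤ)) := by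
        simp only [Finsupp.smul_single, smul_eq_mul, mul_one, mul_comm]
      rw [h1]; exact Submodule.smul_mem _ c (K3a j)
  have K3 : n ≤ Module.finrank ℤ ↥(LinearMap.range β) := by
    have hinj : Function.Injective ((e : ℤ) • (LinearMap.id : (Fin n →₀ ℤ) →ₗ[ℤ] (Fin n →₀ ℤ))) := by
      intro v v' h
      have h' : (e : ℤ) • v = (e : ℤ) • v' := h
      exact smul_right_injective _ he0 h'
    have hle : LinearMap.range ((e : ℤ) • (LinearMap.id : (Fin n →₀ ℤ) →ₗ[ℤ] (Fin n →₀ ℤ)))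
        ≤ LinearMap.range β := by
      rintro _ ⟨v, rfl⟩
      exact K3b v
    have h1 := LinearMap.finrank_range_of_inj hinj
    rw [Module.finrank_finsupp_self, Fintype.card_fin] at h1
    exact h1.symm.le.trans (Submodule.finrank_mono hle)
  have K4 : Module.finrank ℤ ↥(LinearMap.range β) + Module.finrank ℤ ↥(LinearMap.ker β)
      = rels.card := by
    have h1 := Submodule.finrank_quotient_add_finrank (LinearMap.ker β)
    rw [Module.finrank_finsupp_self, Fintype.card_coe] at h1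
    rw [← h1, β.quotKerEquivRange.finrank_eq]
  let b := Module.finBasis ℤ ↥(LinearMap.ker β)
  let S : Finset A := Finset.univ.image
    (fun m : Fin (Module.finrank ℤ ↥(LinearMap.ker β)) =>
      Additive.toMul (α ((b m : ↥(LinearMap.ker β)) : ↥rels →₀ ℤ)))
  refine ⟨S, ?_, ?_⟩
  · rw [Subgroup.eq_top_iff']
    intro a
    obtain ⟨l, hl0, hla⟩ := K2 a
    have hmem : ∀ l' : ↥(LinearMap.ker β),
        α (l' : ↥rels →₀ ℤ) ∈ (Subgroup.closure (S : Set A)).toAddSubgroup := by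
      intro l'
      have h1 : ((∑ m, (b.repr l' m) • b m : ↥(LinearMap.ker β)) : ↥rels →₀ ℤ)
          = (l' : ↥rels →₀ ℤ) := congrArg Subtype.val (b.sum_repr l')
      rw [← h1, Submodule.coe_sum, map_sum]
      refine AddSubgroup.sum_mem _ (fun m _ => ?_)
      rw [Submodule.coe_smul, map_smul]
      have h3 : Additive.toMul (α ((b m : ↥(LinearMap.ker β)) : ↥rels →₀ ℤ)) ∈
          Subgroup.closure (S : Set A) := Subgroup.subset_closure
        (Finset.mem_coe.2 (Finset.mem_image.2 ⟨m, Finset.mem_univ _, rfl⟩))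
      have h4 : α ((b m : ↥(LinearMap.ker β)) : ↥rels →₀ ℤ) ∈
          (Subgroup.closure (S : Set A)).toAddSubgroup := h3
      exact AddSubgroup.zsmul_mem _ h4 _
    have h2 : α l ∈ (Subgroup.closure (S : Set A)).toAddSubgroup :=
      hmem ⟨l, LinearMap.mem_ker.2 hl0⟩
    rw [hla] at h2
    exact h2
  · have hc : S.card ≤ Module.finrank ℤ ↥(LinearMap.ker β) := by
      refine (Finset.card_image_le).trans ?_
      rw [Finset.card_univ, Fintype.card_fin]
    omega

end Cfsg.Agent.Helper21
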