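import Mathlib
import Cfsg.Prelude.Def_KGroupFacts
import Cfsg.Agent.Helper21.CentralImage
import Cfsg.Agent.Helper21.DefRank

/-!
Uniqueness of the Schur cover over `Q` when `|Q^ab|` and `|M(Q)|` are coprime.
-/

set_option autoImplicit false

namespace Cfsg.Agent.Helper21

universe u v

theorem card_eq_of_surjective_hom {Q : Type*} {Γ : Type*} [Group Q] [Group Γ] (σ : Γ →* Q)
    (hs : Function.Surjective σ) : Nat.card Γ = Nat.card Q * Nat.card σ.ker := by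
  rw [Subgroup.card_eq_card_quotient_mul_card_subgroup σ.ker,
    Nat.card_congr (QuotientGroup.quotientKerEquivOfSurjective σ hs).toEquiv]

theorem commutator_eq_map_of_surjective {G H : Type*} [Group G] [Group H] (f : G →* H)
    (hf : Function.Surjective f) : commutator H = (commutator G).map f := by
  rw [commutator_def, commutator_def, Subgroup.map_commutator, ← MonoidHom.range_eq_map,
    MonoidHom.range_eq_top.2 hf]

/-- If `|Q^ab|` and `|M(Q)|` are coprime, any two Schur covers of `Q` are isomorphic over `Q`. -/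
theorem schur_cover_unique_of_coprime {Q : Type u} [Group Q] [Finite Q] {A : Type v}
    [CommGroup A] (hA : Cfsg.HasSchurMultiplier Q A)
    (hcop : Nat.Coprime (Nat.card (Abelianization Q)) (Nat.card A))
    (Γ₁ Γ₂ : Type u) [Group Γ₁] [Finite Γ₁] [Group Γ₂] [Finite Γ₂] (σ₁ : Γ₁ →* Q) (σ₂ : Γ₂ →* Q)
    (hσ₁ : Cfsg.IsStemExtension σ₁) (hσ₂ : Cfsg.IsStemExtension σ₂)
    (i₁ : σ₁.ker ≃* A) (i₂ : σ₂.ker ≃* A) : ∃ e : Γ₁ ≃* Γ₂, σ₂.comp e.toMonoidHom = σ₁ := by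
  classical
  obtain ⟨m, hm⟩ : ∃ m : ℕ, m = Nat.card (Abelianization Q) := ⟨_, rfl⟩
  obtain ⟨a, ha⟩ : ∃ a : ℕ, a = Nat.card A := ⟨_, rfl⟩
  rw [← hm, ← ha] at hcop
  let P : Subgroup (Γ₁ × Γ₂) := pullbackSubgroup σ₁ σ₂
  let p₁ : ↥P →* Γ₁ := (MonoidHom.fst Γ₁ Γ₂).comp P.subtype
  let p₂ : ↥P →* Γ₂ := (MonoidHom.snd Γ₁ Γ₂).comp P.subtype
  have hp₁ : Function.Surjective p₁ := pullback_fst_surjective σ₁ σ₂ hσ₂.1
  have hsq : ∀ t : ↥P, σ₁ (p₁ t) = σ₂ (p₂ t) := fun t => t.2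
  have hcen : (σ₁.comp p₁).ker ≤ Subgroup.center ↥P := by
    intro y hy
    have h1 : σ₁ (y : Γ₁ × Γ₂).1 = 1 := MonoidHom.mem_ker.1 hy
    have h2 : σ₂ (y : Γ₁ × Γ₂).2 = 1 := by
      rw [← (mem_pullbackSubgroup σ₁ σ₂ _).1 y.2]; exact h1
    have h3 : (y : Γ₁ × Γ₂).1 ∈ Subgroup.center Γ₁ := hσ₁.2.1 (MonoidHom.mem_ker.2 h1)
    have h4 : (y : Γ₁ × Γ₂).2 ∈ Subgroup.center Γ₂ := hσ₂.2.1 (MonoidHom.mem_ker.2 h2)
    rw [Subgroup.mem_center_iff]
    intro g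
    apply Subtype.ext
    apply Prod.ext
    · exact Subgroup.mem_center_iff.1 h3 (g : Γ₁ × Γ₂).1
    · exact Subgroup.mem_center_iff.1 h4 (g : Γ₁ × Γ₂).2
  have hk : Nat.card A ≤ Nat.card σ₁.ker := le_of_eq (Nat.card_congr i₁.symm.toEquiv)
  have hL : p₁.ker ⊓ commutator ↥P = ⊥ := ker_inf_commutator_eq_bot hA σ₁ hσ₁ hk p₁ hp₁ hcen
  have hkcen : ∀ k : ↥P, p₁ k = 1 → ∀ g : ↥P, g * k = k * g := by
    intro k hk1 g
    have h1 : k ∈ (σ₁.comp p₁).ker := by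
      rw [MonoidHom.mem_ker, MonoidHom.comp_apply, hk1, map_one]
    exact Subgroup.mem_center_iff.1 (hcen h1) g
  have hka : ∀ k : ↥P, p₁ k = 1 → k ^ a = 1 := by
    intro k hk1
    have h2 : σ₂ (p₂ k) = 1 := by rw [← hsq, hk1, map_one]
    have h3 : (⟨p₂ k, MonoidHom.mem_ker.2 h2⟩ : σ₂.ker) ^ a = 1 := by
      rw [ha, ← Nat.card_congr i₂.toEquiv]; exact pow_card_eq_one'
    have h4 : (p₂ k) ^ a = 1 := congrArg Subtype.val h3
    apply Subtype.ext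
    apply Prod.ext
    · have h5 : p₁ (k ^ a) = 1 := by rw [map_pow, hk1, one_pow]
      exact h5
    · have h5 : p₂ (k ^ a) = (p₂ k) ^ a := map_pow _ _ _
      rw [h4] at h5
      exact h5
  have hpowm : ∀ γ : Γ₁, γ ^ m ∈ commutator Γ₁ := by
    intro γ
    have h1 : (Abelianization.of (σ₁ γ) : Abelianization Q) ^ m = 1 := by
      rw [hm]; exact pow_card_eq_one'
    have h2 : σ₁ (γ ^ m) ∈ commutator Q := by
      rw [← Abelianization.ker_of, MonoidHom.mem_ker, map_pow, map_pow]; exact h1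
    rw [commutator_eq_map_of_surjective σ₁ hσ₁.1] at h2
    obtain ⟨c₁, hc₁, hc₁e⟩ := h2
    have h3 : γ ^ m * c₁⁻¹ ∈ σ₁.ker := by
      rw [MonoidHom.mem_ker, map_mul, map_inv, hc₁e, mul_inv_cancel]
    have h4 := (commutator Γ₁).mul_mem (hσ₁.2.2 h3) hc₁
    rwa [inv_mul_cancel_right] at h4
  obtain ⟨D, hD⟩ : ∃ D : Subgroup ↥P, ∀ g : ↥P, g ∈ D ↔ g ^ m ∈ commutator ↥P := by
    refine ⟨((powMonoidHom m : Abelianization ↥P →* Abelianization ↥P).ker).comap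
      Abelianization.of, ?_⟩
    intro g
    rw [Subgroup.mem_comap, MonoidHom.mem_ker, powMonoidHom_apply, ← map_pow,
      ← MonoidHom.mem_ker, Abelianization.ker_of]
  have hE1 : ∀ d ∈ D, p₁ d = 1 → d = 1 := by
    intro d hd hd1
    have h1 : d ^ m ∈ p₁.ker ⊓ commutator ↥P :=
      Subgroup.mem_inf.2 ⟨MonoidHom.mem_ker.2 (by rw [map_pow, hd1, one_pow]), (hD d).1 hd⟩
    rw [hL, Subgroup.mem_bot] at h1
    have h2 := hka d hd1
    have h3 : orderOf d ∣ Nat.gcd m a :=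
      Nat.dvd_gcd (orderOf_dvd_of_pow_eq_one h1) (orderOf_dvd_of_pow_eq_one h2)
    rw [Nat.Coprime.gcd_eq_one hcop] at h3
    exact orderOf_eq_one_iff.1 (Nat.dvd_one.1 h3)
  have hE2 : ∀ g : ↥P, ∃ d ∈ D, p₁ d = p₁ g := by
    intro g
    have h1 := hpowm (p₁ g)
    rw [commutator_eq_map_of_surjective p₁ hp₁] at h1
    obtain ⟨c, hc, hce⟩ := h1
    have hk1 : p₁ (c⁻¹ * g ^ m) = 1 := by rw [map_mul, map_inv, hce, map_pow, inv_mul_cancel]
    obtain ⟨k, hkdef⟩ : ∃ k : ↥P, k = c⁻¹ * g ^ m := ⟨_, rfl⟩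
    rw [← hkdef] at hk1
    have hkk : k ^ a = 1 := hka k hk1
    have hb := Nat.gcd_eq_gcd_ab m a
    rw [Nat.Coprime.gcd_eq_one hcop] at hb
    have hkpow : (k ^ (Nat.gcdA m a)) ^ m = k := by
      have h2 : k ^ ((m : ℤ) * Nat.gcdA m a + (a : ℤ) * Nat.gcdB m a) = k := by
        rw [← hb]; simp
      rw [zpow_add, zpow_mul, zpow_mul, zpow_natCast, zpow_natCast, hkk, one_zpow, mul_one] at h2
      rw [← zpow_natCast, ← zpow_mul, mul_comm, zpow_mul, zpow_natCast]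
      exact h2
    have h5 : p₁ ((k ^ (Nat.gcdA m a))⁻¹) = 1 := by
      rw [map_inv, map_zpow, hk1, one_zpow, inv_one]
    refine ⟨g * (k ^ (Nat.gcdA m a))⁻¹, ?_, ?_⟩
    · rw [hD]
      have hkc : Commute g (k ^ (Nat.gcdA m a))⁻¹ := hkcen _ h5 g
      rw [hkc.mul_pow, inv_pow, hkpow, hkdef]
      have h6 : g ^ m * (c⁻¹ * g ^ m)⁻¹ = c := by group
      rw [h6]; exact hc
    · rw [map_mul, h5, mul_one]
  have hinj : Function.Injective (p₁.comp D.subtype) := by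
    rw [injective_iff_map_eq_one]
    intro d hd
    exact Subtype.ext (hE1 d.1 d.2 hd)
  have hsurj : Function.Surjective (p₁.comp D.subtype) := by
    intro γ
    obtain ⟨g, rfl⟩ := hp₁ γ
    obtain ⟨d, hd, hde⟩ := hE2 g
    exact ⟨⟨d, hd⟩, hde⟩
  let e₀ : ↥D ≃* Γ₁ := MulEquiv.ofBijective (p₁.comp D.subtype) ⟨hinj, hsurj⟩
  let e' : Γ₁ →* Γ₂ := (p₂.comp D.subtype).comp e₀.symm.toMonoidHom
  have he' : σ₂.comp e' = σ₁ := by
    ext γ
    have h1 : p₁ ((e₀.symm γ : ↥D) : ↥P) = γ := e₀.apply_symm_apply γ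
    show σ₂ (p₂ ((e₀.symm γ : ↥D) : ↥P)) = σ₁ γ
    rw [← hsq, h1]
  have hs' : Function.Surjective e' :=
    surjective_of_stem_comp σ₂ hσ₂ e' (by rw [he']; exact hσ₁.1)
  have hcard : Nat.card Γ₁ = Nat.card Γ₂ := by
    rw [card_eq_of_surjective_hom σ₁ hσ₁.1, card_eq_of_surjective_hom σ₂ hσ₂.1,
      Nat.card_congr i₁.toEquiv, Nat.card_congr i₂.toEquiv]
  have hbij : Function.Bijective e' :=
    (Nat.bijective_iff_surjective_and_card e').2 ⟨hs', hcard⟩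
  exact ⟨MulEquiv.ofBijective e' hbij,
    (MonoidHom.ext fun γ => rfl :
      σ₂.comp (MulEquiv.ofBijective e' hbij).toMonoidHom = σ₂.comp e').trans he'⟩

end Cfsg.Agent.Helper21
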