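import Mathlib
import Cfsg.Prelude.Def_KGroupFacts
import Cfsg.Agent.Helper21.CoverUnique

/-!
Twisting a Schur cover: if a prime divides both `|Q^ab|` and the order of the kernel of a stem
extension of `Q`, there is another stem extension with isomorphic kernel which is not isomorphic
to the first one over `Q`.
-/

set_option autoImplicit false

namespace Cfsg.Agent.Helper21

universe u v

open scoped commutatorElement

/-- A cyclic quotient of `Q` of order divisible by `p` which splits off `Q^ab`. -/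
theorem exists_cyclic_quotient_data {Q : Type*} [Group Q] [Finite Q] (p : ℕ) (hp : p.Prime)
    (hpQ : p ∣ Nat.card (Abelianization Q)) :
    ∃ (m : ℕ) (χ : Q →* Multiplicative (ZMod m)) (v : Q), 0 < m ∧ p ∣ m ∧
      χ v = Multiplicative.ofAdd 1 ∧ v ^ m ∈ commutator Q := by
  classical
  obtain ⟨ι, _, n, hn, ⟨f⟩⟩ := CommGroup.equiv_prod_multiplicative_zmod_of_finite (Abelianization Q)
  have hcard : Nat.card (Abelianization Q) = ∏ i, n i := by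
    rw [Nat.card_congr f.toEquiv, Nat.card_pi]
    refine Finset.prod_congr rfl (fun i _ => ?_)
    exact (Nat.card_congr Multiplicative.toAdd).trans (Nat.card_zmod _)
  rw [hcard] at hpQ
  obtain ⟨i₀, -, hi₀⟩ := (Prime.dvd_finset_prod_iff (Nat.Prime.prime hp) _).1 hpQ
  have hm0 : 0 < n i₀ := lt_trans Nat.zero_lt_one (hn i₀)
  obtain ⟨v, hv⟩ := QuotientGroup.mk_surjective (s := commutator Q)
    (f.symm (Pi.mulSingle i₀ (Multiplicative.ofAdd (1 : ZMod (n i₀)))))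
  have hv' : (Abelianization.of v : Abelianization Q)
      = f.symm (Pi.mulSingle i₀ (Multiplicative.ofAdd (1 : ZMod (n i₀)))) := hv
  refine ⟨n i₀, (Pi.evalMonoidHom (fun i => Multiplicative (ZMod (n i))) i₀).comp
    (f.toMonoidHom.comp Abelianization.of), v, hm0, hi₀, ?_, ?_⟩
  · show (f (Abelianization.of v)) i₀ = _
    rw [hv', MulEquiv.apply_symm_apply, Pi.mulSingle_eq_same]
  · rw [← Abelianization.ker_of, MonoidHom.mem_ker, map_pow, hv', ← map_pow]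
    have h1 : (Pi.mulSingle i₀ (Multiplicative.ofAdd (1 : ZMod (n i₀))) :
        (i : ι) → Multiplicative (ZMod (n i))) ^ (n i₀) = 1 := by
      ext i
      by_cases hi : i = i₀
      · subst hi
        rw [Pi.pow_apply, Pi.mulSingle_eq_same, Pi.one_apply, ← ofAdd_nsmul, nsmul_eq_mul,
          mul_one, ZMod.natCast_self]
        rfl
      · rw [Pi.pow_apply, Pi.mulSingle_eq_of_ne hi, one_pow, Pi.one_apply]
    rw [h1, map_one]

set_option maxHeartbeats 1000000 in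
/-- Twisting a stem extension by a cyclic extension of a cyclic quotient of `Q`. -/
theorem schur_cover_twist {Q : Type u} [Group Q] [Finite Q] {Γ : Type u} [Group Γ] [Finite Γ]
    (σ : Γ →* Q) (hσ : Cfsg.IsStemExtension σ) (p : ℕ) (hp : p.Prime)
    (hpQ : p ∣ Nat.card (Abelianization Q)) (hpZ : p ∣ Nat.card σ.ker) :
    ∃ (Γ₂ : Type u) (_ : Group Γ₂) (_ : Finite Γ₂) (σ₂ : Γ₂ →* Q), Cfsg.IsStemExtension σ₂ ∧
      Nonempty (σ.ker ≃* σ₂.ker) ∧ ¬ ∃ e : Γ ≃* Γ₂, σ₂.comp e.toMonoidHom = σ := by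
  classical
  obtain ⟨m, χ, v, hm0, hpm, hχv, hvm⟩ := exists_cyclic_quotient_data p hp hpQ
  haveI : NeZero m := ⟨hm0.ne'⟩
  have hm0' : (m : ℤ) ≠ 0 := by exact_mod_cast hm0.ne'
  have hcen : ∀ y : Γ, y ∈ σ.ker → ∀ g : Γ, g * y = y * g := fun y hy g =>
    Subgroup.mem_center_iff.1 (hσ.2.1 hy) g
  obtain ⟨z, hzker, hz⟩ : ∃ z : Γ, z ∈ σ.ker ∧ ∀ y : Γ, y ∈ σ.ker → y ^ m ≠ z := by
    haveI : Fact p.Prime := ⟨hp⟩
    obtain ⟨t, ht⟩ := exists_prime_orderOf_dvd_card' p hpZ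
    have hnot : ¬ Function.Surjective (fun y : ↥σ.ker => y ^ m) := by
      intro hs
      have hi := Finite.injective_iff_surjective.2 hs
      have h1 : t ^ m = 1 := by
        obtain ⟨k, rfl⟩ := hpm
        rw [pow_mul, ← ht, pow_orderOf_eq_one, one_pow]
      have h2 : t = 1 := hi (by
        show t ^ m = 1 ^ m
        rw [h1, one_pow])
      rw [h2, orderOf_one] at ht
      exact hp.one_lt.ne' ht.symm
    simp only [Function.Surjective, not_forall, not_exists] at hnot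
    obtain ⟨z, hz⟩ := hnot
    exact ⟨z, z.2, fun y hy h => hz ⟨y, hy⟩ (Subtype.ext h)⟩
  let π : Multiplicative ℤ →* Multiplicative (ZMod m) :=
    (Int.castAddHom (ZMod m)).toMultiplicative
  have hπ : ∀ k : ℤ, π (Multiplicative.ofAdd k) = Multiplicative.ofAdd (k : ZMod m) :=
    fun k => rfl
  let W : Subgroup (Γ × Multiplicative ℤ) :=
    (χ.comp (σ.comp (MonoidHom.fst Γ (Multiplicative ℤ)))).eqLocus
      (π.comp (MonoidHom.snd Γ (Multiplicative ℤ)))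
  have hW : ∀ w : Γ × Multiplicative ℤ, w ∈ W ↔ χ (σ w.1) = π w.2 := fun w => Iff.rfl
  have hn₀ : ((z⁻¹, Multiplicative.ofAdd (m : ℤ)) : Γ × Multiplicative ℤ) ∈ W := by
    rw [hW]
    show χ (σ z⁻¹) = π (Multiplicative.ofAdd (m : ℤ))
    rw [map_inv, MonoidHom.mem_ker.1 hzker, inv_one, map_one, hπ, Int.cast_natCast,
      ZMod.natCast_self]
    rfl
  obtain ⟨n₀, hn₀def⟩ : ∃ n₀ : ↥W, (n₀ : Γ × Multiplicative ℤ)
      = (z⁻¹, Multiplicative.ofAdd (m : ℤ)) := ⟨⟨_, hn₀⟩, rfl⟩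
  have hn₀pow : ∀ t : ℤ, ((n₀ ^ t : ↥W) : Γ × Multiplicative ℤ)
      = (z ^ (-t), Multiplicative.ofAdd (t * m)) := by
    intro t
    rw [Subgroup.coe_zpow, hn₀def]
    apply Prod.ext
    · show (z⁻¹) ^ t = z ^ (-t)
      rw [inv_zpow, zpow_neg]
    · show (Multiplicative.ofAdd (m : ℤ)) ^ t = Multiplicative.ofAdd (t * m)
      rw [← ofAdd_zsmul, smul_eq_mul]
  have hn₀cen : ∀ g : ↥W, Commute g n₀ := by
    intro g
    apply Subtype.ext
    apply Prod.ext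
    · show (g : Γ × Multiplicative ℤ).1 * (n₀ : Γ × Multiplicative ℤ).1
        = (n₀ : Γ × Multiplicative ℤ).1 * (g : Γ × Multiplicative ℤ).1
      rw [hn₀def]
      exact hcen z⁻¹ (inv_mem hzker) _
    · show (g : Γ × Multiplicative ℤ).2 * (n₀ : Γ × Multiplicative ℤ).2
        = (n₀ : Γ × Multiplicative ℤ).2 * (g : Γ × Multiplicative ℤ).2
      exact mul_comm _ _
  obtain ⟨N, hNdef⟩ : ∃ N : Subgroup ↥W, N = Subgroup.zpowers n₀ := ⟨_, rfl⟩
  have hNmem : ∀ w : ↥W, w ∈ N ↔ ∃ t : ℤ, n₀ ^ t = w := by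
    intro w; rw [hNdef]; exact Subgroup.mem_zpowers_iff
  haveI hNn : N.Normal := by
    constructor
    intro x hx g
    obtain ⟨t, rfl⟩ := (hNmem x).1 hx
    have h1 : g * n₀ ^ t = n₀ ^ t * g := (hn₀cen g).zpow_right t
    rw [h1, mul_inv_cancel_right]
    exact (hNmem _).2 ⟨t, rfl⟩
  let ψ : ↥W →* Q := σ.comp ((MonoidHom.fst Γ (Multiplicative ℤ)).comp W.subtype)
  have hψN : N ≤ ψ.ker := by
    intro x hx
    obtain ⟨t, rfl⟩ := (hNmem x).1 hx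
    rw [MonoidHom.mem_ker]
    show σ ((n₀ ^ t : ↥W) : Γ × Multiplicative ℤ).1 = 1
    rw [hn₀pow]
    exact MonoidHom.mem_ker.1 (zpow_mem hzker _)
  let σ₂ : ↥W ⧸ N →* Q := QuotientGroup.lift N ψ hψN
  have hσ₂mk : ∀ w : ↥W, σ₂ (QuotientGroup.mk w) = σ (w : Γ × Multiplicative ℤ).1 :=
    fun w => rfl
  have hπsurj : ∀ y : Multiplicative (ZMod m), ∃ x : Multiplicative ℤ, π x = y := by
    intro y
    refine ⟨Multiplicative.ofAdd ((ZMod.val (Multiplicative.toAdd y) : ℕ) : ℤ), ?_⟩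
    rw [hπ, Int.cast_natCast, ZMod.natCast_zmod_val]
    rfl
  have hWlift : Function.Surjective ((MonoidHom.fst Γ (Multiplicative ℤ)).comp W.subtype) := by
    intro g
    obtain ⟨x, hx⟩ := hπsurj (χ (σ g))
    exact ⟨⟨(g, x), hx.symm⟩, rfl⟩
  have hσ₂surj : Function.Surjective σ₂ := by
    intro q
    obtain ⟨g, rfl⟩ := hσ.1 q
    obtain ⟨w, hw⟩ := hWlift g
    refine ⟨QuotientGroup.mk w, ?_⟩
    rw [hσ₂mk]
    exact congrArg σ hw
  have hkerπ : ∀ x : Multiplicative ℤ, π x = 1 → ∃ t : ℤ, x = Multiplicative.ofAdd (t * m) := by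
    intro x hx
    have h1 : ((Multiplicative.toAdd x : ℤ) : ZMod m) = 0 := hx
    rw [ZMod.intCast_zmod_eq_zero_iff_dvd] at h1
    obtain ⟨t, ht⟩ := h1
    exact ⟨t, by rw [mul_comm, ← ht]; rfl⟩
  have hyW : ∀ y : ↥σ.ker, ((y : Γ), (1 : Multiplicative ℤ)) ∈ W := by
    intro y
    rw [hW]
    show χ (σ (y : Γ)) = π 1
    rw [MonoidHom.mem_ker.1 y.2, map_one, map_one]
  let j₀ : ↥σ.ker →* ↥W ⧸ N :=
    { toFun := fun y => QuotientGroup.mk (⟨((y : Γ), 1), hyW y⟩ : ↥W)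
      map_one' := rfl
      map_mul' := fun y y' => rfl }
  have hj₀ker : ∀ y : ↥σ.ker, σ₂ (j₀ y) = 1 := fun y => MonoidHom.mem_ker.1 y.2
  have hj₀inj : ∀ y : ↥σ.ker, j₀ y = 1 → y = 1 := by
    intro y hy
    have h1 : (⟨((y : Γ), 1), hyW y⟩ : ↥W) ∈ N := (QuotientGroup.eq_one_iff _).1 hy
    obtain ⟨t, ht⟩ := (hNmem _).1 h1
    have h2 : ((n₀ ^ t : ↥W) : Γ × Multiplicative ℤ) = ((y : Γ), 1) := congrArg Subtype.val ht
    rw [hn₀pow] at h2
    have h3 : (Multiplicative.ofAdd (t * (m : ℤ)) : Multiplicative ℤ) = 1 := congrArg Prod.snd h2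
    have h4 : t * (m : ℤ) = 0 := h3
    have h5 : t = 0 := by
      rcases mul_eq_zero.1 h4 with h | h
      · exact h
      · exact absurd h hm0'
    have h6 : z ^ (-t) = (y : Γ) := congrArg Prod.fst h2
    rw [h5, neg_zero, zpow_zero] at h6
    exact Subtype.ext h6.symm
  have hkerσ₂ : ∀ u : ↥W ⧸ N, σ₂ u = 1 → ∃ y : ↥σ.ker, j₀ y = u := by
    intro u hu
    obtain ⟨w, rfl⟩ := QuotientGroup.mk_surjective u
    have h1 : σ (w : Γ × Multiplicative ℤ).1 = 1 := hu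
    have h2 : π (w : Γ × Multiplicative ℤ).2 = 1 := by
      rw [← (hW _).1 w.2, h1, map_one]
    obtain ⟨t, ht⟩ := hkerπ _ h2
    have h3 : (w : Γ × Multiplicative ℤ).1 * z ^ t ∈ σ.ker :=
      mul_mem (MonoidHom.mem_ker.2 h1) (zpow_mem hzker t)
    refine ⟨⟨_, h3⟩, ?_⟩
    show QuotientGroup.mk (⟨((w : Γ × Multiplicative ℤ).1 * z ^ t, 1), hyW ⟨_, h3⟩⟩ : ↥W)
      = QuotientGroup.mk w
    rw [QuotientGroup.eq]
    have h4 : (⟨((w : Γ × Multiplicative ℤ).1 * z ^ t, 1), hyW ⟨_, h3⟩⟩ : ↥W)⁻¹ * w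
        = n₀ ^ t := by
      apply Subtype.ext
      rw [hn₀pow]
      apply Prod.ext
      · show ((w : Γ × Multiplicative ℤ).1 * z ^ t)⁻¹ * (w : Γ × Multiplicative ℤ).1 = z ^ (-t)
        rw [mul_inv_rev, zpow_neg, inv_mul_cancel_right]
      · show (1 : Multiplicative ℤ)⁻¹ * (w : Γ × Multiplicative ℤ).2
          = Multiplicative.ofAdd (t * m)
        rw [inv_one, one_mul, ht]
    rw [h4]
    exact (hNmem _).2 ⟨t, rfl⟩
  let j : ↥σ.ker →* ↥σ₂.ker :=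
    j₀.codRestrict σ₂.ker (fun y => MonoidHom.mem_ker.2 (hj₀ker y))
  have hjbij : Function.Bijective j := by
    constructor
    · rw [injective_iff_map_eq_one]
      intro y hy
      exact hj₀inj y (congrArg Subtype.val hy)
    · rintro ⟨u, hu⟩
      obtain ⟨y, hy⟩ := hkerσ₂ u (MonoidHom.mem_ker.1 hu)
      exact ⟨y, Subtype.ext hy⟩
  have hσ₂cen : σ₂.ker ≤ Subgroup.center (↥W ⧸ N) := by
    intro u hu
    obtain ⟨y, rfl⟩ := hkerσ₂ u (MonoidHom.mem_ker.1 hu)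
    rw [Subgroup.mem_center_iff]
    intro g
    obtain ⟨w, rfl⟩ := QuotientGroup.mk_surjective g
    show (QuotientGroup.mk (w * ⟨((y : Γ), 1), hyW y⟩) : ↥W ⧸ N)
      = QuotientGroup.mk (⟨((y : Γ), 1), hyW y⟩ * w)
    congr 1
    apply Subtype.ext
    apply Prod.ext
    · exact hcen (y : Γ) y.2 _
    · exact mul_comm _ _
  have hσ₂comm : σ₂.ker ≤ commutator (↥W ⧸ N) := by
    intro u hu
    obtain ⟨y, rfl⟩ := hkerσ₂ u (MonoidHom.mem_ker.1 hu)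
    have h1 : (y : Γ) ∈ commutator Γ := hσ.2.2 y.2
    rw [commutator_eq_map_of_surjective _ hWlift] at h1
    obtain ⟨w, hwc, hw1⟩ := h1
    have hw2 : (w : Γ × Multiplicative ℤ).2 = 1 := MonoidHom.mem_ker.1
      (Abelianization.commutator_subset_ker
        ((MonoidHom.snd Γ (Multiplicative ℤ)).comp W.subtype) hwc)
    have hw : w = ⟨((y : Γ), 1), hyW y⟩ := Subtype.ext (Prod.ext hw1 hw2)
    have h3 := map_mem_commutator (QuotientGroup.mk' N) hwc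
    rw [hw] at h3
    exact h3
  haveI : Finite ↥σ₂.ker := Finite.of_equiv _ (MulEquiv.ofBijective j hjbij).toEquiv
  haveI : Finite ((↥W ⧸ N) ⧸ σ₂.ker) :=
    Finite.of_equiv Q (QuotientGroup.quotientKerEquivOfSurjective σ₂ hσ₂surj).symm.toEquiv
  haveI : Finite (↥W ⧸ N) := Finite.of_subgroup_quotient σ₂.ker
  refine ⟨↥W ⧸ N, inferInstance, inferInstance, σ₂, ⟨hσ₂surj, hσ₂cen, hσ₂comm⟩,
    ⟨MulEquiv.ofBijective j hjbij⟩, ?_⟩
  rintro ⟨e, he⟩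
  have hee : ∀ g : Γ, σ₂ (e g) = σ g := fun g => DFunLike.congr_fun he g
  have hD1 : ∀ y ∈ commutator Γ, ∃ w : ↥W, (w : Γ × Multiplicative ℤ) = (y, 1) ∧
      e y = QuotientGroup.mk w := by
    intro y hy
    rw [commutator_def, Subgroup.commutator_def] at hy
    refine Subgroup.closure_induction (p := fun y _ => ∃ w : ↥W,
      (w : Γ × Multiplicative ℤ) = (y, 1) ∧ e y = QuotientGroup.mk w) ?_ ?_ ?_ ?_ hy
    · rintro _ ⟨g₁, -, g₂, -, rfl⟩
      obtain ⟨w₁, hw₁⟩ := QuotientGroup.mk_surjective (e g₁)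
      obtain ⟨w₂, hw₂⟩ := QuotientGroup.mk_surjective (e g₂)
      have h1 : σ (w₁ : Γ × Multiplicative ℤ).1 = σ g₁ := by rw [← hee g₁, ← hw₁]; rfl
      have h2 : σ (w₂ : Γ × Multiplicative ℤ).1 = σ g₂ := by rw [← hee g₂, ← hw₂]; rfl
      refine ⟨⁅w₁, w₂⁆, ?_, ?_⟩
      · apply Prod.ext
        · show ⁅(w₁ : Γ × Multiplicative ℤ).1, (w₂ : Γ × Multiplicative ℤ).1⁆ = ⁅g₁, g₂⁆
          rw [commutatorElement_def, commutatorElement_def]
          exact commutator_eq_of_map_eq σ hσ.2.1 _ _ _ _ h1 h2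
        · show ⁅(w₁ : Γ × Multiplicative ℤ).2, (w₂ : Γ × Multiplicative ℤ).2⁆ = 1
          exact commutatorElement_eq_one_iff_commute.2 (Commute.all _ _)
      · rw [map_commutatorElement, ← hw₁, ← hw₂]
        rfl
    · exact ⟨1, rfl, by rw [map_one]; rfl⟩
    · rintro y₁ y₂ _ _ ⟨w₁, hw₁, e₁⟩ ⟨w₂, hw₂, e₂⟩
      refine ⟨w₁ * w₂, ?_, ?_⟩
      · rw [Subgroup.coe_mul, hw₁, hw₂]; rfl
      · rw [map_mul, e₁, e₂]; rfl
    · rintro y _ ⟨w, hw, e₁⟩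
      refine ⟨w⁻¹, ?_, ?_⟩
      · rw [Subgroup.coe_inv, hw]; rfl
      · rw [map_inv, e₁]; rfl
  obtain ⟨g₀, hg₀⟩ := hσ.1 v
  have hg₀m : g₀ ^ m ∈ commutator Γ := by
    have h2 : σ (g₀ ^ m) ∈ commutator Q := by rw [map_pow, hg₀]; exact hvm
    rw [commutator_eq_map_of_surjective σ hσ.1] at h2
    obtain ⟨c₁, hc₁, hc₁e⟩ := h2
    have h3 : g₀ ^ m * c₁⁻¹ ∈ σ.ker := by
      rw [MonoidHom.mem_ker, map_mul, map_inv, hc₁e, mul_inv_cancel]
    have h4 := (commutator Γ).mul_mem (hσ.2.2 h3) hc₁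
    rwa [inv_mul_cancel_right] at h4
  obtain ⟨wc, hwc, hewc⟩ := hD1 _ hg₀m
  obtain ⟨w₀, hw₀⟩ := QuotientGroup.mk_surjective (e g₀)
  have h1 : σ (w₀ : Γ × Multiplicative ℤ).1 = v := by rw [← hg₀, ← hee g₀, ← hw₀]; rfl
  have h2 : π ((w₀ : Γ × Multiplicative ℤ).2 * (Multiplicative.ofAdd (1 : ℤ))⁻¹) = 1 := by
    rw [map_mul, map_inv, ← (hW _).1 w₀.2, h1, hχv, hπ, Int.cast_one, mul_inv_cancel]
  obtain ⟨k, hk⟩ := hkerπ _ h2
  have hx : (w₀ : Γ × Multiplicative ℤ).2 = Multiplicative.ofAdd (k * m + 1) := by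
    rw [ofAdd_add, ← hk, inv_mul_cancel_right]
  obtain ⟨ζ, hζdef⟩ : ∃ ζ : Γ, ζ = g₀⁻¹ * (w₀ : Γ × Multiplicative ℤ).1 := ⟨_, rfl⟩
  have hζ : ζ ∈ σ.ker := by
    rw [hζdef, MonoidHom.mem_ker, map_mul, map_inv, h1, hg₀, inv_mul_cancel]
  have hw₀1 : (w₀ : Γ × Multiplicative ℤ).1 = g₀ * ζ := by rw [hζdef, mul_inv_cancel_left]
  have hcomm : Commute g₀ ζ := hcen ζ hζ g₀
  have h3 : (QuotientGroup.mk (w₀ ^ m) : ↥W ⧸ N) = QuotientGroup.mk wc := by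
    rw [QuotientGroup.mk_pow, hw₀, ← map_pow, hewc]
  rw [QuotientGroup.eq] at h3
  obtain ⟨t, ht⟩ := (hNmem _).1 h3
  have h4 : ((n₀ ^ t : ↥W) : Γ × Multiplicative ℤ)
      = (((w₀ ^ m)⁻¹ * wc : ↥W) : Γ × Multiplicative ℤ) := congrArg Subtype.val ht
  rw [hn₀pow] at h4
  have h5 : z ^ (-t) = ((w₀ : Γ × Multiplicative ℤ).1 ^ m)⁻¹ * g₀ ^ m := by
    have h6 := congrArg Prod.fst h4
    have h7 : (((w₀ ^ m)⁻¹ * wc : ↥W) : Γ × Multiplicative ℤ).1
        = ((w₀ : Γ × Multiplicative ℤ).1 ^ m)⁻¹ * (wc : Γ × Multiplicative ℤ).1 := rfl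
    rw [h7, hwc] at h6
    exact h6
  have h6 : Multiplicative.ofAdd (t * (m : ℤ)) = ((w₀ : Γ × Multiplicative ℤ).2 ^ m)⁻¹ := by
    have h7 := congrArg Prod.snd h4
    have h8 : (((w₀ ^ m)⁻¹ * wc : ↥W) : Γ × Multiplicative ℤ).2
        = ((w₀ : Γ × Multiplicative ℤ).2 ^ m)⁻¹ * (wc : Γ × Multiplicative ℤ).2 := rfl
    rw [h8, hwc, mul_one] at h7
    exact h7
  rw [hx, ← ofAdd_nsmul, ← ofAdd_neg] at h6
  have h7 : t * (m : ℤ) = -(m • (k * (m : ℤ) + 1)) := Multiplicative.ofAdd.injective h6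
  have ht' : -t = k * (m : ℤ) + 1 := by
    have h8 : t * (m : ℤ) = (-(k * (m : ℤ) + 1)) * (m : ℤ) := by
      rw [h7, nsmul_eq_mul]; ring
    have h9 := mul_right_cancel₀ hm0' h8
    rw [h9, neg_neg]
  have h8 : z ^ (k * (m : ℤ) + 1) = (ζ ^ m)⁻¹ := by
    rw [← ht', h5, hw₀1, hcomm.mul_pow, mul_inv_rev, inv_mul_cancel_right]
  have hfin : (ζ⁻¹ * z ^ (-k)) ^ m = z := by
    have hc2 : Commute ζ⁻¹ (z ^ (-k)) := (hcen ζ⁻¹ (inv_mem hζ) _).symm
    rw [hc2.mul_pow, inv_pow, ← h8, ← zpow_natCast (z ^ (-k)) m, ← zpow_mul, ← zpow_add]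
    have h9 : k * (m : ℤ) + 1 + -k * (m : ℤ) = 1 := by ring
    rw [h9, zpow_one]
  exact hz _ (mul_mem (inv_mem hζ) (zpow_mem hzker _)) hfin

end Cfsg.Agent.Helper21
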