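import Cfsg.Agent.Helper2.CharLinear
import Cfsg.Agent.Helper2.CharInner
import Cfsg.Agent.Helper2.IndFun
import Cfsg.Agent.Helper2.CharConstituent
import Cfsg.Agent.Helper24.Schur
import Cfsg.Agent.Helper24.CharBasic
import Mathlib

set_option autoImplicit false

namespace Cfsg.Agent.Helper21

open Cfsg

open scoped ComplexConjugate

universe u v

/-- An irreducible representation against a linear character of a central subgroup contained in
the commutator subgroup: the inner product is `0` or the degree `n`, and in the second case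
the character has values of order dividing `n`. -/
theorem irr_central_inner {G : Type u} [Group G] [Finite G] (A : Subgroup G) [Fintype A]
    (hAZ : A ≤ Subgroup.center G) (hAC : A ≤ commutator G) (lam : A →* ℂˣ)
    {n : ℕ} (ρ : Representation ℂ G (Fin n → ℂ)) (hρ : ρ.IsIrreducible) :
    classInner (fun a : A => ((lam a : ℂˣ) : ℂ)) (fun a : A => ρ.character (a : G)) = 0 ∨
    (classInner (fun a : A => ((lam a : ℂˣ) : ℂ)) (fun a : A => ρ.character (a : G)) = (n : ℂ) ∧
      ∀ a : A, lam a ^ n = 1) := by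
  classical
  haveI := hρ
  have hsc : ∀ a : A, ∃ c : ℂ, ρ (a : G) = c • LinearMap.id :=
    fun a => Helper24.schur_central ρ (a : G) (hAZ a.2)
  choose c hc using hsc
  have hchar : ∀ a : A, ρ.character (a : G) = (n : ℂ) * c a := by
    intro a
    unfold Representation.character
    rw [hc a, map_smul, LinearMap.trace_id, Module.finrank_fin_fun, smul_eq_mul, mul_comm]
  rcases Nat.eq_zero_or_pos n with hn | hn
  · left
    have h0 : (fun a : A => ρ.character (a : G)) = (0 : ℂ) • (fun _ : A => (1 : ℂ)) := by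
      funext a
      rw [hchar a, hn]
      simp
    rw [h0, Helper2.classInner_smul_right]
    simp
  have hinj : ∀ x y : ℂ, x • (LinearMap.id : (Fin n → ℂ) →ₗ[ℂ] (Fin n → ℂ)) = y • LinearMap.id →
      x = y := by
    intro x y h
    have h2 := congrFun (congrArg
      (fun f : (Fin n → ℂ) →ₗ[ℂ] (Fin n → ℂ) => f (fun _ => (1 : ℂ))) h) ⟨0, hn⟩
    simpa using h2
  have hc1 : c 1 = 1 := by
    apply hinj
    rw [← hc 1, one_smul, Subgroup.coe_one, map_one]
    rfl
  have hcm : ∀ a b : A, c (a * b) = c a * c b := by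
    intro a b
    apply hinj
    rw [← hc (a * b), Subgroup.coe_mul, map_mul, hc a, hc b, Module.End.mul_eq_comp,
      LinearMap.smul_comp, LinearMap.comp_smul, LinearMap.id_comp, smul_smul]
  let μ₀ : A →* ℂ := { toFun := c, map_one' := hc1, map_mul' := hcm }
  let μ : A →* ℂˣ := μ₀.toHomUnits
  have hμ : ∀ a : A, ((μ a : ℂˣ) : ℂ) = c a := fun a => MonoidHom.coe_toHomUnits μ₀ a
  have hfun : (fun a : A => ρ.character (a : G)) =
      (n : ℂ) • (fun a : A => ((μ a : ℂˣ) : ℂ)) := by
    funext a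
    rw [hchar a, Pi.smul_apply, smul_eq_mul, hμ a]
  rw [hfun, Helper2.classInner_smul_right,
    Helper2.classInner_irr (Helper2.isIrrCharacter_of_hom lam) (Helper2.isIrrCharacter_of_hom μ)]
  by_cases heq : (fun a : A => ((lam a : ℂˣ) : ℂ)) = (fun a : A => ((μ a : ℂˣ) : ℂ))
  · right
    rw [if_pos heq]
    refine ⟨by simp, fun a => ?_⟩
    have h1 : ((lam a : ℂˣ) : ℂ) = c a := by
      rw [← hμ a]
      exact congrFun heq a
    let d : G →* ℂˣ := (LinearMap.det.comp ρ).toHomUnits
    have hd : ∀ g : G, ((d g : ℂˣ) : ℂ) = LinearMap.det (ρ g) :=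
      fun g => MonoidHom.coe_toHomUnits _ g
    have hda : d (a : G) = 1 :=
      MonoidHom.mem_ker.1 (Abelianization.commutator_subset_ker d (hAC a.2))
    apply Units.ext
    rw [Units.val_pow_eq_pow_val, h1, Units.val_one]
    have h2 := hd (a : G)
    rw [hda, Units.val_one, hc a, LinearMap.det_smul, LinearMap.det_id, Module.finrank_fin_fun,
      mul_one] at h2
    exact h2.symm
  · left
    rw [if_neg heq]
    simp

/-- For a central subgroup `A` inside the commutator subgroup and a linear character `lam` of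
`A`, the square of the order of any value of `lam` divides the index of `A`. -/
theorem orderOf_sq_dvd_index {G : Type u} [Group G] [Finite G] (A : Subgroup G)
    (hAZ : A ≤ Subgroup.center G) (hAC : A ≤ commutator G) (lam : A →* ℂˣ) (a : A) :
    orderOf (lam a) ^ 2 ∣ A.index := by
  classical
  haveI := Fintype.ofFinite G
  haveI := Fintype.ofFinite A
  haveI := Helper24.finite_irrCharacter (G := G)
  haveI := Fintype.ofFinite (IrrCharacter G)
  have hexp := Helper2.class_fn_expansion
    (Helper2.isClassFunction_indFun A (fun a : A => ((lam a : ℂˣ) : ℂ)))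
  have h1 := congrFun hexp 1
  rw [Helper2.indFun_apply_one, Finset.sum_apply] at h1
  simp only [map_one, Units.val_one, mul_one] at h1
  have hterm : ∀ χ : IrrCharacter G, ∃ m : ℕ,
      (classInner (indFun A (fun a : A => ((lam a : ℂˣ) : ℂ))) χ.1 • (χ.1 : G → ℂ)) 1 = (m : ℂ) ∧
        orderOf (lam a) ^ 2 ∣ m := by
    intro χ
    obtain ⟨n, ρ, hρ, hχ⟩ := χ.2
    rw [Helper2.frobenius_reciprocity A _ χ.1 (Helper2.IsIrrCharacter.isClassFunction χ.2)]
    have hone : (χ.1 : G → ℂ) 1 = (n : ℂ) := by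
      rw [← hχ, Representation.char_one, Module.finrank_fin_fun]
    rcases irr_central_inner A hAZ hAC lam ρ hρ with h0 | ⟨h0, h2⟩
    · refine ⟨0, ?_, dvd_zero _⟩
      rw [Pi.smul_apply, ← hχ, h0]
      simp
    · refine ⟨n ^ 2, ?_, pow_dvd_pow_of_dvd (orderOf_dvd_of_pow_eq_one (h2 a)) 2⟩
      rw [Pi.smul_apply, smul_eq_mul, hone, ← hχ, h0]
      push_cast
      ring
  choose m hm1 hm2 using hterm
  have h3 : (A.index : ℂ) = ((∑ χ : IrrCharacter G, m χ : ℕ) : ℂ) := by
    rw [h1]
    push_cast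
    exact Finset.sum_congr rfl fun χ _ => hm1 χ
  have h4 : A.index = ∑ χ : IrrCharacter G, m χ := by exact_mod_cast h3
  rw [h4]
  exact Finset.dvd_sum fun χ _ => hm2 χ

/-- Schur: if `K ≃* A` is central and inside the commutator subgroup of the finite group `G`,
then the square of the exponent of `A` divides the index of `K`. -/
theorem exponent_sq_dvd_index_of_equiv {G : Type u} [Group G] [Finite G] (K : Subgroup G)
    (hKZ : K ≤ Subgroup.center G) (hKC : K ≤ commutator G) {A : Type v} [CommGroup A] [Finite A]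
    (i : K ≃* A) : Monoid.exponent A ^ 2 ∣ K.index := by
  classical
  rw [Nat.dvd_iff_prime_pow_dvd_dvd]
  intro p k hp hpk
  haveI : Fact p.Prime := ⟨hp⟩
  have he0 : Monoid.exponent A ≠ 0 := Monoid.exponent_ne_zero_of_finite
  haveI : NeZero (Monoid.exponent A) := ⟨he0⟩
  obtain ⟨a₀, ha₀⟩ := Monoid.exists_orderOf_eq_exponent (Monoid.ExponentExists.of_finite (G := A))
  obtain ⟨j, hj⟩ : ∃ j, j = (Monoid.exponent A).factorization p := ⟨_, rfl⟩
  have hkj : k ≤ 2 * j := by
    have h := (Nat.Prime.pow_dvd_iff_le_factorization hp (pow_ne_zero 2 he0)).1 hpk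
    rw [Nat.factorization_pow] at h
    simpa [hj] using h
  have hpj : p ^ j ∣ Monoid.exponent A := by
    rw [hj]
    exact Nat.ordProj_dvd _ p
  suffices h : (p ^ j) ^ 2 ∣ K.index by
    refine dvd_trans ?_ h
    rw [← pow_mul]
    exact pow_dvd_pow p (by omega)
  rcases Nat.eq_zero_or_pos j with hj0 | hj0
  · rw [hj0]
    simp
  have ha0 : orderOf a₀ ≠ 0 := by rw [ha₀]; exact he0
  have ha₁ : orderOf (a₀ ^ (orderOf a₀ / p ^ j)) = p ^ j :=
    orderOf_pow_orderOf_div ha0 (by rw [ha₀]; exact hpj)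
  obtain ⟨a₁, ha₁'⟩ : ∃ a₁ : A, orderOf a₁ = p ^ j := ⟨_, ha₁⟩
  have hb : a₁ ^ (p ^ (j - 1)) ≠ 1 := by
    apply pow_ne_one_of_lt_orderOf (pow_ne_zero _ hp.ne_zero)
    rw [ha₁']
    exact Nat.pow_lt_pow_right hp.one_lt (by omega)
  obtain ⟨φ, hφ⟩ := CommGroup.exists_apply_ne_one_of_hasEnoughRootsOfUnity A ℂ hb
  have hord : orderOf (φ a₁) = p ^ j := by
    have hj1 : j = (j - 1) + 1 := by omega
    rw [hj1]
    apply orderOf_eq_prime_pow
    · rw [← map_pow]
      exact hφ
    · rw [← hj1, ← map_pow, ← ha₁', pow_orderOf_eq_one, map_one]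
  have key := orderOf_sq_dvd_index K hKZ hKC (φ.comp i.toMonoidHom) (i.symm a₁)
  have hval : (φ.comp i.toMonoidHom) (i.symm a₁) = φ a₁ := by
    simp
  rw [hval, hord] at key
  exact key

end Cfsg.Agent.Helper21
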