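import Mathlib
import Cfsg.Agent.Helper24.Schur
import Cfsg.Agent.Helper24.CharInv
import Cfsg.Agent.Helper2.CharNat
import Cfsg.Agent.Helper2.CharDecomp
import Cfsg.Agent.Helper25.Frobenius

/-!
Auxiliary lemmas for the Feit–Thompson bound `χ(1)² > |H| c²` (S0898, part 1).
-/

set_option autoImplicit false

namespace Cfsg.Agent.Helper21

open Cfsg
open scoped ComplexConjugate

/-- For `g` normalizing `H`, `g ↦ χ(g) - avg_h χ(gh) + avg_h χ(h)` is a character of `N_G(H)`:
it is afforded by `g ↦ ρ(g)(1-e) + e`, `e` the averaging idempotent of `H`. -/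
theorem ft_tau {G : Type*} [Group G] (H : Subgroup G) [Fintype H] {χ : G → ℂ}
    (hχ : IsCharacter G χ) :
    IsCharacter (Subgroup.normalizer (H : Set G)) (fun g : Subgroup.normalizer (H : Set G) =>
      χ g - (Nat.card H : ℂ)⁻¹ * ∑ h : H, χ ((g : G) * h)
        + (Nat.card H : ℂ)⁻¹ * ∑ h : H, χ h) := by
  classical
  obtain ⟨n, ρ, rfl⟩ := hχ
  have hH0 : (Nat.card H : ℂ) ≠ 0 := by exact_mod_cast Nat.card_pos.ne'
  obtain ⟨e, he⟩ : ∃ e : Module.End ℂ (Fin n → ℂ), e = (Nat.card H : ℂ)⁻¹ • ∑ h : H, ρ h :=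
    ⟨_, rfl⟩
  have e1 : ∀ k : H, ρ k * e = e := by
    intro k
    rw [he, mul_smul_comm, Finset.mul_sum]
    congr 1
    rw [← Equiv.sum_comp (Equiv.mulLeft k) (fun h : H => ρ (h : G))]
    refine Finset.sum_congr rfl fun h _ => ?_
    simp [map_mul]
  have e2 : e * e = e := by
    calc e * e = ((Nat.card H : ℂ)⁻¹ • ∑ h : H, ρ h) * e := by rw [← he]
      _ = (Nat.card H : ℂ)⁻¹ • ∑ h : H, (ρ h * e) := by rw [smul_mul_assoc, Finset.sum_mul]
      _ = (Nat.card H : ℂ)⁻¹ • ∑ _h : H, e := by simp only [e1]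
      _ = e := by
        rw [Finset.sum_const, Finset.card_univ, ← Nat.card_eq_fintype_card,
          ← Nat.cast_smul_eq_nsmul ℂ, smul_smul, inv_mul_cancel₀ hH0, one_smul]
  have e3 : ∀ g : G, g ∈ Subgroup.normalizer (H : Set G) → ρ g * e = e * ρ g := by
    intro g hg
    rw [he, mul_smul_comm, smul_mul_assoc, Finset.mul_sum, Finset.sum_mul]
    congr 1
    let φ : H ≃ H :=
      { toFun := fun h => ⟨g * h * g⁻¹, (Subgroup.mem_normalizer_iff.1 hg h).1 h.2⟩
        invFun := fun h => ⟨g⁻¹ * h * g,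
          (Subgroup.mem_normalizer_iff.1 hg (g⁻¹ * h * g)).2 (by simp [mul_assoc])⟩
        left_inv := fun h => by ext; simp [mul_assoc]
        right_inv := fun h => by ext; simp [mul_assoc] }
    rw [← Equiv.sum_comp φ (fun h => ρ h * ρ g)]
    refine Finset.sum_congr rfl fun h _ => ?_
    show ρ g * ρ h = ρ (g * h * g⁻¹) * ρ g
    rw [← map_mul, ← map_mul]
    simp [mul_assoc]
  let σ : Representation ℂ (Subgroup.normalizer (H : Set G)) (Fin n → ℂ) :=
    { toFun := fun g => ρ g * (1 - e) + e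
      map_one' := by simp
      map_mul' := fun a b => by
        have hb := e3 b b.2
        have h1 : (1 - e) * ρ b = ρ b * (1 - e) := by
          rw [sub_mul, mul_sub, one_mul, mul_one, hb]
        have h2 : (1 - e) * (1 - e) = 1 - e := by
          rw [mul_sub, mul_one, sub_mul, one_mul, e2, sub_self, sub_zero]
        have h3 : (1 - e) * e = 0 := by rw [sub_mul, one_mul, e2, sub_self]
        have h4 : e * (1 - e) = 0 := by rw [mul_sub, mul_one, e2, sub_self]
        show ρ ((a : G) * (b : G)) * (1 - e) + e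
          = (ρ a * (1 - e) + e) * (ρ b * (1 - e) + e)
        rw [map_mul]
        symm
        calc (ρ a * (1 - e) + e) * (ρ b * (1 - e) + e)
            = ρ a * ((1 - e) * ρ b) * (1 - e) + ρ a * ((1 - e) * e) + (e * ρ b) * (1 - e)
                + e * e := by noncomm_ring
          _ = ρ a * (ρ b * (1 - e)) * (1 - e) + ρ a * 0 + (ρ b * e) * (1 - e) + e := by
              rw [h1, h3, ← hb, e2]
          _ = ρ a * ρ b * ((1 - e) * (1 - e)) + ρ b * (e * (1 - e)) + e := by noncomm_ring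
          _ = ρ a * ρ b * (1 - e) + e := by rw [h2, h4]; simp }
  refine ⟨n, σ, ?_⟩
  funext g
  show LinearMap.trace ℂ _ (ρ (g : G) * (1 - e) + e) = _
  have t1 : LinearMap.trace ℂ _ (ρ (g : G) * e)
      = (Nat.card H : ℂ)⁻¹ * ∑ h : H, ρ.character ((g : G) * h) := by
    rw [he, mul_smul_comm, map_smul, Finset.mul_sum, map_sum, smul_eq_mul]
    congr 1
    refine Finset.sum_congr rfl fun h _ => ?_
    rw [← map_mul]
    rfl
  have t2 : LinearMap.trace ℂ _ e = (Nat.card H : ℂ)⁻¹ * ∑ h : H, ρ.character h := by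
    rw [he, map_smul, map_sum, smul_eq_mul]
    rfl
  rw [map_add, mul_sub, mul_one, map_sub, t1, t2]
  rfl

/-- A nonzero generalized character of the form `τ - m` has norm at least one. -/
theorem ft_norm_ge {K : Type*} [Group K] [Fintype K] {τ : K → ℂ} (hτ : IsCharacter K τ) (m : ℕ)
    (h : ∃ g, τ g - m ≠ 0) : (Nat.card K : ℝ) ≤ ∑ g : K, ‖τ g - m‖ ^ 2 := by
  classical
  obtain ⟨a, ha⟩ := Helper2.classInner_char_nat hτ hτ
  obtain ⟨b, hb⟩ := Helper2.classInner_char_nat hτ (Helper2.isCharacter_one (G := K))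
  have hK0 : (Nat.card K : ℂ) ≠ 0 := by exact_mod_cast Nat.card_pos.ne'
  have hKpos : (0 : ℝ) < Nat.card K := by exact_mod_cast Nat.card_pos
  unfold classInner at ha hb
  have ha' : ∑ g : K, τ g * conj (τ g) = (Nat.card K : ℂ) * a := by
    rw [← ha, ← mul_assoc, mul_inv_cancel₀ hK0, one_mul]
  have hb' : ∑ g : K, τ g = (Nat.card K : ℂ) * b := by
    rw [← hb, ← mul_assoc, mul_inv_cancel₀ hK0, one_mul]
    simp
  have hb'' : ∑ g : K, conj (τ g) = (Nat.card K : ℂ) * b := by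
    rw [← map_sum, hb']
    simp
  have key : ((∑ g : K, ‖τ g - m‖ ^ 2 : ℝ) : ℂ)
      = (Nat.card K : ℂ) * ((a : ℂ) - 2 * m * b + (m : ℂ) ^ 2) := by
    push_cast
    have hpt : ∀ g : K, ((‖τ g - m‖ : ℂ)) ^ 2
        = τ g * conj (τ g) - m * conj (τ g) - m * τ g + (m : ℂ) ^ 2 := by
      intro g
      rw [← Complex.mul_conj', map_sub, Complex.conj_natCast]
      ring
    rw [Finset.sum_congr rfl (fun g _ => hpt g), Finset.sum_add_distrib, Finset.sum_sub_distrib,
      Finset.sum_sub_distrib, ← Finset.mul_sum, ← Finset.mul_sum, ha', hb', hb'']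
    simp only [Finset.sum_const, Finset.card_univ, nsmul_eq_mul, ← Nat.card_eq_fintype_card]
    ring
  have key' : (∑ g : K, ‖τ g - m‖ ^ 2 : ℝ)
      = (Nat.card K : ℝ) * (((a : ℤ) - 2 * m * b + (m : ℤ) ^ 2 : ℤ) : ℝ) := by
    apply Complex.ofReal_injective
    rw [key]
    push_cast
    ring
  obtain ⟨g₀, hg₀⟩ := h
  have pos : (0 : ℝ) < ∑ g : K, ‖τ g - m‖ ^ 2 :=
    Finset.sum_pos' (fun g _ => by positivity)
      ⟨g₀, Finset.mem_univ _, pow_pos (norm_pos_iff.2 hg₀) 2⟩
  set z : ℤ := (a : ℤ) - 2 * m * b + (m : ℤ) ^ 2 with hz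
  have hz0 : 0 < z := by
    by_contra hle
    push_neg at hle
    have hle' : ((z : ℤ) : ℝ) ≤ 0 := by exact_mod_cast hle
    rw [key'] at pos
    nlinarith
  have hz1 : (1 : ℝ) ≤ (z : ℝ) := by
    have : (1 : ℤ) ≤ z := hz0
    exact_mod_cast this
  rw [key']
  nlinarith

end Cfsg.Agent.Helper21
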