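import Mathlib
import Cfsg.Agent.Helper21.FTBoundA

/-!
Group-theoretic and summation lemmas for the Feit–Thompson bound (S0898, part 1).
-/

set_option autoImplicit false

namespace Cfsg.Agent.Helper21

open Cfsg
open scoped ComplexConjugate

theorem ft_mem_map_conj {G : Type*} [Group G] (H : Subgroup G) (a x : G) :
    x ∈ H.map (MulAut.conj a).toMonoidHom ↔ a⁻¹ * x * a ∈ H := by
  constructor
  · rintro ⟨y, hy, rfl⟩
    simpa [MulAut.conj_apply, mul_assoc] using hy
  · intro hx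
    exact ⟨a⁻¹ * x * a, hx, by simp [MulAut.conj_apply, mul_assoc]⟩

theorem ft_map_eq_normalizer {G : Type*} [Group G] (H : Subgroup G) {a b : G}
    (h : H.map (MulAut.conj a).toMonoidHom = H.map (MulAut.conj b).toMonoidHom) :
    a⁻¹ * b ∈ Subgroup.normalizer (H : Set G) := by
  rw [Subgroup.mem_normalizer_iff]
  intro k
  have h1 := ft_mem_map_conj H a (b * k * b⁻¹)
  have h2 := ft_mem_map_conj H b (b * k * b⁻¹)
  rw [h] at h1
  have e1 : b⁻¹ * (b * k * b⁻¹) * b = k := by group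
  have e2 : a⁻¹ * (b * k * b⁻¹) * a = a⁻¹ * b * k * (a⁻¹ * b)⁻¹ := by group
  rw [e1] at h2
  rw [e2] at h1
  exact h2.symm.trans h1

theorem ft_cent_ne_bot {G : Type*} [Group G] (H : Subgroup G) {g x h : G} (hh : h ∈ H)
    (h1 : h ≠ 1) (hc : (x⁻¹ * g * x) * h = h * (x⁻¹ * g * x)) :
    Subgroup.centralizer ({g} : Set G) ⊓ H.map (MulAut.conj x).toMonoidHom ≠ ⊥ := by
  intro hbot
  have hy : x * h * x⁻¹ ∈ Subgroup.centralizer ({g} : Set G) ⊓
      H.map (MulAut.conj x).toMonoidHom := by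
    refine Subgroup.mem_inf.2 ⟨?_, ⟨h, hh, by simp [MulAut.conj_apply]⟩⟩
    rw [Subgroup.mem_centralizer_iff]
    intro y hy
    rw [Set.mem_singleton_iff] at hy
    subst hy
    have := congrArg (fun t => x * t * x⁻¹) hc
    simpa [mul_assoc] using this
  rw [hbot, Subgroup.mem_bot] at hy
  apply h1
  have := congrArg (fun t => x⁻¹ * t * x) hy
  simpa [mul_assoc] using this

theorem ft_M_sub_N {G : Type*} [Group G] (H : Subgroup G)
    (hZ : H ⊓ Subgroup.center G = ⊥)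
    (hone : ∀ g : G, g ∉ Subgroup.center G → ∀ a b : G,
      Subgroup.centralizer ({g} : Set G) ⊓ H.map (MulAut.conj a).toMonoidHom ≠ ⊥ →
      Subgroup.centralizer ({g} : Set G) ⊓ H.map (MulAut.conj b).toMonoidHom ≠ ⊥ →
      H.map (MulAut.conj a).toMonoidHom = H.map (MulAut.conj b).toMonoidHom)
    {g h : G} (hh : h ∈ H) (h1 : h ≠ 1) (hc : g * h = h * g) :
    g ∈ Subgroup.normalizer (H : Set G) := by
  have hnc : h ∉ Subgroup.center G := by
    intro hcen
    have : h ∈ H ⊓ Subgroup.center G := Subgroup.mem_inf.2 ⟨hh, hcen⟩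
    rw [hZ, Subgroup.mem_bot] at this
    exact h1 this
  have hg : g⁻¹ * h * g = h := by rw [mul_assoc, ← hc, inv_mul_cancel_left]
  have key := hone h hnc 1 g (ft_cent_ne_bot H hh h1 (by simp))
    (ft_cent_ne_bot H hh h1 (by rw [hg]))
  have := ft_map_eq_normalizer H key
  simpa using this

theorem ft_avg_eq {G : Type*} [Group G] (H : Subgroup G) [Fintype H] {χ : G → ℂ}
    (hχ : IsCharacter G χ) {g : G} (hg : g ∈ Subgroup.normalizer (H : Set G))
    (hM : ∀ h ∈ H, g * h = h * g → h = 1) :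
    ∑ h : H, χ (g * h) = (Nat.card H : ℂ) * χ g := by
  classical
  have hφmem : ∀ k : H, g⁻¹ * k * g * (k : G)⁻¹ ∈ H := by
    intro k
    have h1 := (Subgroup.mem_normalizer_iff.1 (inv_mem hg) k).1 k.2
    rw [inv_inv] at h1
    exact H.mul_mem h1 (H.inv_mem k.2)
  let φ : H → H := fun k => ⟨g⁻¹ * k * g * (k : G)⁻¹, hφmem k⟩
  have hinj : Function.Injective φ := by
    intro k k' hkk
    have h1 : g⁻¹ * k * g * (k : G)⁻¹ = g⁻¹ * k' * g * (k' : G)⁻¹ := congrArg Subtype.val hkk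
    have h3 : (k : G) * g * (k : G)⁻¹ = k' * g * (k' : G)⁻¹ := by
      have := congrArg (fun x => g * x) h1
      simpa [mul_assoc] using this
    have h2 : g * ((k' : G)⁻¹ * k) = ((k' : G)⁻¹ * k) * g := by
      calc g * ((k' : G)⁻¹ * k) = (k' : G)⁻¹ * (k' * g * (k' : G)⁻¹) * k := by group
        _ = (k' : G)⁻¹ * (k * g * (k : G)⁻¹) * k := by rw [h3]
        _ = ((k' : G)⁻¹ * k) * g := by group
    have h4 := hM _ (H.mul_mem (H.inv_mem k'.2) k.2) h2
    ext
    exact (inv_mul_eq_one.1 h4).symm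
  have hbij : Function.Bijective φ := Finite.injective_iff_bijective.1 hinj
  rw [← hbij.sum_comp (fun h : H => χ (g * h))]
  have hval : ∀ k : H, χ (g * (φ k : G)) = χ g := by
    intro k
    show χ (g * (g⁻¹ * k * g * (k : G)⁻¹)) = χ g
    have e : g * (g⁻¹ * k * g * (k : G)⁻¹) = k * g * (k : G)⁻¹ := by group
    rw [e]
    exact Helper24.char_conj_invariant hχ g k
  simp [hval, Finset.card_univ, Nat.card_eq_fintype_card]

theorem ft_count {G : Type*} [Group G] [Fintype G] (H : Subgroup G)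
    (hone : ∀ g : G, g ∉ Subgroup.center G → ∀ a b : G,
      Subgroup.centralizer ({g} : Set G) ⊓ H.map (MulAut.conj a).toMonoidHom ≠ ⊥ →
      Subgroup.centralizer ({g} : Set G) ⊓ H.map (MulAut.conj b).toMonoidHom ≠ ⊥ →
      H.map (MulAut.conj a).toMonoidHom = H.map (MulAut.conj b).toMonoidHom)
    (g : G) (hg : g ∉ Subgroup.center G)
    [DecidablePred fun x : G => ∃ h ∈ H, h ≠ 1 ∧ (x⁻¹ * g * x) * h = h * (x⁻¹ * g * x)] :
    (Finset.univ.filter
      (fun x : G => ∃ h ∈ H, h ≠ 1 ∧ (x⁻¹ * g * x) * h = h * (x⁻¹ * g * x))).card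
      ≤ Nat.card (Subgroup.normalizer (H : Set G)) := by
  classical
  set S := Finset.univ.filter
    (fun x : G => ∃ h ∈ H, h ≠ 1 ∧ (x⁻¹ * g * x) * h = h * (x⁻¹ * g * x)) with hS
  rcases S.eq_empty_or_nonempty with h0 | ⟨x₀, hx₀⟩
  · rw [h0]
    simp
  · have hx₀' : ∃ h ∈ H, h ≠ 1 ∧ (x₀⁻¹ * g * x₀) * h = h * (x₀⁻¹ * g * x₀) := by
      simpa [hS] using hx₀
    obtain ⟨h₀, hh₀, hh₀1, hc₀⟩ := hx₀'
    have key : ∀ x ∈ S, x₀⁻¹ * x ∈ Subgroup.normalizer (H : Set G) := by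
      intro x hx
      have hx' : ∃ h ∈ H, h ≠ 1 ∧ (x⁻¹ * g * x) * h = h * (x⁻¹ * g * x) := by
        simpa [hS] using hx
      obtain ⟨h, hh, hh1, hc⟩ := hx'
      exact ft_map_eq_normalizer H
        (hone g hg x₀ x (ft_cent_ne_bot H hh₀ hh₀1 hc₀) (ft_cent_ne_bot H hh hh1 hc))
    calc S.card ≤ (Finset.univ.filter
          (fun y : G => y ∈ Subgroup.normalizer (H : Set G))).card :=
          Finset.card_le_card_of_injOn (fun x => x₀⁻¹ * x)
            (fun x hx => by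
              have := key x hx
              simpa using this)
            (fun a _ b _ hab => mul_left_cancel hab)
      _ = Nat.card (Subgroup.normalizer (H : Set G)) := by
          rw [← Fintype.card_subtype]
          exact (Nat.card_eq_fintype_card).symm

theorem ft_sum_conv {G β : Type*} [Group G] [Fintype G] [AddCommMonoid β] (N : Subgroup G)
    [Fintype N] (M : G → Prop) [DecidablePred M] (hMN : ∀ g, M g → g ∈ N) (F : G → β)
    (hF : ∀ g ∈ N, ¬ M g → F g = 0) :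
    ∑ g : G, (if M g then F g else 0) = ∑ g : N, F g := by
  classical
  rw [← Finset.sum_subtype (Finset.univ.filter (fun g : G => g ∈ N)) (by simp) F,
    Finset.sum_filter]
  refine Finset.sum_congr rfl fun g _ => ?_
  by_cases h1 : M g
  · rw [if_pos h1, if_pos (hMN g h1)]
  · rw [if_neg h1]
    by_cases h2 : g ∈ N
    · rw [if_pos h2, hF g h2 h1]
    · rw [if_neg h2]

theorem ft_avg_inv {G : Type*} [Group G] (H : Subgroup G) [Fintype H] (χ : G → ℂ) (g : G)
    (k : H) :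
    (Nat.card H : ℂ)⁻¹ * ∑ h : H, χ (g * k * h) = (Nat.card H : ℂ)⁻¹ * ∑ h : H, χ (g * h) := by
  congr 1
  have := Equiv.sum_comp (Equiv.mulLeft k) (fun h : H => χ (g * (h : G)))
  simp only [Equiv.coe_mulLeft, Subgroup.coe_mul, ← mul_assoc] at this
  exact this

theorem ft_orth {G : Type*} [Group G] (H N : Subgroup G) [Fintype H] [Fintype N] (hHN : H ≤ N)
    (χ : G → ℂ) :
    ∑ g : N, ((Nat.card H : ℂ)⁻¹ * ∑ h : H, χ ((g : G) * h))
        * conj ((Nat.card H : ℂ)⁻¹ * ∑ h : H, χ ((g : G) * h))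
      = ∑ g : N, ((Nat.card H : ℂ)⁻¹ * ∑ h : H, χ ((g : G) * h)) * conj (χ g) := by
  classical
  have hH0 : (Nat.card H : ℂ) ≠ 0 := by exact_mod_cast Nat.card_pos.ne'
  obtain ⟨ψ, hψ⟩ : ∃ ψ : G → ℂ, ψ = fun g => (Nat.card H : ℂ)⁻¹ * ∑ h : H, χ (g * h) :=
    ⟨_, rfl⟩
  have hψa : ∀ g : G, (Nat.card H : ℂ)⁻¹ * ∑ h : H, χ (g * h) = ψ g := by
    intro g; rw [hψ]
  have hinv : ∀ (g : G) (k : H), ψ (g * k) = ψ g := by
    intro g k
    rw [hψ]
    exact ft_avg_inv H χ g k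
  simp only [hψa]
  have step : ∀ h : H, ∑ g : N, ψ g * conj (χ ((g : G) * h)) = ∑ g : N, ψ g * conj (χ g) := by
    intro h
    have := Equiv.sum_comp (Equiv.mulRight (⟨(h : G)⁻¹, N.inv_mem (hHN h.2)⟩ : N))
      (fun g : N => ψ g * conj (χ ((g : G) * h)))
    rw [← this]
    refine Finset.sum_congr rfl fun g _ => ?_
    simp only [Equiv.coe_mulRight, Subgroup.coe_mul, inv_mul_cancel_right]
    have := hinv (g : G) h⁻¹
    rw [Subgroup.coe_inv] at this
    rw [this]
  have hconj : ∀ g : G, conj (ψ g) = (Nat.card H : ℂ)⁻¹ * ∑ h : H, conj (χ (g * h)) := by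
    intro g
    rw [← hψa g, map_mul, map_inv₀, Complex.conj_natCast, map_sum]
  calc ∑ g : N, ψ g * conj (ψ g)
      = ∑ g : N, ∑ h : H, (Nat.card H : ℂ)⁻¹ * (ψ g * conj (χ ((g : G) * h))) := by
        refine Finset.sum_congr rfl fun g _ => ?_
        rw [hconj, Finset.mul_sum, Finset.mul_sum]
        refine Finset.sum_congr rfl fun h _ => ?_
        ring
    _ = ∑ h : H, ∑ g : N, (Nat.card H : ℂ)⁻¹ * (ψ g * conj (χ ((g : G) * h))) :=
        Finset.sum_comm
    _ = ∑ _h : H, (Nat.card H : ℂ)⁻¹ * ∑ g : N, ψ g * conj (χ g) := by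
        refine Finset.sum_congr rfl fun h _ => ?_
        rw [← Finset.mul_sum, step]
    _ = ∑ g : N, ψ g * conj (χ g) := by
        rw [Finset.sum_const, Finset.card_univ, nsmul_eq_mul, ← mul_assoc,
          ← Nat.card_eq_fintype_card, mul_inv_cancel₀ hH0, one_mul]

end Cfsg.Agent.Helper21
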