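import Mathlib
import Cfsg.Agent.Helper21.FTBoundB

/-!
The Feit–Thompson bound `χ(1)² > |H| c²` (S0898, part 1).
-/

set_option autoImplicit false

namespace Cfsg.Agent.Helper21

open Cfsg
open scoped ComplexConjugate

/-- Central elements multiply an irreducible character by a scalar of norm one. -/
theorem ft_central {G : Type*} [Group G] [Finite G] {χ : G → ℂ} (hχ : IsIrrCharacter G χ)
    (z : G) (hz : z ∈ Subgroup.center G) :
    ∃ c : ℂ, ‖c‖ = 1 ∧ ∀ g : G, χ (z * g) = c * χ g := by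
  obtain ⟨c, hc1, hc2⟩ := Helper24.char_central_mul hχ z hz
  refine ⟨c, ?_, hc2⟩
  have hpow : ∀ k : ℕ, χ (z ^ k) = c ^ k * χ 1 := by
    intro k
    induction k with
    | zero => simp
    | succ k ih =>
      rw [pow_succ, hc1, ih, pow_succ]
      ring
  have h1 := hpow (Nat.card G)
  rw [pow_card_eq_one'] at h1
  have hχ1 : χ 1 ≠ 0 := Helper25.irr_one_ne_zero hχ
  have h2 : c ^ Nat.card G = 1 := by
    have : (c ^ Nat.card G - 1) * χ 1 = 0 := by
      rw [sub_mul, ← h1]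
      ring
    rcases mul_eq_zero.1 this with h | h
    · exact sub_eq_zero.1 h
    · exact absurd h hχ1
  exact Complex.norm_eq_one_of_pow_eq_one h2 Nat.card_pos.ne'

/-- The counting core of the Feit–Thompson bound. -/
theorem ft_core {G : Type*} [Group G] [Fintype G] (H N Z : Subgroup G) [Fintype H] [Fintype N]
    [Fintype Z] (M : G → Prop) [DecidablePred M] (χ ψ : G → ℂ) (d m : ℕ)
    (hMN : ∀ g, M g → g ∈ N)
    (hv0 : ∀ g ∈ N, ¬ M g → χ g - ψ g = 0)
    (hnorm : (Nat.card N : ℝ) ≤ ∑ g : N, ‖χ g - ψ g‖ ^ 2)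
    (horth : ∑ g : N, ψ g * conj (ψ g) = ∑ g : N, ψ g * conj (χ g))
    (hHZ : ∀ h ∈ H, ∀ z ∈ Z, M (z * h) ∧ ‖ψ (z * h)‖ = m)
    (hinj : H ⊓ Z = ⊥)
    (hZd : ∀ z ∈ Z, ‖χ z‖ = d)
    (hZM : ∀ z ∈ Z, M z)
    (hsum : ∑ g : G, ‖χ g‖ ^ 2 = (Nat.card G : ℝ))
    (hcount : ∀ g, g ∉ Z →
      (Finset.univ.filter (fun x : G => M (x⁻¹ * g * x))).card ≤ Nat.card N)
    (hcl : ∀ g x : G, χ (x⁻¹ * g * x) = χ g)
    (hZn : ∀ g x : G, x⁻¹ * g * x ∈ Z ↔ g ∈ Z)
    (hdpos : 0 < d) :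
    (d : ℝ) ^ 2 > (Nat.card H : ℝ) * (m : ℝ) ^ 2 := by
  classical
  have hNpos : (0 : ℝ) < Nat.card N := by exact_mod_cast Nat.card_pos
  have hZpos : (0 : ℝ) < Nat.card Z := by exact_mod_cast Nat.card_pos
  have hGpos : (0 : ℝ) < Nat.card G := by exact_mod_cast Nat.card_pos
  have hdpos' : (0 : ℝ) < d := by exact_mod_cast hdpos
  -- T1
  have hT1 : (Nat.card H : ℝ) * Nat.card Z * (m : ℝ) ^ 2
      ≤ ∑ g : G, (if M g then ‖ψ g‖ ^ 2 else 0) := by
    let φ : H × Z → G := fun p => (p.2 : G) * (p.1 : G)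
    have hφinj : Function.Injective φ := by
      rintro ⟨h, z⟩ ⟨h', z'⟩ hp
      have hp' : (z : G) * h = z' * h' := hp
      have hmem : (z' : G)⁻¹ * z ∈ H ⊓ Z := by
        refine Subgroup.mem_inf.2 ⟨?_, Z.mul_mem (Z.inv_mem z'.2) z.2⟩
        have : (z' : G)⁻¹ * z = h' * (h : G)⁻¹ := by
          rw [inv_mul_eq_iff_eq_mul, ← mul_assoc, ← hp', mul_inv_cancel_right]
        rw [this]
        exact H.mul_mem h'.2 (H.inv_mem h.2)
      rw [hinj, Subgroup.mem_bot] at hmem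
      have hz : (z' : G) = z := inv_mul_eq_one.1 hmem
      have hh : (h : G) = h' := by
        rw [← hz] at hp'
        exact mul_left_cancel hp'
      exact Prod.ext (Subtype.ext hh) (Subtype.ext hz.symm)
    calc (Nat.card H : ℝ) * Nat.card Z * (m : ℝ) ^ 2 = ∑ _p : H × Z, (m : ℝ) ^ 2 := by
          rw [Finset.sum_const, Finset.card_univ, Fintype.card_prod, nsmul_eq_mul,
            Nat.card_eq_fintype_card, Nat.card_eq_fintype_card]
          push_cast
          ring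
      _ = ∑ p : H × Z, (if M (φ p) then ‖ψ (φ p)‖ ^ 2 else 0) := by
          refine Finset.sum_congr rfl fun p _ => ?_
          obtain ⟨h1, h2⟩ := hHZ p.1 p.1.2 p.2 p.2.2
          rw [if_pos h1, h2]
      _ = ∑ g ∈ Finset.univ.image φ, (if M g then ‖ψ g‖ ^ 2 else 0) := by
          rw [Finset.sum_image (fun a _ b _ hab => hφinj hab)]
      _ ≤ ∑ g : G, (if M g then ‖ψ g‖ ^ 2 else 0) :=
          Finset.sum_le_sum_of_subset_of_nonneg (Finset.subset_univ _)
            (fun g _ _ => by split_ifs <;> positivity)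
  -- T2
  have hT2 : ∑ g : G, (if M g then ‖χ g - ψ g‖ ^ 2 else 0) = ∑ g : N, ‖χ g - ψ g‖ ^ 2 :=
    ft_sum_conv N M hMN (fun g => ‖χ g - ψ g‖ ^ 2)
      (by intro g hg hMg; rw [hv0 g hg hMg]; simp)
  -- T3
  have hT3 : ∑ g : G, (if M g then 2 * (ψ g * conj (χ g - ψ g)).re else 0) = 0 := by
    rw [ft_sum_conv N M hMN (fun g => 2 * (ψ g * conj (χ g - ψ g)).re)
      (by intro g hg hMg; rw [hv0 g hg hMg]; simp)]
    rw [← Finset.mul_sum, ← Complex.re_sum]
    have : ∑ g : N, ψ g * conj (χ g - ψ g) = 0 := by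
      simp only [map_sub, mul_sub, Finset.sum_sub_distrib]
      rw [horth, sub_self]
    rw [this]
    simp
  -- A
  have hA : (Nat.card H : ℝ) * Nat.card Z * (m : ℝ) ^ 2 + Nat.card N
      ≤ ∑ g : G, (if M g then ‖χ g‖ ^ 2 else 0) := by
    have hpt : ∀ g : G, (if M g then ‖χ g‖ ^ 2 else 0)
        = (if M g then ‖ψ g‖ ^ 2 else 0) + (if M g then ‖χ g - ψ g‖ ^ 2 else 0)
          + (if M g then 2 * (ψ g * conj (χ g - ψ g)).re else 0) := by
      intro g
      by_cases h : M g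
      · simp only [if_pos h]
        rw [Complex.sq_norm, Complex.sq_norm, Complex.sq_norm]
        have := Complex.normSq_add (ψ g) (χ g - ψ g)
        rw [add_sub_cancel] at this
        exact this
      · simp only [if_neg h]
        ring
    rw [Finset.sum_congr rfl (fun g _ => hpt g), Finset.sum_add_distrib, Finset.sum_add_distrib,
      hT2, hT3]
    linarith
  -- Z-sums
  have hZsum : ∑ g : G, (if g ∈ Z then ‖χ g‖ ^ 2 else 0) = (Nat.card Z : ℝ) * (d : ℝ) ^ 2 := by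
    rw [ft_sum_conv Z (fun g => g ∈ Z) (fun g h => h) (fun g => ‖χ g‖ ^ 2)
      (by intro g hg hn; exact absurd hg hn)]
    rw [Finset.sum_congr rfl (fun (z : Z) _ => by rw [hZd z z.2])]
    rw [Finset.sum_const, Finset.card_univ, nsmul_eq_mul, Nat.card_eq_fintype_card]
  have hA' : ∑ g : G, (if M g then ‖χ g‖ ^ 2 else 0)
      = ∑ g : G, (if M g ∧ g ∉ Z then ‖χ g‖ ^ 2 else 0) + (Nat.card Z : ℝ) * (d : ℝ) ^ 2 := by
    rw [← hZsum, ← Finset.sum_add_distrib]
    refine Finset.sum_congr rfl fun g _ => ?_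
    by_cases hz : g ∈ Z
    · simp [hz, hZM g hz]
    · simp [hz]
  have hW' : (Nat.card G : ℝ)
      = ∑ g : G, (if g ∉ Z then ‖χ g‖ ^ 2 else 0) + (Nat.card Z : ℝ) * (d : ℝ) ^ 2 := by
    rw [← hZsum, ← Finset.sum_add_distrib, ← hsum]
    refine Finset.sum_congr rfl fun g _ => ?_
    by_cases hz : g ∈ Z
    · simp [hz]
    · simp [hz]
  -- double counting
  have hB : (Nat.card G : ℝ) * ∑ g : G, (if M g ∧ g ∉ Z then ‖χ g‖ ^ 2 else 0)
      ≤ (Nat.card N : ℝ) * ∑ g : G, (if g ∉ Z then ‖χ g‖ ^ 2 else 0) := by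
    calc (Nat.card G : ℝ) * ∑ g : G, (if M g ∧ g ∉ Z then ‖χ g‖ ^ 2 else 0)
        = ∑ _x : G, ∑ g : G, (if M g ∧ g ∉ Z then ‖χ g‖ ^ 2 else 0) := by
          rw [Finset.sum_const, Finset.card_univ, nsmul_eq_mul, Nat.card_eq_fintype_card]
      _ = ∑ x : G, ∑ g : G, (if M (x⁻¹ * g * x) ∧ g ∉ Z then ‖χ g‖ ^ 2 else 0) := by
          refine Finset.sum_congr rfl fun x _ => ?_
          rw [← Equiv.sum_comp (MulAut.conj x⁻¹).toEquiv
            (fun g => if M g ∧ g ∉ Z then ‖χ g‖ ^ 2 else 0)]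
          refine Finset.sum_congr rfl fun g _ => ?_
          have e : (MulAut.conj x⁻¹).toEquiv g = x⁻¹ * g * x := by
            simp [MulAut.conj_apply]
          rw [e, hcl, hZn]
      _ = ∑ g : G, ∑ x : G, (if M (x⁻¹ * g * x) ∧ g ∉ Z then ‖χ g‖ ^ 2 else 0) :=
          Finset.sum_comm
      _ ≤ ∑ g : G, (Nat.card N : ℝ) * (if g ∉ Z then ‖χ g‖ ^ 2 else 0) := by
          refine Finset.sum_le_sum fun g _ => ?_
          by_cases hz : g ∈ Z
          · simp [hz]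
          · simp only [hz, not_false_eq_true, and_true, if_true]
            rw [← Finset.sum_filter, Finset.sum_const, nsmul_eq_mul]
            have h1 := hcount g hz
            have h2 : (0 : ℝ) ≤ ‖χ g‖ ^ 2 := by positivity
            have h3 : ((Finset.univ.filter (fun x : G => M (x⁻¹ * g * x))).card : ℝ)
                ≤ Nat.card N := by exact_mod_cast h1
            exact mul_le_mul_of_nonneg_right h3 h2
      _ = (Nat.card N : ℝ) * ∑ g : G, (if g ∉ Z then ‖χ g‖ ^ 2 else 0) := by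
          rw [← Finset.mul_sum]
  -- final arithmetic
  by_contra hcon
  push_neg at hcon
  have hHpos : (0 : ℝ) < Nat.card H := by exact_mod_cast Nat.card_pos
  set A' : ℝ := ∑ g : G, (if M g ∧ g ∉ Z then ‖χ g‖ ^ 2 else 0) with hA'def
  set W' : ℝ := ∑ g : G, (if g ∉ Z then ‖χ g‖ ^ 2 else 0) with hW'def
  have h1 : (Nat.card G : ℝ) * Nat.card Z * (d : ℝ) ^ 2
      ≤ (Nat.card G : ℝ) * Nat.card Z * ((Nat.card H : ℝ) * (m : ℝ) ^ 2) :=
    mul_le_mul_of_nonneg_left hcon (by positivity)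
  have h3 : (0 : ℝ) < (Nat.card N : ℝ) * Nat.card Z * (d : ℝ) ^ 2 := by positivity
  have h5 : (Nat.card H : ℝ) * Nat.card Z * (m : ℝ) ^ 2 + Nat.card N
      - (Nat.card Z : ℝ) * (d : ℝ) ^ 2 ≤ A' := by linarith
  have h4 : (Nat.card G : ℝ) * ((Nat.card H : ℝ) * Nat.card Z * (m : ℝ) ^ 2 + Nat.card N
      - (Nat.card Z : ℝ) * (d : ℝ) ^ 2)
      ≤ (Nat.card N : ℝ) * ((Nat.card G : ℝ) - (Nat.card Z : ℝ) * (d : ℝ) ^ 2) := by
    calc (Nat.card G : ℝ) * ((Nat.card H : ℝ) * Nat.card Z * (m : ℝ) ^ 2 + Nat.card N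
          - (Nat.card Z : ℝ) * (d : ℝ) ^ 2)
        ≤ (Nat.card G : ℝ) * A' := mul_le_mul_of_nonneg_left h5 hGpos.le
      _ ≤ (Nat.card N : ℝ) * W' := hB
      _ = (Nat.card N : ℝ) * ((Nat.card G : ℝ) - (Nat.card Z : ℝ) * (d : ℝ) ^ 2) := by
          congr 1
          linarith
  nlinarith [h1, h3, h4]

/-- **Feit–Thompson bound, part 1** (S0898). -/
theorem ft_part1 {G : Type*} [Group G] [Fintype G] (H : Subgroup G) [Fintype H]
    (hab : ∀ a ∈ H, ∀ b ∈ H, a * b = b * a) (hZ : H ⊓ Subgroup.center G = ⊥)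
    (hone : ∀ g : G, g ∉ Subgroup.center G → ∀ a b : G,
      Subgroup.centralizer ({g} : Set G) ⊓ H.map (MulAut.conj a).toMonoidHom ≠ ⊥ →
      Subgroup.centralizer ({g} : Set G) ⊓ H.map (MulAut.conj b).toMonoidHom ≠ ⊥ →
      H.map (MulAut.conj a).toMonoidHom = H.map (MulAut.conj b).toMonoidHom)
    (χ : G → ℂ) (hχ : Cfsg.IsIrrCharacter G χ) (hker : ∃ h ∈ H, χ h ≠ χ 1) :
    (χ 1).re ^ 2
      > (Nat.card H : ℝ) * (Cfsg.classInner (fun h : H => χ h) (fun _ => 1)).re ^ 2 := by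
  classical
  have hχc := Helper24.isCharacter_of_irr hχ
  have hd := Helper24.charDegree_spec hχc
  have hdpos := Helper24.irr_degree_pos hχ
  obtain ⟨m, hm⟩ := Helper2.classInner_char_nat (Helper24.isCharacter_restrict H hχc)
    (Helper2.isCharacter_one (G := H))
  have hH0 : (Nat.card H : ℂ) ≠ 0 := by exact_mod_cast Nat.card_pos.ne'
  have hm' : (Nat.card H : ℂ)⁻¹ * ∑ h : H, χ h = (m : ℂ) := by
    rw [← hm]
    unfold classInner
    simp
  rw [hm, hd]
  simp only [Complex.natCast_re]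
  obtain ⟨h₀, hh₀, hh₀χ⟩ := hker
  have hh₀1 : h₀ ≠ 1 := by
    rintro rfl
    exact hh₀χ rfl
  refine ft_core H (Subgroup.normalizer (H : Set G)) (Subgroup.center G)
    (fun g => ∃ h ∈ H, h ≠ 1 ∧ g * h = h * g) χ
    (fun g => (Nat.card H : ℂ)⁻¹ * ∑ h : H, χ (g * h)) (charDegree χ) m
    ?hMN ?hv0 ?hnorm ?horth ?hHZ hZ ?hZd ?hZM ?hsum ?hcount ?hcl ?hZn hdpos
  case hMN =>
    rintro g ⟨h, hh, h1, hc⟩
    exact ft_M_sub_N H hZ hone hh h1 hc
  case hv0 =>
    intro g hg hMg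
    have hM' : ∀ h ∈ H, g * h = h * g → h = 1 := by
      intro h hh hc
      by_contra h1
      exact hMg ⟨h, hh, h1, hc⟩
    show χ g - (Nat.card H : ℂ)⁻¹ * ∑ h : H, χ (g * h) = 0
    rw [ft_avg_eq H hχc hg hM', ← mul_assoc, inv_mul_cancel₀ hH0, one_mul, sub_self]
  case hnorm =>
    have hτ := ft_tau H hχc
    have hex : ∃ g : Subgroup.normalizer (H : Set G),
        (χ g - (Nat.card H : ℂ)⁻¹ * ∑ h : H, χ ((g : G) * h)
          + (Nat.card H : ℂ)⁻¹ * ∑ h : H, χ h) - (m : ℂ) ≠ 0 := by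
      by_contra hne
      push_neg at hne
      have a1 := hne ⟨h₀, Subgroup.le_normalizer hh₀⟩
      have a2 := hne ⟨1, one_mem _⟩
      have a3 : (Nat.card H : ℂ)⁻¹ * ∑ k : H, χ (h₀ * k)
          = (Nat.card H : ℂ)⁻¹ * ∑ k : H, χ k := by
        have := ft_avg_inv H χ 1 ⟨h₀, hh₀⟩
        simpa only [one_mul] using this
      simp only [one_mul] at a2
      rw [a3] at a1
      apply hh₀χ
      linear_combination a1 - a2
    have := ft_norm_ge hτ m hex
    refine this.trans (le_of_eq (Finset.sum_congr rfl fun g _ => ?_))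
    rw [hm', add_sub_cancel_right]
  case horth => exact ft_orth H _ Subgroup.le_normalizer χ
  case hHZ =>
    intro h hh z hz
    have hzc := Subgroup.mem_center_iff.1 hz
    refine ⟨⟨h₀, hh₀, hh₀1, ?_⟩, ?_⟩
    · rw [mul_assoc, hab h hh h₀ hh₀, ← mul_assoc, ← hzc h₀, mul_assoc]
    · show ‖(Nat.card H : ℂ)⁻¹ * ∑ k : H, χ (z * h * k)‖ = (m : ℝ)
      have e : (Nat.card H : ℂ)⁻¹ * ∑ k : H, χ (z * h * k)
          = (Nat.card H : ℂ)⁻¹ * ∑ k : H, χ (z * k) := ft_avg_inv H χ z ⟨h, hh⟩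
      rw [e]
      obtain ⟨c, hc1, hc2⟩ := ft_central hχ z hz
      simp only [hc2]
      rw [← Finset.mul_sum, mul_left_comm, hm', norm_mul, hc1, one_mul]
      simp
  case hZd =>
    intro z hz
    obtain ⟨c, hc1, hc2⟩ := ft_central hχ z hz
    have := hc2 1
    rw [mul_one] at this
    rw [this, norm_mul, hc1, one_mul, hd]
    simp
  case hZM =>
    intro z hz
    exact ⟨h₀, hh₀, hh₀1, (Subgroup.mem_center_iff.1 hz h₀).symm⟩
  case hsum => exact Helper24.irr_norm_sum hχ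
  case hcount =>
    intro g hg
    exact ft_count H hone g hg
  case hcl =>
    intro g x
    have := Helper24.char_conj_invariant hχc g x⁻¹
    rwa [inv_inv] at this
  case hZn =>
    intro g x
    constructor
    · intro h
      have := (inferInstance : (Subgroup.center G).Normal).conj_mem _ h x
      simpa [mul_assoc] using this
    · intro h
      have := (inferInstance : (Subgroup.center G).Normal).conj_mem _ h x⁻¹
      simpa [mul_assoc] using this

end Cfsg.Agent.Helper21
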