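import Mathlib
import Cfsg.Agent.Helper21.FTBound
import Cfsg.Agent.Helper6.DetTrace
import Cfsg.Agent.Helper13.CycDFT

/-!
Spectral decomposition of a character along a cyclic subgroup commuting with a subgroup `C`
(auxiliary for a Hall–Higman type lemma used in S0899).
-/

set_option autoImplicit false

namespace Cfsg.Agent.Helper21

open Cfsg
open scoped ComplexConjugate

/-- Discrete Parseval identity for complex coefficients. -/
theorem hh_parseval (N : ℕ) (hN : 0 < N) (ζ : ℂ) (hζ : IsPrimitiveRoot ζ N) (a : ℕ → ℂ) :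
    ∑ i ∈ Finset.range N, ‖∑ j ∈ Finset.range N, (ζ ^ j) ^ i * a j‖ ^ 2
      = (N : ℝ) * ∑ j ∈ Finset.range N, ‖a j‖ ^ 2 := by
  have hcz := Helper13.conj_root N hN ζ hζ
  apply Complex.ofReal_injective
  push_cast
  have h1 : ∀ i ∈ Finset.range N, ((‖∑ j ∈ Finset.range N, (ζ ^ j) ^ i * a j‖ : ℂ)) ^ 2
      = ∑ j ∈ Finset.range N, ∑ j' ∈ Finset.range N,
          (a j * conj (a j')) * (((ζ ^ j')⁻¹) ^ i * ζ ^ (j * i)) := by
    intro i _
    rw [← Complex.mul_conj', map_sum, Finset.sum_mul_sum]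
    refine Finset.sum_congr rfl fun j _ => Finset.sum_congr rfl fun j' _ => ?_
    rw [map_mul, map_pow, map_pow, hcz, ← pow_mul ζ j i, inv_pow ζ j']
    ring
  rw [Finset.sum_congr rfl h1, Finset.sum_comm]
  have h2 : ∀ j ∈ Finset.range N, ∑ i ∈ Finset.range N, ∑ j' ∈ Finset.range N,
      (a j * conj (a j')) * (((ζ ^ j')⁻¹) ^ i * ζ ^ (j * i)) = (N : ℂ) * (‖a j‖ : ℂ) ^ 2 := by
    intro j hj
    rw [Finset.sum_comm]
    have h3 : ∀ j' ∈ Finset.range N, ∑ i ∈ Finset.range N,
        (a j * conj (a j')) * (((ζ ^ j')⁻¹) ^ i * ζ ^ (j * i))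
          = if j = j' then (a j * conj (a j')) * (N : ℂ) else 0 := by
      intro j' hj'
      rw [← Finset.mul_sum, Helper13.geom_sum_root N hN ζ hζ j j' (Finset.mem_range.1 hj)
        (Finset.mem_range.1 hj')]
      split_ifs <;> simp
    rw [Finset.sum_congr rfl h3, Finset.sum_ite_eq, if_pos hj, Complex.mul_conj']
    ring
  rw [Finset.sum_congr rfl h2, ← Finset.mul_sum]

/-- An idempotent commuting with `ρ` on a subgroup `N` yields a representation of `N`. -/
theorem hh_idem_rep {G : Type*} [Group G] {n : ℕ} (ρ : Representation ℂ G (Fin n → ℂ))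
    (N : Subgroup G) (e : Module.End ℂ (Fin n → ℂ)) (he : e * e = e)
    (hc : ∀ g ∈ N, ρ g * e = e * ρ g) :
    IsCharacter N (fun g : N => LinearMap.trace ℂ (Fin n → ℂ) (ρ g * (1 - e) + e)) := by
  let σ : Representation ℂ N (Fin n → ℂ) :=
    { toFun := fun g => ρ g * (1 - e) + e
      map_one' := by simp
      map_mul' := fun a b => by
        have hb := hc b b.2
        have h1 : (1 - e) * ρ b = ρ b * (1 - e) := by
          rw [sub_mul, mul_sub, one_mul, mul_one, hb]
        have h2 : (1 - e) * (1 - e) = 1 - e := by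
          rw [mul_sub, mul_one, sub_mul, one_mul, he, sub_self, sub_zero]
        have h3 : (1 - e) * e = 0 := by rw [sub_mul, one_mul, he, sub_self]
        have h4 : e * (1 - e) = 0 := by rw [mul_sub, mul_one, he, sub_self]
        show ρ ((a : G) * (b : G)) * (1 - e) + e
          = (ρ a * (1 - e) + e) * (ρ b * (1 - e) + e)
        rw [map_mul]
        symm
        calc (ρ a * (1 - e) + e) * (ρ b * (1 - e) + e)
            = ρ a * ((1 - e) * ρ b) * (1 - e) + ρ a * ((1 - e) * e) + (e * ρ b) * (1 - e)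
                + e * e := by noncomm_ring
          _ = ρ a * (ρ b * (1 - e)) * (1 - e) + ρ a * 0 + (ρ b * e) * (1 - e) + e := by
              rw [h1, h3, ← hb, he]
          _ = ρ a * ρ b * ((1 - e) * (1 - e)) + ρ b * (e * (1 - e)) + e := by noncomm_ring
          _ = ρ a * ρ b * (1 - e) + e := by rw [h2, h4]; simp }
  exact ⟨n, σ, rfl⟩

/-- Spectral decomposition of a character along a cyclic subgroup `⟨x⟩` (with `x ^ q = 1`)
commuting with a subgroup `C`. -/
theorem hh_spec {G : Type*} [Group G] {n : ℕ} (ρ : Representation ℂ G (Fin n → ℂ)) (x : G)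
    (q : ℕ) (hq : 0 < q) (hx : x ^ q = 1) (ζ : ℂ) (hζ : IsPrimitiveRoot ζ q) (C : Subgroup G)
    (hC : ∀ c ∈ C, c * x = x * c) :
    ∃ (r : ℕ → ℕ) (φ : ℕ → G → ℂ),
      (∀ (g : G) (i : ℕ), ρ.character (g * x ^ i)
        = ∑ j ∈ Finset.range q, (ζ ^ j) ^ i * φ j g) ∧
      (∀ j, φ j 1 = (r j : ℂ)) ∧
      (∑ j ∈ Finset.range q, r j = n) ∧
      (∀ j, r j = 0 → ∀ g, φ j g = 0) ∧
      (∀ j, r j ≤ n ∧ IsCharacter C (fun c : C => φ j c + ((n - r j : ℕ) : ℂ))) := by
  classical
  have hζ0 : ζ ≠ 0 := hζ.ne_zero hq.ne'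
  have hζq : ζ ^ q = 1 := hζ.pow_eq_one
  have hA : (ρ x) ^ q = 1 := by rw [← map_pow, hx, map_one]
  obtain ⟨E, hE⟩ : ∃ E : ℕ → Module.End ℂ (Fin n → ℂ),
      E = fun j => Helper6.dftIdem (ρ x) q ζ j := ⟨_, rfl⟩
  have hidem : ∀ j, IsIdempotentElem (E j) := by
    intro j
    rw [hE]
    exact Helper6.dftIdem_isIdempotent (ρ x) q hq hA ζ hζ0 hζq j
  have hsum : ∑ j ∈ Finset.range q, E j = 1 := by
    rw [hE]
    exact Helper6.sum_dftIdem (ρ x) q hq ζ hζ
  have hpow : ∀ j i, (ρ x) ^ i * E j = (ζ ^ j) ^ i • E j := by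
    intro j i
    rw [hE]
    exact Helper6.pow_mul_dftIdem (ρ x) q hA ζ hζ0 hζq j i
  have htr : ∀ j, LinearMap.trace ℂ (Fin n → ℂ) (E j)
      = (Module.finrank ℂ (LinearMap.range (E j)) : ℂ) := by
    intro j
    exact (LinearMap.IsIdempotentElem.isProj_range _ (hidem j)).trace
  have hfin : Module.finrank ℂ (Fin n → ℂ) = n := by simp
  have hcomm : ∀ c ∈ C, ∀ j, ρ c * E j = E j * ρ c := by
    intro c hc j
    have h1 : Commute (ρ c) (ρ x) := by
      show ρ c * ρ x = ρ x * ρ c
      rw [← map_mul, ← map_mul, hC c hc]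
    have h2 : Commute (ρ c) (E j) := by
      rw [hE]
      unfold Helper6.dftIdem
      apply Commute.smul_right
      apply Commute.sum_right
      intro m _
      apply Commute.smul_right
      exact h1.pow_right m
    exact h2.eq
  refine ⟨fun j => Module.finrank ℂ (LinearMap.range (E j)),
    fun j g => LinearMap.trace ℂ (Fin n → ℂ) (ρ g * E j), ?_, ?_, ?_, ?_, ?_⟩
  · intro g i
    have h1 : ρ (g * x ^ i) = ∑ j ∈ Finset.range q, (ζ ^ j) ^ i • (ρ g * E j) := by
      calc ρ (g * x ^ i) = ρ g * (ρ x) ^ i * ∑ j ∈ Finset.range q, E j := by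
            rw [hsum, mul_one, map_mul, map_pow]
        _ = ∑ j ∈ Finset.range q, ρ g * ((ρ x) ^ i * E j) := by
            rw [Finset.mul_sum]
            exact Finset.sum_congr rfl fun j _ => mul_assoc _ _ _
        _ = ∑ j ∈ Finset.range q, (ζ ^ j) ^ i • (ρ g * E j) := by
            refine Finset.sum_congr rfl fun j _ => ?_
            rw [hpow, mul_smul_comm]
    show LinearMap.trace ℂ (Fin n → ℂ) (ρ (g * x ^ i)) = _
    rw [h1, map_sum]
    exact Finset.sum_congr rfl fun j _ => by rw [map_smul, smul_eq_mul]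
  · intro j
    show LinearMap.trace ℂ (Fin n → ℂ) (ρ 1 * E j) = _
    rw [map_one, one_mul, htr]
  · have h1 : ((∑ j ∈ Finset.range q, Module.finrank ℂ (LinearMap.range (E j)) : ℕ) : ℂ)
        = (n : ℂ) := by
      push_cast
      rw [← Finset.sum_congr rfl (fun j _ => htr j), ← map_sum, hsum, LinearMap.trace_one, hfin]
    exact_mod_cast h1
  · intro j hj g
    have h1 : LinearMap.range (E j) = ⊥ := Submodule.finrank_eq_zero.1 hj
    have h2 : E j = 0 := LinearMap.range_eq_bot.1 h1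
    show LinearMap.trace ℂ (Fin n → ℂ) (ρ g * E j) = 0
    rw [h2, mul_zero, map_zero]
  · intro j
    have hle : Module.finrank ℂ (LinearMap.range (E j)) ≤ n := by
      have := Submodule.finrank_le (LinearMap.range (E j))
      rwa [hfin] at this
    refine ⟨hle, ?_⟩
    have he : (1 - E j) * (1 - E j) = 1 - E j := (hidem j).one_sub.eq
    have hc' : ∀ g ∈ C, ρ g * (1 - E j) = (1 - E j) * ρ g := by
      intro g hg
      rw [mul_sub, sub_mul, mul_one, one_mul, hcomm g hg j]
    have key := hh_idem_rep ρ C (1 - E j) he hc'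
    have heq : (fun g : C => LinearMap.trace ℂ (Fin n → ℂ) (ρ g * (1 - (1 - E j)) + (1 - E j)))
        = fun c : C => LinearMap.trace ℂ (Fin n → ℂ) (ρ c * E j)
          + ((n - Module.finrank ℂ (LinearMap.range (E j)) : ℕ) : ℂ) := by
      funext g
      rw [sub_sub_cancel, map_add, map_sub, LinearMap.trace_one, htr, hfin, Nat.cast_sub hle]
    rw [heq] at key
    exact key

end Cfsg.Agent.Helper21
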