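import Mathlib
import Cfsg.Agent.Helper21.HHSpec

/-!
Counting bound for a Hall–Higman type lemma (used in S0899).
-/

set_option autoImplicit false

namespace Cfsg.Agent.Helper21

open Cfsg
open scoped ComplexConjugate

/-- Generic double counting over conjugates. -/
theorem hh_double_count {Γ : Type*} [Group Γ] [Fintype Γ] (w : Γ → ℝ) (hw0 : ∀ g, 0 ≤ w g)
    (hwc : ∀ g u : Γ, w (u⁻¹ * g * u) = w g) (A B : Γ → Prop) [DecidablePred A]
    [DecidablePred B] (hB : ∀ g u : Γ, B (u⁻¹ * g * u) ↔ B g) (m : ℕ)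
    (hcount : ∀ g, B g → (Finset.univ.filter (fun u : Γ => A (u⁻¹ * g * u))).card ≤ m) :
    (Nat.card Γ : ℝ) * ∑ g : Γ, (if A g ∧ B g then w g else 0)
      ≤ (m : ℝ) * ∑ g : Γ, (if B g then w g else 0) := by
  classical
  calc (Nat.card Γ : ℝ) * ∑ g : Γ, (if A g ∧ B g then w g else 0)
      = ∑ _u : Γ, ∑ g : Γ, (if A g ∧ B g then w g else 0) := by
        rw [Finset.sum_const, Finset.card_univ, nsmul_eq_mul, Nat.card_eq_fintype_card]
    _ = ∑ u : Γ, ∑ g : Γ, (if A (u⁻¹ * g * u) ∧ B g then w g else 0) := by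
        refine Finset.sum_congr rfl fun u _ => ?_
        rw [← Equiv.sum_comp (MulAut.conj u⁻¹).toEquiv
          (fun g => if A g ∧ B g then w g else 0)]
        refine Finset.sum_congr rfl fun g _ => ?_
        have e : (MulAut.conj u⁻¹).toEquiv g = u⁻¹ * g * u := by
          simp [MulAut.conj_apply]
        rw [e, hwc]
        exact if_congr (and_congr Iff.rfl (hB g u)) rfl rfl
    _ = ∑ g : Γ, ∑ u : Γ, (if A (u⁻¹ * g * u) ∧ B g then w g else 0) := Finset.sum_comm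
    _ ≤ ∑ g : Γ, (m : ℝ) * (if B g then w g else 0) := by
        refine Finset.sum_le_sum fun g _ => ?_
        by_cases hb : B g
        · simp only [hb, and_true, if_true]
          rw [← Finset.sum_filter, Finset.sum_const, nsmul_eq_mul]
          have h3 : ((Finset.univ.filter (fun u : Γ => A (u⁻¹ * g * u))).card : ℝ) ≤ m := by
            exact_mod_cast hcount g hb
          exact mul_le_mul_of_nonneg_right h3 (hw0 g)
        · simp [hb]
    _ = (m : ℝ) * ∑ g : Γ, (if B g then w g else 0) := by rw [← Finset.mul_sum]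

/-- The counting bound: `p · Σ_{c ∈ C} Σ_{i < q, p ∤ i} |χ(c xⁱ)|² ≤ |C| q (p - 1)`. -/
theorem hh_bound {Γ : Type*} [Group Γ] [Fintype Γ] (p : ℕ) [hp : Fact p.Prime] (K : Subgroup Γ)
    [hKn : K.Normal] (hK : (Nat.card K).Coprime p) (x : Γ) (a : ℕ)
    (hx : orderOf x = p ^ (a + 1))
    (hxp : ∀ k ∈ K, x ^ p * k = k * x ^ p)
    (hgen : ∀ g : Γ, ∃ k ∈ K, ∃ i : ℕ, g = k * x ^ i)
    (C : Subgroup Γ) [Fintype C] (hC : ∀ c, c ∈ C ↔ c ∈ K ∧ c * x = x * c)
    {χ : Γ → ℂ} (hχ : IsIrrCharacter Γ χ) :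
    (p : ℝ) * ∑ c : C, ∑ i ∈ (Finset.range (p ^ (a + 1))).filter (fun i => ¬ p ∣ i),
        ‖χ ((c : Γ) * x ^ i)‖ ^ 2
      ≤ (Nat.card C : ℝ) * ((p ^ (a + 1) : ℕ) : ℝ) * ((p : ℝ) - 1) := by
  classical
  have hχc := Helper24.isCharacter_of_irr hχ
  obtain ⟨q, hqdef⟩ : ∃ q : ℕ, q = p ^ (a + 1) := ⟨_, rfl⟩
  rw [← hqdef] at hx ⊢
  have hp1 : 1 < p := hp.out.one_lt
  have hq1 : 1 < q := by
    rw [hqdef]
    exact Nat.one_lt_pow (by omega) hp1
  have hq0 : 0 < q := by omega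
  have hpq : p ∣ q := by
    rw [hqdef]
    exact dvd_pow_self p (by omega)
  have hcopq : (Nat.card K).Coprime q := by
    rw [hqdef]
    exact Nat.Coprime.pow_right _ hK
  have hKP : ∀ y ∈ K, y ∈ Subgroup.zpowers x → y = 1 := by
    intro y hyK hyx
    have h1 : orderOf y ∣ Nat.card K := by
      have := orderOf_dvd_natCard (⟨y, hyK⟩ : K)
      rwa [Subgroup.orderOf_mk] at this
    have h2 : orderOf y ∣ q := by
      have := orderOf_dvd_of_mem_zpowers hyx
      rwa [hx] at this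
    exact orderOf_eq_one_iff.1 (Nat.eq_one_of_dvd_coprimes hcopq h1 h2)
  have hcen : x ^ p ∈ Subgroup.center Γ := by
    rw [Subgroup.mem_center_iff]
    intro g
    obtain ⟨k, hk, i, rfl⟩ := hgen g
    calc k * x ^ i * x ^ p = k * (x ^ p * x ^ i) := by
          rw [mul_assoc, ← pow_add, ← pow_add, add_comm]
      _ = (k * x ^ p) * x ^ i := by rw [mul_assoc]
      _ = x ^ p * (k * x ^ i) := by rw [← hxp k hk, mul_assoc]
  have hNmem : ∀ g, g ∈ Subgroup.centralizer ({x} : Set Γ) ↔ x * g = g * x := by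
    intro g
    rw [Subgroup.mem_centralizer_iff]
    simp
  have hZn : (Subgroup.zpowers (x ^ p)).Normal := ⟨fun n hn g => by
    obtain ⟨m, rfl⟩ := Subgroup.mem_zpowers_iff.1 hn
    have hz : (x ^ p) ^ m ∈ Subgroup.center Γ := Subgroup.zpow_mem _ hcen m
    have := Subgroup.mem_center_iff.1 hz g
    rw [this, mul_inv_cancel_right]
    exact Subgroup.zpow_mem_zpowers _ _⟩
  obtain ⟨Γ₀, hΓ₀⟩ : ∃ Γ₀ : Subgroup Γ, Γ₀ = K ⊔ Subgroup.zpowers (x ^ p) := ⟨_, rfl⟩
  have hΓ₀n : Γ₀.Normal := by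
    rw [hΓ₀]
    infer_instance
  have hΓ₀mem : ∀ g, g ∈ Γ₀ ↔ ∃ k ∈ K, ∃ z ∈ Subgroup.zpowers (x ^ p), k * z = g := by
    intro g
    rw [hΓ₀, ← SetLike.mem_coe, Subgroup.normal_mul, Set.mem_mul]
    simp only [SetLike.mem_coe]
  have hΓ₀c : ∀ g u : Γ, (u⁻¹ * g * u ∉ Γ₀) ↔ (g ∉ Γ₀) := by
    intro g u
    have h1 : u⁻¹ * g * u ∈ Γ₀ ↔ g ∈ Γ₀ := by
      constructor
      · intro h
        have := hΓ₀n.conj_mem _ h u
        simpa [mul_assoc] using this
      · intro h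
        have := hΓ₀n.conj_mem _ h u⁻¹
        simpa [mul_assoc] using this
    exact not_congr h1
  have hidx : (Nat.card Γ : ℝ) ≤ p * Nat.card Γ₀ := by
    have hsurj : Function.Surjective (fun t : Fin p × Γ₀ => x ^ (t.1 : ℕ) * (t.2 : Γ)) := by
      intro g
      obtain ⟨k, hk, m, rfl⟩ := hgen g
      have hmem : (x ^ (m % p))⁻¹ * (k * x ^ m) ∈ Γ₀ := by
        rw [hΓ₀mem]
        refine ⟨(x ^ (m % p))⁻¹ * k * x ^ (m % p), ?_, (x ^ p) ^ (m / p),
          Subgroup.pow_mem _ (Subgroup.mem_zpowers _) _, ?_⟩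
        · have := hKn.conj_mem k hk (x ^ (m % p))⁻¹
          simpa using this
        · rw [← pow_mul, mul_assoc, ← pow_add, Nat.mod_add_div, mul_assoc]
      exact ⟨(⟨m % p, Nat.mod_lt _ (by omega)⟩, ⟨_, hmem⟩), by simp⟩
    have := Fintype.card_le_of_surjective _ hsurj
    rw [Fintype.card_prod, Fintype.card_fin] at this
    rw [Nat.card_eq_fintype_card, Nat.card_eq_fintype_card]
    exact_mod_cast this
  have hΓ₀sum : (Nat.card Γ₀ : ℝ) ≤ ∑ g : Γ, (if g ∈ Γ₀ then ‖χ g‖ ^ 2 else 0) := by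
    rw [ft_sum_conv Γ₀ (fun g => g ∈ Γ₀) (fun g h => h) (fun g => ‖χ g‖ ^ 2)
      (by intro g hg hn; exact absurd hg hn)]
    have hτ := Helper24.isCharacter_restrict Γ₀ hχc
    have hex : ∃ g : Γ₀, (fun h : Γ₀ => χ h) g - ((0 : ℕ) : ℂ) ≠ 0 :=
      ⟨1, by simpa using Helper25.irr_one_ne_zero hχ⟩
    have := ft_norm_ge hτ 0 hex
    simpa using this
  have hWsum : ∑ g : Γ, (if g ∉ Γ₀ then ‖χ g‖ ^ 2 else 0)
      ≤ (Nat.card Γ : ℝ) - Nat.card Γ₀ := by
    have h1 : ∑ g : Γ, (if g ∉ Γ₀ then ‖χ g‖ ^ 2 else 0)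
        + ∑ g : Γ, (if g ∈ Γ₀ then ‖χ g‖ ^ 2 else 0) = (Nat.card Γ : ℝ) := by
      rw [← Finset.sum_add_distrib, ← Helper24.irr_norm_sum hχ]
      refine Finset.sum_congr rfl fun g _ => ?_
      by_cases h : g ∈ Γ₀ <;> simp [h]
    linarith
  have hNstr : ∀ s, x * s = s * x → ∃ c ∈ C, ∃ i, i < q ∧ s = c * x ^ i := by
    intro s hs
    obtain ⟨k, hk, m, rfl⟩ := hgen s
    refine ⟨k, (hC k).2 ⟨hk, ?_⟩, m % q, Nat.mod_lt _ hq0, ?_⟩
    · have h1 : x * k * x ^ m = k * x * x ^ m := by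
        calc x * k * x ^ m = x * (k * x ^ m) := mul_assoc _ _ _
          _ = k * x ^ m * x := hs
          _ = k * (x ^ m * x) := mul_assoc _ _ _
          _ = k * (x * x ^ m) := by rw [← pow_succ, ← pow_succ']
          _ = k * x * x ^ m := (mul_assoc _ _ _).symm
      exact (mul_right_cancel h1).symm
    · rw [← hx, pow_mod_orderOf]
  have hNcard : (Nat.card (Subgroup.centralizer ({x} : Set Γ)) : ℝ) ≤ Nat.card C * q := by
    have hmemN : ∀ t : C × Fin q, (t.1 : Γ) * x ^ (t.2 : ℕ) ∈ Subgroup.centralizer ({x} : Set Γ) := by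
      intro t
      rw [hNmem]
      have h1 := ((hC t.1).1 t.1.2).2
      exact ((show Commute x (t.1 : Γ) from h1.symm).mul_right
        ((Commute.refl x).pow_right _)).eq
    have hsurj : Function.Surjective (fun t : C × Fin q =>
        (⟨(t.1 : Γ) * x ^ (t.2 : ℕ), hmemN t⟩ : Subgroup.centralizer ({x} : Set Γ))) := by
      rintro ⟨s, hs⟩
      obtain ⟨c, hc, i, hi, rfl⟩ := hNstr s ((hNmem s).1 hs)
      exact ⟨(⟨c, hc⟩, ⟨i, hi⟩), rfl⟩
    have := Fintype.card_le_of_surjective _ hsurj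
    rw [Fintype.card_prod, Fintype.card_fin] at this
    rw [Nat.card_eq_fintype_card, Nat.card_eq_fintype_card]
    exact_mod_cast this
  obtain ⟨t, -, ht⟩ := Nat.exists_mul_mod_eq_one_of_coprime hcopq hq1
  have hKM : ∀ y ∈ K, y ^ (Nat.card K * t) = 1 := by
    intro y hy
    rw [pow_mul]
    have h : (⟨y, hy⟩ : K) ^ Nat.card K = 1 := pow_card_eq_one'
    have h' : y ^ Nat.card K = 1 := by
      have := congrArg Subtype.val h
      rwa [Subgroup.coe_pow, Subgroup.coe_one] at this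
    rw [h', one_pow]
  have hxM : x ^ (Nat.card K * t) = x := by
    rw [← pow_mod_orderOf, hx, ht, pow_one]
  have hkey : ∀ s, x * s = s * x → s ∉ Γ₀ → ∀ u : Γ,
      x * (u⁻¹ * s * u) = (u⁻¹ * s * u) * x → x * u = u * x := by
    intro s hs hsΓ u hu
    obtain ⟨c, hc, i, hi, rfl⟩ := hNstr s hs
    have hcK := ((hC c).1 hc).1
    have hcx := ((hC c).1 hc).2
    have hpi : ¬ p ∣ i := by
      rintro ⟨j, rfl⟩
      apply hsΓ
      rw [hΓ₀mem]
      exact ⟨c, hcK, (x ^ p) ^ j, Subgroup.pow_mem _ (Subgroup.mem_zpowers _) _, by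
        rw [← pow_mul]⟩
    obtain ⟨k, hk, m, rfl⟩ := hgen u
    have hs'' : Commute x (k⁻¹ * (c * x ^ i) * k) := by
      have e : (k * x ^ m)⁻¹ * (c * x ^ i) * (k * x ^ m)
          = (x ^ m)⁻¹ * (k⁻¹ * (c * x ^ i) * k) * x ^ m := by group
      rw [e] at hu
      have h1 : Commute x ((x ^ m)⁻¹ * (k⁻¹ * (c * x ^ i) * k) * x ^ m) := hu
      have h2 : Commute x (x ^ m) := (Commute.refl x).pow_right m
      have h3 : Commute x (x ^ m * ((x ^ m)⁻¹ * (k⁻¹ * (c * x ^ i) * k) * x ^ m) * (x ^ m)⁻¹) :=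
        (h2.mul_right h1).mul_right h2.inv_right
      have e2 : x ^ m * ((x ^ m)⁻¹ * (k⁻¹ * (c * x ^ i) * k) * x ^ m) * (x ^ m)⁻¹
          = k⁻¹ * (c * x ^ i) * k := by group
      rw [e2] at h3
      exact h3
    obtain ⟨s'', hs''def⟩ : ∃ s'' : Γ, s'' = k⁻¹ * (c * x ^ i) * k := ⟨_, rfl⟩
    rw [← hs''def] at hs''
    have hc''K : s'' * (x ^ i)⁻¹ ∈ K := by
      have e : s'' * (x ^ i)⁻¹ = (k⁻¹ * c) * (x ^ i * k * (x ^ i)⁻¹) := by
        rw [hs''def]
        group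
      rw [e]
      exact K.mul_mem (K.mul_mem (K.inv_mem hk) hcK) (hKn.conj_mem k hk _)
    have hc''x : Commute (s'' * (x ^ i)⁻¹) (x ^ i) :=
      (hs''.symm.pow_right i).mul_left ((Commute.refl (x ^ i)).inv_left)
    have hpow1 : s'' ^ (Nat.card K * t) = x ^ i := by
      have e : s'' = (s'' * (x ^ i)⁻¹) * x ^ i := by group
      rw [e, hc''x.mul_pow, hKM _ hc''K, one_mul, ← pow_mul, mul_comm, pow_mul, hxM]
    have hpow2 : s'' ^ (Nat.card K * t) = k⁻¹ * x ^ i * k := by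
      have e : s'' = k⁻¹ * (c * x ^ i) * k⁻¹⁻¹ := by rw [hs''def, inv_inv]
      have hcxi : Commute c (x ^ i) := (show Commute c x from hcx).pow_right i
      rw [e, conj_pow, inv_inv, hcxi.mul_pow, hKM c hcK, one_mul, ← pow_mul, mul_comm, pow_mul,
        hxM]
    have hkxi : x ^ i * k = k * x ^ i := by
      have h := hpow1.symm.trans hpow2
      calc x ^ i * k = k * (k⁻¹ * x ^ i * k) := by group
        _ = k * x ^ i := by rw [← h]
    have hcop : Nat.Coprime i q := by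
      rw [hqdef]
      exact Nat.Coprime.pow_right _ ((Nat.Prime.coprime_iff_not_dvd hp.out).2 hpi).symm
    obtain ⟨i', -, hi'⟩ := Nat.exists_mul_mod_eq_one_of_coprime hcop hq1
    have hxi : (x ^ i) ^ i' = x := by
      rw [← pow_mul, ← pow_mod_orderOf, hx, hi', pow_one]
    have hkx : Commute x k := by
      have h1 : Commute (x ^ i) k := hkxi
      have h2 := h1.pow_left i'
      rwa [hxi] at h2
    exact (hkx.mul_right ((Commute.refl x).pow_right m)).eq
  have hcount : ∀ g, g ∉ Γ₀ →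
      (Finset.univ.filter
        (fun u : Γ => u⁻¹ * g * u ∈ Subgroup.centralizer ({x} : Set Γ))).card
        ≤ Nat.card (Subgroup.centralizer ({x} : Set Γ)) := by
    intro g hg
    obtain ⟨S, hS⟩ : ∃ S : Finset Γ, S = Finset.univ.filter
      (fun u : Γ => u⁻¹ * g * u ∈ Subgroup.centralizer ({x} : Set Γ)) := ⟨_, rfl⟩
    rw [← hS]
    rcases S.eq_empty_or_nonempty with h0 | ⟨u₀, hu₀⟩
    · rw [h0]
      simp
    · have hu₀' : x * (u₀⁻¹ * g * u₀) = (u₀⁻¹ * g * u₀) * x := by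
        have : u₀⁻¹ * g * u₀ ∈ Subgroup.centralizer ({x} : Set Γ) := by
          simpa [hS] using hu₀
        exact (hNmem _).1 this
      have key : ∀ u ∈ S, u₀⁻¹ * u ∈ Subgroup.centralizer ({x} : Set Γ) := by
        intro u hu
        have hu' : x * (u⁻¹ * g * u) = (u⁻¹ * g * u) * x := by
          have : u⁻¹ * g * u ∈ Subgroup.centralizer ({x} : Set Γ) := by
            simpa [hS] using hu
          exact (hNmem _).1 this
        rw [hNmem]
        apply hkey (u₀⁻¹ * g * u₀) hu₀' ((hΓ₀c g u₀).2 hg) (u₀⁻¹ * u)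
        have e : (u₀⁻¹ * u)⁻¹ * (u₀⁻¹ * g * u₀) * (u₀⁻¹ * u) = u⁻¹ * g * u := by group
        rw [e]
        exact hu'
      calc S.card ≤ (Finset.univ.filter
            (fun y : Γ => y ∈ Subgroup.centralizer ({x} : Set Γ))).card :=
            Finset.card_le_card_of_injOn (fun u => u₀⁻¹ * u)
              (fun u hu => by
                have := key u hu
                simpa using this)
              (fun a _ b _ hab => mul_left_cancel hab)
        _ = Nat.card (Subgroup.centralizer ({x} : Set Γ)) := by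
            rw [← Fintype.card_subtype]
            exact (Nat.card_eq_fintype_card).symm
  have hdc := hh_double_count (fun g => ‖χ g‖ ^ 2) (fun g => by positivity)
    (fun g u => by
      have := Helper24.char_conj_invariant hχc g u⁻¹
      rw [inv_inv] at this
      show ‖χ (u⁻¹ * g * u)‖ ^ 2 = ‖χ g‖ ^ 2
      rw [this])
    (fun g => g ∈ Subgroup.centralizer ({x} : Set Γ)) (fun g => g ∉ Γ₀) hΓ₀c
    (Nat.card (Subgroup.centralizer ({x} : Set Γ))) hcount
  have hinj : ∑ c : C, ∑ i ∈ (Finset.range q).filter (fun i => ¬ p ∣ i),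
        ‖χ ((c : Γ) * x ^ i)‖ ^ 2
      ≤ ∑ g : Γ, (if g ∈ Subgroup.centralizer ({x} : Set Γ) ∧ g ∉ Γ₀ then ‖χ g‖ ^ 2 else 0) := by
    rw [← Finset.sum_product' (Finset.univ : Finset C)
      ((Finset.range q).filter (fun i => ¬ p ∣ i)) (fun c i => ‖χ ((c : Γ) * x ^ i)‖ ^ 2)]
    have himg : ∑ g ∈ ((Finset.univ : Finset C) ×ˢ
          ((Finset.range q).filter (fun i => ¬ p ∣ i))).image
            (fun t : C × ℕ => (t.1 : Γ) * x ^ t.2), ‖χ g‖ ^ 2
        = ∑ t ∈ (Finset.univ : Finset C) ×ˢ ((Finset.range q).filter (fun i => ¬ p ∣ i)),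
            ‖χ ((t.1 : Γ) * x ^ t.2)‖ ^ 2 := by
      apply Finset.sum_image
      rintro ⟨c, i⟩ h1 ⟨c', i'⟩ h2 heq
      have h1' : i < q ∧ ¬ p ∣ i := by simpa using h1
      have h2' : i' < q ∧ ¬ p ∣ i' := by simpa using h2
      have heq' : (c : Γ) * x ^ i = (c' : Γ) * x ^ i' := heq
      have h3 : (c' : Γ)⁻¹ * c = x ^ i' * (x ^ i)⁻¹ := by
        rw [inv_mul_eq_iff_eq_mul, ← mul_assoc, ← heq', mul_inv_cancel_right]
      have h4 : (c' : Γ)⁻¹ * c = 1 := by
        apply hKP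
        · exact K.mul_mem (K.inv_mem ((hC _).1 c'.2).1) ((hC _).1 c.2).1
        · rw [h3]
          exact Subgroup.mul_mem _ (Subgroup.pow_mem _ (Subgroup.mem_zpowers x) _)
            (Subgroup.inv_mem _ (Subgroup.pow_mem _ (Subgroup.mem_zpowers x) _))
      have h5 : (c' : Γ) = c := inv_mul_eq_one.1 h4
      have h6 : x ^ i = x ^ i' := by
        rw [h5] at heq'
        exact mul_left_cancel heq'
      have h7 : i = i' :=
        pow_injOn_Iio_orderOf (by rw [hx]; exact h1'.1) (by rw [hx]; exact h2'.1) h6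
      exact Prod.ext (Subtype.ext h5.symm) h7
    rw [← himg, ← Finset.sum_filter]
    apply Finset.sum_le_sum_of_subset_of_nonneg
    · intro g hg
      obtain ⟨⟨c, i⟩, ht, rfl⟩ := Finset.mem_image.1 hg
      have ht' : i < q ∧ ¬ p ∣ i := by simpa using ht
      rw [Finset.mem_filter]
      refine ⟨Finset.mem_univ _, ?_, ?_⟩
      · rw [hNmem]
        have h1 := ((hC c).1 c.2).2
        exact ((show Commute x (c : Γ) from h1.symm).mul_right
          ((Commute.refl x).pow_right i)).eq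
      · intro hmem
        obtain ⟨k, hk, z, hz, hkz⟩ := (hΓ₀mem _).1 hmem
        have h3 : (c : Γ)⁻¹ * k = x ^ i * z⁻¹ := by
          rw [inv_mul_eq_iff_eq_mul, ← mul_assoc, ← hkz, mul_inv_cancel_right]
        obtain ⟨m, hm⟩ := Subgroup.mem_zpowers_iff.1 hz
        have hzx : z ∈ Subgroup.zpowers x := by
          rw [← hm, ← zpow_natCast, ← zpow_mul]
          exact Subgroup.zpow_mem_zpowers _ _
        have h4 : (c : Γ)⁻¹ * k = 1 := by
          apply hKP
          · exact K.mul_mem (K.inv_mem ((hC _).1 c.2).1) hk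
          · rw [h3]
            exact Subgroup.mul_mem _ (Subgroup.pow_mem _ (Subgroup.mem_zpowers x) _)
              (Subgroup.inv_mem _ hzx)
        have h5 : x ^ i = z := by
          rw [h4] at h3
          exact mul_inv_eq_one.1 h3.symm
        have h6 : x ^ (i : ℤ) = x ^ ((p : ℤ) * m) := by
          rw [zpow_natCast, h5, ← hm, zpow_mul, zpow_natCast]
        have h7 := zpow_eq_zpow_iff_modEq.1 h6
        rw [hx] at h7
        have h9 : (p : ℤ) ∣ (q : ℤ) := by exact_mod_cast hpq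
        have h11 : (p : ℤ) ∣ (p : ℤ) * m - i := h9.trans (Int.ModEq.dvd h7)
        have h12 : (p : ℤ) ∣ (p : ℤ) * m := dvd_mul_right _ _
        have h8 : (p : ℤ) ∣ (i : ℤ) := by
          have := dvd_sub h12 h11
          simpa using this
        exact ht'.2 (by exact_mod_cast h8)
    · intro g _ _
      positivity
  -- combine
  have hΓpos : (0 : ℝ) < Nat.card Γ := by exact_mod_cast Nat.card_pos
  have hN0 : (0 : ℝ) ≤ Nat.card (Subgroup.centralizer ({x} : Set Γ)) := Nat.cast_nonneg _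
  have hp1' : (1 : ℝ) ≤ p := by exact_mod_cast hp1.le
  have e1 := (mul_le_mul_of_nonneg_left hinj hΓpos.le).trans hdc
  have e2 := mul_le_mul_of_nonneg_left hWsum hN0
  have e3 : (p : ℝ) * ((Nat.card Γ : ℝ) - Nat.card Γ₀) ≤ ((p : ℝ) - 1) * Nat.card Γ := by
    linarith
  have e4 : (Nat.card Γ : ℝ) * ((p : ℝ) * ∑ c : C,
        ∑ i ∈ (Finset.range q).filter (fun i => ¬ p ∣ i), ‖χ ((c : Γ) * x ^ i)‖ ^ 2)
      ≤ (Nat.card Γ : ℝ) * ((Nat.card C : ℝ) * (q : ℝ) * ((p : ℝ) - 1)) := by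
    calc (Nat.card Γ : ℝ) * ((p : ℝ) * ∑ c : C,
          ∑ i ∈ (Finset.range q).filter (fun i => ¬ p ∣ i), ‖χ ((c : Γ) * x ^ i)‖ ^ 2)
        = (p : ℝ) * ((Nat.card Γ : ℝ) * ∑ c : C,
          ∑ i ∈ (Finset.range q).filter (fun i => ¬ p ∣ i), ‖χ ((c : Γ) * x ^ i)‖ ^ 2) := by
          ring
      _ ≤ (p : ℝ) * ((Nat.card (Subgroup.centralizer ({x} : Set Γ)) : ℝ)
            * ((Nat.card Γ : ℝ) - Nat.card Γ₀)) :=
          mul_le_mul_of_nonneg_left (e1.trans e2) (by linarith)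
      _ = (Nat.card (Subgroup.centralizer ({x} : Set Γ)) : ℝ)
            * ((p : ℝ) * ((Nat.card Γ : ℝ) - Nat.card Γ₀)) := by ring
      _ ≤ (Nat.card (Subgroup.centralizer ({x} : Set Γ)) : ℝ)
            * (((p : ℝ) - 1) * Nat.card Γ) := mul_le_mul_of_nonneg_left e3 hN0
      _ ≤ ((Nat.card C : ℝ) * (q : ℝ)) * (((p : ℝ) - 1) * Nat.card Γ) :=
          mul_le_mul_of_nonneg_right hNcard (mul_nonneg (by linarith) hΓpos.le)
      _ = (Nat.card Γ : ℝ) * ((Nat.card C : ℝ) * (q : ℝ) * ((p : ℝ) - 1)) := by ring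
  exact le_of_mul_le_mul_left e4 hΓpos

end Cfsg.Agent.Helper21
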