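import Mathlib
import Cfsg.Agent.Helper21.HHCount

/-!
A Hall–Higman type lemma: if `Γ = K⟨x⟩` with `K` a normal `p'`-subgroup, `x` a `p`-element with
`x ^ p` centralizing `K`, then `x` acts as a scalar in every irreducible representation of degree
less than `p - 1`.
-/

set_option autoImplicit false

namespace Cfsg.Agent.Helper21

open Cfsg
open scoped ComplexConjugate

theorem hh_central {Γ : Type*} [Group Γ] (K : Subgroup Γ) (x : Γ) (p : ℕ)
    (hxp : ∀ k ∈ K, x ^ p * k = k * x ^ p)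
    (hgen : ∀ g : Γ, ∃ k ∈ K, ∃ i : ℕ, g = k * x ^ i) : x ^ p ∈ Subgroup.center Γ := by
  rw [Subgroup.mem_center_iff]
  intro g
  obtain ⟨k, hk, i, rfl⟩ := hgen g
  calc k * x ^ i * x ^ p = k * (x ^ p * x ^ i) := by
        rw [mul_assoc, ← pow_add, ← pow_add, add_comm]
    _ = (k * x ^ p) * x ^ i := by rw [mul_assoc]
    _ = x ^ p * (k * x ^ i) := by rw [← hxp k hk, mul_assoc]

theorem hh_irr {Γ : Type*} [Group Γ] [Fintype Γ] (p : ℕ) [hp : Fact p.Prime] (K : Subgroup Γ)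
    [hKn : K.Normal] (hK : (Nat.card K).Coprime p) (x : Γ) (a : ℕ)
    (hx : orderOf x = p ^ (a + 1))
    (hxp : ∀ k ∈ K, x ^ p * k = k * x ^ p)
    (hgen : ∀ g : Γ, ∃ k ∈ K, ∃ i : ℕ, g = k * x ^ i)
    {χ : Γ → ℂ} (hχ : IsIrrCharacter Γ χ) (hdeg : charDegree χ + 1 < p) :
    ‖χ x‖ = (charDegree χ : ℝ) := by
  classical
  have hχc := Helper24.isCharacter_of_irr hχ
  have hd := Helper24.charDegree_spec hχc
  have hdpos := Helper24.irr_degree_pos hχ
  obtain ⟨n, ρ, hρ, hρχ⟩ := id hχ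
  have hn : charDegree χ = n := by
    have h1 : χ 1 = (n : ℂ) := by
      rw [← hρχ, Representation.char_one]
      simp
    rw [hd] at h1
    exact_mod_cast h1
  rw [hn] at hdeg hdpos ⊢
  obtain ⟨q, hqdef⟩ : ∃ q : ℕ, q = p ^ (a + 1) := ⟨_, rfl⟩
  have hp1 : 1 < p := hp.out.one_lt
  have hq0 : 0 < q := by
    rw [hqdef]
    positivity
  have hpq : q = p * p ^ a := by rw [hqdef, pow_succ, mul_comm]
  have hxq : x ^ q = 1 := by
    rw [hqdef, ← hx]
    exact pow_orderOf_eq_one x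
  have hcen := hh_central K x p hxp hgen
  obtain ⟨C, hCdef⟩ : ∃ C : Subgroup Γ, C = K ⊓ Subgroup.centralizer ({x} : Set Γ) := ⟨_, rfl⟩
  have hC : ∀ c, c ∈ C ↔ c ∈ K ∧ c * x = x * c := by
    intro c
    rw [hCdef, Subgroup.mem_inf, Subgroup.mem_centralizer_iff]
    simp [eq_comm]
  obtain ⟨ζ, hζdef⟩ : ∃ ζ : ℂ, ζ = Complex.exp (2 * Real.pi * Complex.I / q) := ⟨_, rfl⟩
  have hζ : IsPrimitiveRoot ζ q := by
    rw [hζdef]
    exact Complex.isPrimitiveRoot_exp q hq0.ne'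
  have hζnorm : ‖ζ‖ = 1 := hζ.norm'_eq_one hq0.ne'
  obtain ⟨r, φ, h1, h2, h3, h4, h5⟩ :=
    hh_spec ρ x q hq0 hxq ζ hζ C (fun c hc => ((hC c).1 hc).2)
  rw [hρχ] at h1
  obtain ⟨NZ, hNZ⟩ : ∃ NZ : Finset ℕ, NZ = (Finset.range q).filter (fun j => r j ≠ 0) :=
    ⟨_, rfl⟩
  have hrNZ : ∑ j ∈ NZ, r j = n := by
    rw [← h3, hNZ, Finset.sum_filter]
    refine Finset.sum_congr rfl fun j _ => ?_
    by_cases h : r j = 0 <;> simp [h]
  have hz_le : NZ.card ≤ n := by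
    calc NZ.card = ∑ _j ∈ NZ, 1 := by simp
      _ ≤ ∑ j ∈ NZ, r j := Finset.sum_le_sum (fun j hj => by
          rw [hNZ] at hj
          exact Nat.one_le_iff_ne_zero.2 (Finset.mem_filter.1 hj).2)
      _ = n := hrNZ
  have hz_pos : 1 ≤ NZ.card := by
    rw [Nat.one_le_iff_ne_zero, Finset.card_ne_zero]
    by_contra hne
    rw [Finset.not_nonempty_iff_eq_empty] at hne
    rw [hne, Finset.sum_empty] at hrNZ
    omega
  have hφsum : ∀ g, χ g = ∑ j ∈ NZ, φ j g := by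
    intro g
    have := h1 g 0
    simp only [pow_zero, mul_one, one_mul] at this
    rw [this, hNZ, Finset.sum_filter]
    refine Finset.sum_congr rfl fun j _ => ?_
    by_cases h : r j = 0
    · simp [h, h4 j h g]
    · simp [h]
  have hpars : ∀ g, ∑ i ∈ Finset.range q, ‖χ (g * x ^ i)‖ ^ 2
      = (q : ℝ) * ∑ j ∈ NZ, ‖φ j g‖ ^ 2 := by
    intro g
    have e1 : ∀ i ∈ Finset.range q, ‖χ (g * x ^ i)‖ ^ 2
        = ‖∑ j ∈ Finset.range q, (ζ ^ j) ^ i * φ j g‖ ^ 2 := by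
      intro i _
      rw [h1 g i]
    rw [Finset.sum_congr rfl e1, hh_parseval q hq0 ζ hζ (fun j => φ j g)]
    congr 1
    rw [hNZ, Finset.sum_filter]
    refine Finset.sum_congr rfl fun j _ => ?_
    by_cases h : r j = 0
    · simp [h, h4 j h g]
    · simp [h]
  have hdiv : ∀ g, ∑ i ∈ (Finset.range q).filter (fun i => p ∣ i), ‖χ (g * x ^ i)‖ ^ 2
      = ((p ^ a : ℕ) : ℝ) * ‖χ g‖ ^ 2 := by
    intro g
    have himg : (Finset.range q).filter (fun i => p ∣ i)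
        = (Finset.range (p ^ a)).image (fun t => p * t) := by
      ext i
      simp only [Finset.mem_filter, Finset.mem_range, Finset.mem_image]
      constructor
      · rintro ⟨hi, ⟨t, rfl⟩⟩
        refine ⟨t, ?_, rfl⟩
        rw [hpq] at hi
        exact lt_of_mul_lt_mul_left hi (Nat.zero_le p)
      · rintro ⟨t, ht, rfl⟩
        refine ⟨?_, dvd_mul_right p t⟩
        rw [hpq]
        exact Nat.mul_lt_mul_of_pos_left ht (by omega)
    rw [himg, Finset.sum_image (by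
      intro a _ b _ hab
      exact Nat.eq_of_mul_eq_mul_left (by omega : 0 < p) hab)]
    have hterm : ∀ t ∈ Finset.range (p ^ a), ‖χ (g * x ^ (p * t))‖ ^ 2 = ‖χ g‖ ^ 2 := by
      intro t _
      have hz : (x ^ p) ^ t ∈ Subgroup.center Γ := Subgroup.pow_mem _ hcen t
      obtain ⟨c, hc1, hc2⟩ := ft_central hχ _ hz
      have hcomm := Subgroup.mem_center_iff.1 hz g
      rw [pow_mul, hcomm, hc2, norm_mul, hc1, one_mul]
    rw [Finset.sum_congr rfl hterm, Finset.sum_const, Finset.card_range, nsmul_eq_mul]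
  have hpt : ∀ g, (q : ℝ) * ((p : ℝ) - NZ.card) * ∑ j ∈ NZ, ‖φ j g‖ ^ 2
      ≤ (p : ℝ) * ∑ i ∈ (Finset.range q).filter (fun i => ¬ p ∣ i), ‖χ (g * x ^ i)‖ ^ 2 := by
    intro g
    have hsplit := Finset.sum_filter_add_sum_filter_not (Finset.range q) (fun i => p ∣ i)
      (fun i => ‖χ (g * x ^ i)‖ ^ 2)
    rw [hdiv g, hpars g] at hsplit
    have hcs : ‖χ g‖ ^ 2 ≤ NZ.card * ∑ j ∈ NZ, ‖φ j g‖ ^ 2 := by
      rw [hφsum g]
      calc ‖∑ j ∈ NZ, φ j g‖ ^ 2 ≤ (∑ j ∈ NZ, ‖φ j g‖) ^ 2 := by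
            gcongr
            exact norm_sum_le _ _
        _ ≤ NZ.card * ∑ j ∈ NZ, ‖φ j g‖ ^ 2 := sq_sum_le_card_mul_sum_sq
    have hq' : (q : ℝ) = p * ((p ^ a : ℕ) : ℝ) := by
      rw [hpq]
      push_cast
      ring
    have hT : ∑ i ∈ (Finset.range q).filter (fun i => ¬ p ∣ i), ‖χ (g * x ^ i)‖ ^ 2
        = (q : ℝ) * ∑ j ∈ NZ, ‖φ j g‖ ^ 2 - ((p ^ a : ℕ) : ℝ) * ‖χ g‖ ^ 2 := by linarith
    calc (q : ℝ) * ((p : ℝ) - NZ.card) * ∑ j ∈ NZ, ‖φ j g‖ ^ 2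
        = (q : ℝ) * ((p : ℝ) * ∑ j ∈ NZ, ‖φ j g‖ ^ 2 - NZ.card * ∑ j ∈ NZ, ‖φ j g‖ ^ 2) := by
          ring
      _ ≤ (q : ℝ) * ((p : ℝ) * ∑ j ∈ NZ, ‖φ j g‖ ^ 2 - ‖χ g‖ ^ 2) :=
          mul_le_mul_of_nonneg_left (by linarith) (Nat.cast_nonneg q)
      _ = (p : ℝ) * ∑ i ∈ (Finset.range q).filter (fun i => ¬ p ∣ i), ‖χ (g * x ^ i)‖ ^ 2 := by
          rw [hT, hq']
          ring
  have hnormj : ∀ j ∈ NZ, (Nat.card C : ℝ) ≤ ∑ c : C, ‖φ j c‖ ^ 2 := by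
    intro j hj
    rw [hNZ] at hj
    have hrj : r j ≠ 0 := (Finset.mem_filter.1 hj).2
    obtain ⟨hle, hchar⟩ := h5 j
    have hex : ∃ c : C, (fun c : C => φ j c + ((n - r j : ℕ) : ℂ)) c - ((n - r j : ℕ) : ℂ) ≠ 0 := by
      refine ⟨1, ?_⟩
      simp only [add_sub_cancel_right]
      rw [Subgroup.coe_one, h2 j]
      exact_mod_cast hrj
    have := ft_norm_ge hchar (n - r j) hex
    simpa using this
  have hpz : (0 : ℝ) ≤ (p : ℝ) - NZ.card := by
    have : (NZ.card : ℝ) ≤ p := by exact_mod_cast (by omega : NZ.card ≤ p)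
    linarith
  have hlow : (q : ℝ) * ((p : ℝ) - NZ.card) * (NZ.card * Nat.card C)
      ≤ (p : ℝ) * ∑ c : C, ∑ i ∈ (Finset.range q).filter (fun i => ¬ p ∣ i),
          ‖χ ((c : Γ) * x ^ i)‖ ^ 2 := by
    calc (q : ℝ) * ((p : ℝ) - NZ.card) * (NZ.card * Nat.card C)
        = (q : ℝ) * ((p : ℝ) - NZ.card) * ∑ _j ∈ NZ, (Nat.card C : ℝ) := by
          rw [Finset.sum_const, nsmul_eq_mul]
      _ ≤ (q : ℝ) * ((p : ℝ) - NZ.card) * ∑ j ∈ NZ, ∑ c : C, ‖φ j c‖ ^ 2 :=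
          mul_le_mul_of_nonneg_left (Finset.sum_le_sum hnormj)
            (mul_nonneg (Nat.cast_nonneg q) hpz)
      _ = ∑ c : C, (q : ℝ) * ((p : ℝ) - NZ.card) * ∑ j ∈ NZ, ‖φ j c‖ ^ 2 := by
          rw [Finset.sum_comm, ← Finset.mul_sum]
      _ ≤ ∑ c : C, (p : ℝ) * ∑ i ∈ (Finset.range q).filter (fun i => ¬ p ∣ i),
            ‖χ ((c : Γ) * x ^ i)‖ ^ 2 := Finset.sum_le_sum (fun c _ => hpt c)
      _ = (p : ℝ) * ∑ c : C, ∑ i ∈ (Finset.range q).filter (fun i => ¬ p ∣ i),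
            ‖χ ((c : Γ) * x ^ i)‖ ^ 2 := by rw [← Finset.mul_sum]
  have hup := hh_bound p K hK x a hx hxp hgen C hC hχ
  rw [← hqdef] at hup
  have hCpos : (0 : ℝ) < Nat.card C := by exact_mod_cast Nat.card_pos
  have hqpos : (0 : ℝ) < q := by exact_mod_cast hq0
  have hineq : ((p : ℝ) - NZ.card) * NZ.card ≤ (p : ℝ) - 1 := by
    have h := hlow.trans hup
    have h' : ((q : ℝ) * Nat.card C) * (((p : ℝ) - NZ.card) * NZ.card)
        ≤ ((q : ℝ) * Nat.card C) * ((p : ℝ) - 1) := by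
      calc ((q : ℝ) * Nat.card C) * (((p : ℝ) - NZ.card) * NZ.card)
          = (q : ℝ) * ((p : ℝ) - NZ.card) * (NZ.card * Nat.card C) := by ring
        _ ≤ (Nat.card C : ℝ) * (q : ℝ) * ((p : ℝ) - 1) := h
        _ = ((q : ℝ) * Nat.card C) * ((p : ℝ) - 1) := by ring
    exact le_of_mul_le_mul_left h' (by positivity)
  have hz1 : NZ.card = 1 := by
    by_contra hne
    have h2le : 2 ≤ NZ.card := by omega
    have hzn : NZ.card + 2 ≤ p := by omega
    have ha : (2 : ℝ) ≤ NZ.card := by exact_mod_cast h2le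
    have hb : (NZ.card : ℝ) + 2 ≤ p := by exact_mod_cast hzn
    nlinarith [mul_nonneg (sub_nonneg.2 ha) (sub_nonneg.2 hb)]
  obtain ⟨j₀, hj₀⟩ := Finset.card_eq_one.1 hz1
  have hrj₀ : r j₀ = n := by
    rw [hj₀, Finset.sum_singleton] at hrNZ
    exact hrNZ
  have hj₀mem : j₀ ∈ Finset.range q := by
    have : j₀ ∈ NZ := by
      rw [hj₀]
      exact Finset.mem_singleton_self _
    rw [hNZ] at this
    exact (Finset.mem_filter.1 this).1
  have hχx : χ x = ζ ^ j₀ * (n : ℂ) := by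
    have e := h1 1 1
    rw [one_mul, pow_one] at e
    rw [e]
    have hterm : ∀ j ∈ Finset.range q, (ζ ^ j) ^ 1 * φ j 1
        = if j = j₀ then ζ ^ j₀ * (n : ℂ) else 0 := by
      intro j hj
      by_cases h : j = j₀
      · subst h
        rw [if_pos rfl, pow_one, h2, hrj₀]
      · rw [if_neg h]
        have hr0 : r j = 0 := by
          by_contra hr
          have : j ∈ NZ := by
            rw [hNZ]
            exact Finset.mem_filter.2 ⟨hj, hr⟩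
          rw [hj₀, Finset.mem_singleton] at this
          exact h this
        rw [h2, hr0]
        simp
    rw [Finset.sum_congr rfl hterm, Finset.sum_ite_eq', if_pos hj₀mem]
  rw [hχx, norm_mul, norm_pow, hζnorm, one_pow, one_mul]
  simp

end Cfsg.Agent.Helper21
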