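import Mathlib
import Cfsg.Agent.Helper21.HHIrr
import Cfsg.Agent.Helper2.CharBound
import Cfsg.Agent.Helper2.CharDecomp

/-!
Ambient form of the Hall–Higman type lemma: a `p`-element `x` with `x ^ p` centralizing a normal
`p'`-subgroup `K` centralizes `K` modulo the kernel of any representation of degree `< p - 1`.
-/

set_option autoImplicit false

namespace Cfsg.Agent.Helper21

open Cfsg
open scoped Pointwise

/-- `ρ g = 1` as soon as the character takes the value `n` at `g`. -/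
theorem hh_one_of_char {G : Type*} [Group G] [Finite G] {n : ℕ}
    (ρ : Representation ℂ G (Fin n → ℂ)) (g : G) (h : ρ.character g = (n : ℂ)) : ρ g = 1 := by
  have hfin : Module.finrank ℂ (Fin n → ℂ) = n := by simp
  rcases Nat.eq_zero_or_pos n with h0 | hpos
  · subst h0
    exact LinearMap.ext fun v => Subsingleton.elim _ _
  · obtain ⟨ω, hω, hω2⟩ := Helper2.character_scalar_of_norm_eq ρ g (by
      rw [h, hfin]
      simp)
    rw [hfin, h] at hω2
    have h1 : ω = 1 := by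
      have hn0 : (n : ℂ) ≠ 0 := by exact_mod_cast hpos.ne'
      exact mul_left_cancel₀ hn0 (by rw [hω2, mul_one])
    rw [hω, h1, one_smul]

theorem hh_comm_of_norm {Γ : Type*} [Group Γ] [Finite Γ] {φ : Γ → ℂ}
    (hφ : IsIrrCharacter Γ φ) (x : Γ) (h : ‖φ x‖ = (charDegree φ : ℝ)) (k : Γ) :
    φ (x * k * x⁻¹ * k⁻¹) = φ 1 := by
  have hd := Helper24.charDegree_spec (Helper24.isCharacter_of_irr hφ)
  obtain ⟨d, σ, hσ, rfl⟩ := hφ
  have hfin : Module.finrank ℂ (Fin d → ℂ) = d := by simp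
  have hdd : charDegree σ.character = d := by
    have h1 : σ.character 1 = (d : ℂ) := by rw [Representation.char_one, hfin]
    rw [hd] at h1
    exact_mod_cast h1
  obtain ⟨ω, hω, -⟩ := Helper2.character_scalar_of_norm_eq σ x (by rw [h, hdd, hfin])
  have hc : σ x * σ k = σ k * σ x := by
    rw [hω, smul_mul_assoc, one_mul, mul_smul_comm, mul_one]
  have h1 : σ (x * k * x⁻¹ * k⁻¹) = σ 1 := by
    rw [map_mul, map_mul, map_mul, hc, ← map_mul, ← map_mul, ← map_mul]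
    congr 1
    group
  show LinearMap.trace ℂ _ (σ (x * k * x⁻¹ * k⁻¹)) = LinearMap.trace ℂ _ (σ 1)
  rw [h1]

theorem hh_list_deg {Γ : Type*} [Group Γ] (l : List (Γ → ℂ))
    (hl : ∀ φ ∈ l, IsIrrCharacter Γ φ) :
    ∃ m : ℕ, l.sum 1 = (m : ℂ) ∧ ∀ φ ∈ l, charDegree φ ≤ m := by
  induction l with
  | nil => exact ⟨0, by simp, by simp⟩
  | cons φ t ih =>
    obtain ⟨m, hm, hle⟩ := ih (fun ψ hψ => hl ψ (List.mem_cons_of_mem _ hψ))
    have hd := Helper24.charDegree_spec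
      (Helper24.isCharacter_of_irr (hl φ (List.mem_cons_self ..)))
    refine ⟨charDegree φ + m, ?_, ?_⟩
    · rw [List.sum_cons, Pi.add_apply, hm, hd]
      push_cast
      rfl
    · intro ψ hψ
      rcases List.mem_cons.1 hψ with rfl | h
      · omega
      · have := hle ψ h
        omega

theorem hh_list_eval {Γ : Type*} (l : List (Γ → ℂ)) (g h : Γ) (hl : ∀ φ ∈ l, φ g = φ h) :
    l.sum g = l.sum h := by
  induction l with
  | nil => simp
  | cons φ t ih =>
    rw [List.sum_cons, Pi.add_apply, Pi.add_apply, hl φ (List.mem_cons_self ..),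
      ih (fun ψ hψ => hl ψ (List.mem_cons_of_mem _ hψ))]

theorem hh_ambient {G : Type*} [Group G] [Finite G] (p : ℕ) [hp : Fact p.Prime] {n : ℕ}
    (ρ : Representation ℂ G (Fin n → ℂ)) (hn : n + 1 < p) (K : Subgroup G) [hKn : K.Normal]
    (hK : (Nat.card K).Coprime p) (x : G) (a : ℕ) (hx : orderOf x = p ^ (a + 1))
    (hxp : ∀ k ∈ K, x ^ p * k = k * x ^ p) :
    ∀ k ∈ K, ρ (x * k * x⁻¹ * k⁻¹) = 1 := by
  classical
  intro k hk
  obtain ⟨Γ, hΓ⟩ : ∃ Γ : Subgroup G, Γ = K ⊔ Subgroup.zpowers x := ⟨_, rfl⟩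
  have hKΓ : K ≤ Γ := by
    rw [hΓ]
    exact le_sup_left
  have hxΓ : x ∈ Γ := by
    rw [hΓ]
    exact (le_sup_right : Subgroup.zpowers x ≤ _) (Subgroup.mem_zpowers x)
  haveI : Fintype Γ := Fintype.ofFinite Γ
  obtain ⟨K', hK'def⟩ : ∃ K' : Subgroup Γ, K' = K.subgroupOf Γ := ⟨_, rfl⟩
  have hK'mem : ∀ y : Γ, y ∈ K' ↔ (y : G) ∈ K := by
    intro y
    rw [hK'def]
    exact Subgroup.mem_subgroupOf
  haveI hK'n : K'.Normal := by
    rw [hK'def]
    infer_instance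
  obtain ⟨x', hx'def⟩ : ∃ x' : Γ, (x' : G) = x := ⟨⟨x, hxΓ⟩, rfl⟩
  have hK' : (Nat.card K').Coprime p := by
    have : Nat.card K' = Nat.card K := by
      rw [hK'def]
      exact Nat.card_congr (Subgroup.subgroupOfEquivOfLe hKΓ).toEquiv
    rw [this]
    exact hK
  have hx' : orderOf x' = p ^ (a + 1) := by
    rw [← Subgroup.orderOf_coe, hx'def]
    exact hx
  have hxp' : ∀ k' ∈ K', x' ^ p * k' = k' * x' ^ p := by
    intro k' hk'
    apply Subtype.ext
    simp only [Subgroup.coe_mul, Subgroup.coe_pow, hx'def]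
    exact hxp _ ((hK'mem k').1 hk')
  have hgen' : ∀ g : Γ, ∃ k' ∈ K', ∃ i : ℕ, g = k' * x' ^ i := by
    rintro ⟨g, hg⟩
    have hg' : g ∈ (K : Set G) * (Subgroup.zpowers x : Set G) := by
      rw [← Subgroup.normal_mul, ← hΓ]
      exact hg
    obtain ⟨k₁, hk₁, z, hz, rfl⟩ := Set.mem_mul.1 hg'
    obtain ⟨i, rfl⟩ := mem_powers_iff_mem_zpowers.2 hz
    refine ⟨⟨k₁, hKΓ hk₁⟩, (hK'mem _).2 hk₁, i, Subtype.ext ?_⟩
    simp only [Subgroup.coe_mul, Subgroup.coe_pow, hx'def]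
  have hψ : IsCharacter Γ (fun g : Γ => ρ.character g) :=
    Helper24.isCharacter_restrict Γ ⟨n, ρ, rfl⟩
  obtain ⟨l, hl, hsum⟩ := Helper2.IsCharacter.exists_list hψ
  obtain ⟨m, hm, hle⟩ := hh_list_deg l hl
  have hone : ρ.character ((1 : Γ) : G) = (n : ℂ) := by
    rw [Subgroup.coe_one, Representation.char_one]
    simp
  have hmn : m = n := by
    have h1 : (fun g : Γ => ρ.character g) 1 = (n : ℂ) := hone
    rw [hsum, hm] at h1
    exact_mod_cast h1
  obtain ⟨k', hk'def⟩ : ∃ k' : Γ, (k' : G) = k := ⟨⟨k, hKΓ hk⟩, rfl⟩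
  have hall : ∀ φ ∈ l, φ (x' * k' * x'⁻¹ * k'⁻¹) = φ 1 := by
    intro φ hφ
    have hdeg : charDegree φ + 1 < p := by
      have := hle φ hφ
      omega
    have hnorm := hh_irr p K' hK' x' a hx' hxp' hgen' (hl φ hφ) hdeg
    exact hh_comm_of_norm (hl φ hφ) x' hnorm k'
  have heval := hh_list_eval l (x' * k' * x'⁻¹ * k'⁻¹) 1 hall
  rw [← hsum] at heval
  have h2 : ρ.character (x * k * x⁻¹ * k⁻¹) = (n : ℂ) := by
    have e1 : ((x' * k' * x'⁻¹ * k'⁻¹ : Γ) : G) = x * k * x⁻¹ * k⁻¹ := by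
      simp only [Subgroup.coe_mul, Subgroup.coe_inv, hx'def, hk'def]
    have h3 : ρ.character ((x' * k' * x'⁻¹ * k'⁻¹ : Γ) : G) = ρ.character ((1 : Γ) : G) := heval
    rw [e1, hone] at h3
    exact h3
  exact hh_one_of_char ρ _ h2

end Cfsg.Agent.Helper21
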