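import Mathlib
import Cfsg.Agent.Helper21.HHCount

/-!
A counting bound for a cyclic group acting on a normal subgroup of coprime order with all
non-identity elements having the same fixed points (used for S4451).
-/

set_option autoImplicit false

namespace Cfsg.Agent.Helper21

open Cfsg
open scoped ComplexConjugate

/-- TI counting bound: `Σ_{c ∈ C} Σ_{0 < i < N} |χ(c xⁱ)|² ≤ |C| (N - 1)`. -/
theorem ti_bound {Γ : Type*} [Group Γ] [Fintype Γ] (G : Subgroup Γ) [hGn : G.Normal]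
    (x : Γ) (N : ℕ) (hx : orderOf x = N) (hN : 0 < N) (hcop : (Nat.card G).Coprime N)
    (hgen : ∀ g : Γ, ∃ k ∈ G, ∃ i : ℕ, g = k * x ^ i)
    (C : Subgroup Γ) [Fintype C] (hC : ∀ c, c ∈ C ↔ c ∈ G ∧ c * x = x * c)
    (hfpf : ∀ i : ℕ, ¬ N ∣ i → ∀ k ∈ G, x ^ i * k = k * x ^ i → x * k = k * x)
    {χ : Γ → ℂ} (hχ : IsIrrCharacter Γ χ) :
    ∑ c : C, ∑ i ∈ (Finset.range N).filter (fun i => i ≠ 0), ‖χ ((c : Γ) * x ^ i)‖ ^ 2
      ≤ (Nat.card C : ℝ) * ((N : ℝ) - 1) := by
  classical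
  rcases Nat.lt_or_ge 1 N with hN1 | hN1
  swap
  · have hN1' : N = 1 := by omega
    subst hN1'
    have he : (Finset.range 1).filter (fun i => i ≠ 0) = ∅ := by
      ext i
      simp
    simp [he]
  have hχc := Helper24.isCharacter_of_irr hχ
  have hKP : ∀ y ∈ G, y ∈ Subgroup.zpowers x → y = 1 := by
    intro y hyK hyx
    have h1 : orderOf y ∣ Nat.card G := by
      have := orderOf_dvd_natCard (⟨y, hyK⟩ : G)
      rwa [Subgroup.orderOf_mk] at this
    have h2 : orderOf y ∣ N := by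
      have := orderOf_dvd_of_mem_zpowers hyx
      rwa [hx] at this
    exact orderOf_eq_one_iff.1 (Nat.eq_one_of_dvd_coprimes hcop h1 h2)
  have hNmem : ∀ g, g ∈ Subgroup.centralizer ({x} : Set Γ) ↔ x * g = g * x := by
    intro g
    rw [Subgroup.mem_centralizer_iff]
    simp
  have hGc : ∀ g u : Γ, (u⁻¹ * g * u ∉ G) ↔ (g ∉ G) := by
    intro g u
    have h1 : u⁻¹ * g * u ∈ G ↔ g ∈ G := by
      constructor
      · intro h
        have := hGn.conj_mem _ h u
        simpa [mul_assoc] using this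
      · intro h
        have := hGn.conj_mem _ h u⁻¹
        simpa [mul_assoc] using this
    exact not_congr h1
  have hidx : (Nat.card Γ : ℝ) ≤ N * Nat.card G := by
    have hsurj : Function.Surjective (fun t : Fin N × G => (t.2 : Γ) * x ^ (t.1 : ℕ)) := by
      intro g
      obtain ⟨k, hk, m, rfl⟩ := hgen g
      refine ⟨(⟨m % N, Nat.mod_lt _ hN⟩, ⟨k, hk⟩), ?_⟩
      show k * x ^ (m % N) = k * x ^ m
      rw [← hx, pow_mod_orderOf]
    have := Fintype.card_le_of_surjective _ hsurj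
    rw [Fintype.card_prod, Fintype.card_fin] at this
    rw [Nat.card_eq_fintype_card, Nat.card_eq_fintype_card]
    exact_mod_cast this
  have hGsum : (Nat.card G : ℝ) ≤ ∑ g : Γ, (if g ∈ G then ‖χ g‖ ^ 2 else 0) := by
    rw [ft_sum_conv G (fun g => g ∈ G) (fun g h => h) (fun g => ‖χ g‖ ^ 2)
      (by intro g hg hn; exact absurd hg hn)]
    have hτ := Helper24.isCharacter_restrict G hχc
    have hex : ∃ g : G, (fun h : G => χ h) g - ((0 : ℕ) : ℂ) ≠ 0 :=
      ⟨1, by simpa using Helper25.irr_one_ne_zero hχ⟩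
    have := ft_norm_ge hτ 0 hex
    simpa using this
  have hWsum : ∑ g : Γ, (if g ∉ G then ‖χ g‖ ^ 2 else 0)
      ≤ (Nat.card Γ : ℝ) - Nat.card G := by
    have h1 : ∑ g : Γ, (if g ∉ G then ‖χ g‖ ^ 2 else 0)
        + ∑ g : Γ, (if g ∈ G then ‖χ g‖ ^ 2 else 0) = (Nat.card Γ : ℝ) := by
      rw [← Finset.sum_add_distrib, ← Helper24.irr_norm_sum hχ]
      refine Finset.sum_congr rfl fun g _ => ?_
      by_cases h : g ∈ G <;> simp [h]
    linarith
  have hNstr : ∀ s, x * s = s * x → ∃ c ∈ C, ∃ i, i < N ∧ s = c * x ^ i := by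
    intro s hs
    obtain ⟨k, hk, m, rfl⟩ := hgen s
    refine ⟨k, (hC k).2 ⟨hk, ?_⟩, m % N, Nat.mod_lt _ hN, ?_⟩
    · have h1 : x * k * x ^ m = k * x * x ^ m := by
        calc x * k * x ^ m = x * (k * x ^ m) := mul_assoc _ _ _
          _ = k * x ^ m * x := hs
          _ = k * (x ^ m * x) := mul_assoc _ _ _
          _ = k * (x * x ^ m) := by rw [← pow_succ, ← pow_succ']
          _ = k * x * x ^ m := (mul_assoc _ _ _).symm
      exact (mul_right_cancel h1).symm
    · rw [← hx, pow_mod_orderOf]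
  have hNcard : (Nat.card (Subgroup.centralizer ({x} : Set Γ)) : ℝ) ≤ Nat.card C * N := by
    have hmemN : ∀ t : C × Fin N,
        (t.1 : Γ) * x ^ (t.2 : ℕ) ∈ Subgroup.centralizer ({x} : Set Γ) := by
      intro t
      rw [hNmem]
      have h1 := ((hC t.1).1 t.1.2).2
      exact ((show Commute x (t.1 : Γ) from h1.symm).mul_right
        ((Commute.refl x).pow_right _)).eq
    have hsurj : Function.Surjective (fun t : C × Fin N =>
        (⟨(t.1 : Γ) * x ^ (t.2 : ℕ), hmemN t⟩ : Subgroup.centralizer ({x} : Set Γ))) := by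
      rintro ⟨s, hs⟩
      obtain ⟨c, hc, i, hi, rfl⟩ := hNstr s ((hNmem s).1 hs)
      exact ⟨(⟨c, hc⟩, ⟨i, hi⟩), rfl⟩
    have := Fintype.card_le_of_surjective _ hsurj
    rw [Fintype.card_prod, Fintype.card_fin] at this
    rw [Nat.card_eq_fintype_card, Nat.card_eq_fintype_card]
    exact_mod_cast this
  obtain ⟨t, -, ht⟩ := Nat.exists_mul_mod_eq_one_of_coprime hcop hN1
  have hKM : ∀ y ∈ G, y ^ (Nat.card G * t) = 1 := by
    intro y hy
    rw [pow_mul]
    have h : (⟨y, hy⟩ : G) ^ Nat.card G = 1 := pow_card_eq_one'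
    have h' : y ^ Nat.card G = 1 := by
      have := congrArg Subtype.val h
      rwa [Subgroup.coe_pow, Subgroup.coe_one] at this
    rw [h', one_pow]
  have hxM : x ^ (Nat.card G * t) = x := by
    rw [← pow_mod_orderOf, hx, ht, pow_one]
  have hkey : ∀ s, x * s = s * x → s ∉ G → ∀ u : Γ,
      x * (u⁻¹ * s * u) = (u⁻¹ * s * u) * x → x * u = u * x := by
    intro s hs hsG u hu
    obtain ⟨c, hc, i, hi, rfl⟩ := hNstr s hs
    have hcK := ((hC c).1 hc).1
    have hcx := ((hC c).1 hc).2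
    have hpi : ¬ N ∣ i := by
      intro hdvd
      apply hsG
      have h0 : x ^ i = 1 := by
        rw [← hx] at hdvd
        exact orderOf_dvd_iff_pow_eq_one.1 hdvd
      rw [h0, mul_one]
      exact hcK
    obtain ⟨k, hk, m, rfl⟩ := hgen u
    have hs'' : Commute x (k⁻¹ * (c * x ^ i) * k) := by
      have e : (k * x ^ m)⁻¹ * (c * x ^ i) * (k * x ^ m)
          = (x ^ m)⁻¹ * (k⁻¹ * (c * x ^ i) * k) * x ^ m := by group
      rw [e] at hu
      have h1 : Commute x ((x ^ m)⁻¹ * (k⁻¹ * (c * x ^ i) * k) * x ^ m) := hu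
      have h2 : Commute x (x ^ m) := (Commute.refl x).pow_right m
      have h3 : Commute x (x ^ m * ((x ^ m)⁻¹ * (k⁻¹ * (c * x ^ i) * k) * x ^ m) * (x ^ m)⁻¹) :=
        (h2.mul_right h1).mul_right h2.inv_right
      have e2 : x ^ m * ((x ^ m)⁻¹ * (k⁻¹ * (c * x ^ i) * k) * x ^ m) * (x ^ m)⁻¹
          = k⁻¹ * (c * x ^ i) * k := by group
      rw [e2] at h3
      exact h3
    obtain ⟨s'', hs''def⟩ : ∃ s'' : Γ, s'' = k⁻¹ * (c * x ^ i) * k := ⟨_, rfl⟩
    rw [← hs''def] at hs''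
    have hc''K : s'' * (x ^ i)⁻¹ ∈ G := by
      have e : s'' * (x ^ i)⁻¹ = (k⁻¹ * c) * (x ^ i * k * (x ^ i)⁻¹) := by
        rw [hs''def]
        group
      rw [e]
      exact G.mul_mem (G.mul_mem (G.inv_mem hk) hcK) (hGn.conj_mem k hk _)
    have hc''x : Commute (s'' * (x ^ i)⁻¹) (x ^ i) :=
      (hs''.symm.pow_right i).mul_left ((Commute.refl (x ^ i)).inv_left)
    have hpow1 : s'' ^ (Nat.card G * t) = x ^ i := by
      have e : s'' = (s'' * (x ^ i)⁻¹) * x ^ i := by group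
      rw [e, hc''x.mul_pow, hKM _ hc''K, one_mul, ← pow_mul, mul_comm, pow_mul, hxM]
    have hpow2 : s'' ^ (Nat.card G * t) = k⁻¹ * x ^ i * k := by
      have e : s'' = k⁻¹ * (c * x ^ i) * k⁻¹⁻¹ := by rw [hs''def, inv_inv]
      have hcxi : Commute c (x ^ i) := (show Commute c x from hcx).pow_right i
      rw [e, conj_pow, inv_inv, hcxi.mul_pow, hKM c hcK, one_mul, ← pow_mul, mul_comm, pow_mul,
        hxM]
    have hkxi : x ^ i * k = k * x ^ i := by
      have h := hpow1.symm.trans hpow2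
      calc x ^ i * k = k * (k⁻¹ * x ^ i * k) := by group
        _ = k * x ^ i := by rw [← h]
    have hkx : Commute x k := hfpf i hpi k hk hkxi
    exact (hkx.mul_right ((Commute.refl x).pow_right m)).eq
  have hcount : ∀ g, g ∉ G →
      (Finset.univ.filter
        (fun u : Γ => u⁻¹ * g * u ∈ Subgroup.centralizer ({x} : Set Γ))).card
        ≤ Nat.card (Subgroup.centralizer ({x} : Set Γ)) := by
    intro g hg
    obtain ⟨S, hS⟩ : ∃ S : Finset Γ, S = Finset.univ.filter
      (fun u : Γ => u⁻¹ * g * u ∈ Subgroup.centralizer ({x} : Set Γ)) := ⟨_, rfl⟩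
    rw [← hS]
    rcases S.eq_empty_or_nonempty with h0 | ⟨u₀, hu₀⟩
    · rw [h0]
      simp
    · have hu₀' : x * (u₀⁻¹ * g * u₀) = (u₀⁻¹ * g * u₀) * x := by
        have : u₀⁻¹ * g * u₀ ∈ Subgroup.centralizer ({x} : Set Γ) := by
          simpa [hS] using hu₀
        exact (hNmem _).1 this
      have key : ∀ u ∈ S, u₀⁻¹ * u ∈ Subgroup.centralizer ({x} : Set Γ) := by
        intro u hu
        have hu' : x * (u⁻¹ * g * u) = (u⁻¹ * g * u) * x := by
          have : u⁻¹ * g * u ∈ Subgroup.centralizer ({x} : Set Γ) := by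
            simpa [hS] using hu
          exact (hNmem _).1 this
        rw [hNmem]
        apply hkey (u₀⁻¹ * g * u₀) hu₀' ((hGc g u₀).2 hg) (u₀⁻¹ * u)
        have e : (u₀⁻¹ * u)⁻¹ * (u₀⁻¹ * g * u₀) * (u₀⁻¹ * u) = u⁻¹ * g * u := by group
        rw [e]
        exact hu'
      calc S.card ≤ (Finset.univ.filter
            (fun y : Γ => y ∈ Subgroup.centralizer ({x} : Set Γ))).card :=
            Finset.card_le_card_of_injOn (fun u => u₀⁻¹ * u)
              (fun u hu => by
                have := key u hu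
                simpa using this)
              (fun a _ b _ hab => mul_left_cancel hab)
        _ = Nat.card (Subgroup.centralizer ({x} : Set Γ)) := by
            rw [← Fintype.card_subtype]
            exact (Nat.card_eq_fintype_card).symm
  have hdc := hh_double_count (fun g => ‖χ g‖ ^ 2) (fun g => by positivity)
    (fun g u => by
      have := Helper24.char_conj_invariant hχc g u⁻¹
      rw [inv_inv] at this
      show ‖χ (u⁻¹ * g * u)‖ ^ 2 = ‖χ g‖ ^ 2
      rw [this])
    (fun g => g ∈ Subgroup.centralizer ({x} : Set Γ)) (fun g => g ∉ G) hGc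
    (Nat.card (Subgroup.centralizer ({x} : Set Γ))) hcount
  have hinj : ∑ c : C, ∑ i ∈ (Finset.range N).filter (fun i => i ≠ 0),
        ‖χ ((c : Γ) * x ^ i)‖ ^ 2
      ≤ ∑ g : Γ, (if g ∈ Subgroup.centralizer ({x} : Set Γ) ∧ g ∉ G then ‖χ g‖ ^ 2 else 0) := by
    rw [← Finset.sum_product' (Finset.univ : Finset C)
      ((Finset.range N).filter (fun i => i ≠ 0)) (fun c i => ‖χ ((c : Γ) * x ^ i)‖ ^ 2)]
    have himg : ∑ g ∈ ((Finset.univ : Finset C) ×ˢ
          ((Finset.range N).filter (fun i => i ≠ 0))).image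
            (fun t : C × ℕ => (t.1 : Γ) * x ^ t.2), ‖χ g‖ ^ 2
        = ∑ t ∈ (Finset.univ : Finset C) ×ˢ ((Finset.range N).filter (fun i => i ≠ 0)),
            ‖χ ((t.1 : Γ) * x ^ t.2)‖ ^ 2 := by
      apply Finset.sum_image
      rintro ⟨c, i⟩ h1 ⟨c', i'⟩ h2 heq
      have h1' : i < N ∧ i ≠ 0 := by simpa using h1
      have h2' : i' < N ∧ i' ≠ 0 := by simpa using h2
      have heq' : (c : Γ) * x ^ i = (c' : Γ) * x ^ i' := heq
      have h3 : (c' : Γ)⁻¹ * c = x ^ i' * (x ^ i)⁻¹ := by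
        rw [inv_mul_eq_iff_eq_mul, ← mul_assoc, ← heq', mul_inv_cancel_right]
      have h4 : (c' : Γ)⁻¹ * c = 1 := by
        apply hKP
        · exact G.mul_mem (G.inv_mem ((hC _).1 c'.2).1) ((hC _).1 c.2).1
        · rw [h3]
          exact Subgroup.mul_mem _ (Subgroup.pow_mem _ (Subgroup.mem_zpowers x) _)
            (Subgroup.inv_mem _ (Subgroup.pow_mem _ (Subgroup.mem_zpowers x) _))
      have h5 : (c' : Γ) = c := inv_mul_eq_one.1 h4
      have h6 : x ^ i = x ^ i' := by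
        rw [h5] at heq'
        exact mul_left_cancel heq'
      have h7 : i = i' :=
        pow_injOn_Iio_orderOf (by rw [hx]; exact h1'.1) (by rw [hx]; exact h2'.1) h6
      exact Prod.ext (Subtype.ext h5.symm) h7
    rw [← himg, ← Finset.sum_filter]
    apply Finset.sum_le_sum_of_subset_of_nonneg
    · intro g hg
      obtain ⟨⟨c, i⟩, ht, rfl⟩ := Finset.mem_image.1 hg
      have ht' : i < N ∧ i ≠ 0 := by simpa using ht
      rw [Finset.mem_filter]
      refine ⟨Finset.mem_univ _, ?_, ?_⟩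
      · rw [hNmem]
        have h1 := ((hC c).1 c.2).2
        exact ((show Commute x (c : Γ) from h1.symm).mul_right
          ((Commute.refl x).pow_right i)).eq
      · intro hmem
        have hxi : x ^ i ∈ G := by
          have h0 := G.mul_mem (G.inv_mem ((hC _).1 c.2).1) hmem
          rwa [inv_mul_cancel_left] at h0
        have h1 : x ^ i = 1 := hKP _ hxi (Subgroup.pow_mem _ (Subgroup.mem_zpowers x) _)
        have h2 : N ∣ i := by
          rw [← hx]
          exact orderOf_dvd_of_pow_eq_one h1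
        have h3 := Nat.le_of_dvd (Nat.pos_of_ne_zero ht'.2) h2
        omega
    · intro g _ _
      positivity
  have hΓpos : (0 : ℝ) < Nat.card Γ := by exact_mod_cast Nat.card_pos
  have hN0 : (0 : ℝ) ≤ Nat.card (Subgroup.centralizer ({x} : Set Γ)) := Nat.cast_nonneg _
  have hC0 : (0 : ℝ) ≤ Nat.card C := Nat.cast_nonneg _
  have hGle : (Nat.card G : ℝ) ≤ Nat.card Γ := by
    exact_mod_cast Subgroup.card_le_card_group G
  have e1 := (mul_le_mul_of_nonneg_left hinj hΓpos.le).trans hdc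
  have e2 := mul_le_mul_of_nonneg_left hWsum hN0
  have e4 : (Nat.card Γ : ℝ) * ∑ c : C, ∑ i ∈ (Finset.range N).filter (fun i => i ≠ 0),
        ‖χ ((c : Γ) * x ^ i)‖ ^ 2
      ≤ (Nat.card Γ : ℝ) * ((Nat.card C : ℝ) * ((N : ℝ) - 1)) := by
    calc (Nat.card Γ : ℝ) * ∑ c : C, ∑ i ∈ (Finset.range N).filter (fun i => i ≠ 0),
          ‖χ ((c : Γ) * x ^ i)‖ ^ 2
        ≤ (Nat.card (Subgroup.centralizer ({x} : Set Γ)) : ℝ)
            * ((Nat.card Γ : ℝ) - Nat.card G) := e1.trans e2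
      _ ≤ ((Nat.card C : ℝ) * N) * ((Nat.card Γ : ℝ) - Nat.card G) :=
          mul_le_mul_of_nonneg_right hNcard (by linarith)
      _ = (Nat.card C : ℝ) * ((N : ℝ) * Nat.card Γ - N * Nat.card G) := by ring
      _ ≤ (Nat.card C : ℝ) * ((N : ℝ) * Nat.card Γ - Nat.card Γ) :=
          mul_le_mul_of_nonneg_left (by linarith) hC0
      _ = (Nat.card Γ : ℝ) * ((Nat.card C : ℝ) * ((N : ℝ) - 1)) := by ring
  exact le_of_mul_le_mul_left e4 hΓpos

end Cfsg.Agent.Helper21
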