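import Mathlib
import Cfsg.Agent.Helper21.TIBound

/-!
Structure of an irreducible character on `C × ⟨x⟩` for a cyclic group `⟨x⟩` acting on a normal
subgroup of coprime order with uniform fixed points `C` (used for S4451).
-/

set_option autoImplicit false

namespace Cfsg.Agent.Helper21

open Cfsg
open scoped ComplexConjugate

/-- Two distinct characters differ by a generalized character of norm at least one. -/
theorem ti_norm_ge {K : Type*} [Group K] [Fintype K] {σ τ : K → ℂ} (hσ : IsCharacter K σ)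
    (hτ : IsCharacter K τ) (h : ∃ g, σ g - τ g ≠ 0) :
    (Nat.card K : ℝ) ≤ ∑ g : K, ‖σ g - τ g‖ ^ 2 := by
  classical
  obtain ⟨a, ha⟩ := Helper2.classInner_char_nat hσ hσ
  obtain ⟨b, hb⟩ := Helper2.classInner_char_nat hσ hτ
  obtain ⟨b', hb'⟩ := Helper2.classInner_char_nat hτ hσ
  obtain ⟨a', ha'⟩ := Helper2.classInner_char_nat hτ hτ
  have hK0 : (Nat.card K : ℂ) ≠ 0 := by exact_mod_cast Nat.card_pos.ne'
  have hKpos : (0 : ℝ) < Nat.card K := by exact_mod_cast Nat.card_pos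
  unfold classInner at ha hb hb' ha'
  have e1 : ∑ g : K, σ g * conj (σ g) = (Nat.card K : ℂ) * a := by
    rw [← ha, ← mul_assoc, mul_inv_cancel₀ hK0, one_mul]
  have e2 : ∑ g : K, σ g * conj (τ g) = (Nat.card K : ℂ) * b := by
    rw [← hb, ← mul_assoc, mul_inv_cancel₀ hK0, one_mul]
  have e3 : ∑ g : K, τ g * conj (σ g) = (Nat.card K : ℂ) * b' := by
    rw [← hb', ← mul_assoc, mul_inv_cancel₀ hK0, one_mul]
  have e4 : ∑ g : K, τ g * conj (τ g) = (Nat.card K : ℂ) * a' := by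
    rw [← ha', ← mul_assoc, mul_inv_cancel₀ hK0, one_mul]
  have key : ((∑ g : K, ‖σ g - τ g‖ ^ 2 : ℝ) : ℂ)
      = (Nat.card K : ℂ) * ((a : ℂ) - b - b' + a') := by
    push_cast
    have hpt : ∀ g : K, ((‖σ g - τ g‖ : ℂ)) ^ 2
        = σ g * conj (σ g) - σ g * conj (τ g) - τ g * conj (σ g) + τ g * conj (τ g) := by
      intro g
      rw [← Complex.mul_conj', map_sub]
      ring
    rw [Finset.sum_congr rfl (fun g _ => hpt g), Finset.sum_add_distrib, Finset.sum_sub_distrib,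
      Finset.sum_sub_distrib, e1, e2, e3, e4]
    ring
  obtain ⟨z, hz⟩ : ∃ z : ℤ, z = (a : ℤ) - b - b' + a' := ⟨_, rfl⟩
  have key' : (∑ g : K, ‖σ g - τ g‖ ^ 2 : ℝ) = (Nat.card K : ℝ) * ((z : ℤ) : ℝ) := by
    apply Complex.ofReal_injective
    rw [key, hz]
    push_cast
    ring
  obtain ⟨g₀, hg₀⟩ := h
  have pos : (0 : ℝ) < ∑ g : K, ‖σ g - τ g‖ ^ 2 :=
    Finset.sum_pos' (fun g _ => by positivity)
      ⟨g₀, Finset.mem_univ _, pow_pos (norm_pos_iff.2 hg₀) 2⟩
  have hz0 : 0 < z := by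
    by_contra hle
    push_neg at hle
    have hle' : ((z : ℤ) : ℝ) ≤ 0 := by exact_mod_cast hle
    rw [key'] at pos
    nlinarith
  have hz1 : (1 : ℝ) ≤ (z : ℝ) := by
    have : (1 : ℤ) ≤ z := hz0
    exact_mod_cast this
  rw [key']
  nlinarith

/-- Lagrange's identity. -/
theorem ti_lagrange (N : ℕ) (z : ℕ → ℂ) :
    ∑ j ∈ Finset.range N, ∑ j' ∈ Finset.range N, ‖z j - z j'‖ ^ 2
      = 2 * ((N : ℝ) * ∑ j ∈ Finset.range N, ‖z j‖ ^ 2 - ‖∑ j ∈ Finset.range N, z j‖ ^ 2) := by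
  apply Complex.ofReal_injective
  push_cast
  have hpt : ∀ j j', ((‖z j - z j'‖ : ℂ)) ^ 2
      = z j * conj (z j) - z j * conj (z j') - z j' * conj (z j) + z j' * conj (z j') := by
    intro j j'
    rw [← Complex.mul_conj', map_sub]
    ring
  have hn : ∀ j, ((‖z j‖ : ℂ)) ^ 2 = z j * conj (z j) := fun j => (Complex.mul_conj' _).symm
  have hs : ((‖∑ j ∈ Finset.range N, z j‖ : ℂ)) ^ 2
      = (∑ j ∈ Finset.range N, z j) * ∑ j ∈ Finset.range N, conj (z j) := by
    rw [← Complex.mul_conj', map_sum]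
  have h1 : ∑ j ∈ Finset.range N, ∑ j' ∈ Finset.range N, z j * conj (z j)
      = (N : ℂ) * ∑ j ∈ Finset.range N, z j * conj (z j) := by
    rw [Finset.mul_sum]
    refine Finset.sum_congr rfl fun j _ => ?_
    rw [Finset.sum_const, Finset.card_range, nsmul_eq_mul]
  have h2 : ∑ j ∈ Finset.range N, ∑ j' ∈ Finset.range N, z j * conj (z j')
      = (∑ j ∈ Finset.range N, z j) * ∑ j ∈ Finset.range N, conj (z j) := by
    rw [Finset.sum_mul_sum]
  have h3 : ∑ j ∈ Finset.range N, ∑ j' ∈ Finset.range N, z j' * conj (z j)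
      = (∑ j ∈ Finset.range N, z j) * ∑ j ∈ Finset.range N, conj (z j) := by
    rw [Finset.sum_mul_sum, Finset.sum_comm]
  have h4 : ∑ j ∈ Finset.range N, ∑ j' ∈ Finset.range N, z j' * conj (z j')
      = (N : ℂ) * ∑ j ∈ Finset.range N, z j * conj (z j) := by
    rw [Finset.sum_const, Finset.card_range, nsmul_eq_mul]
  rw [hs, Finset.sum_congr rfl (fun j _ => hn j),
    Finset.sum_congr rfl (fun j _ => Finset.sum_congr rfl (fun j' _ => hpt j j'))]
  simp only [Finset.sum_add_distrib, Finset.sum_sub_distrib]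
  rw [h1, h2, h3, h4]
  ring

theorem ti_list_apply {α : Type*} (l : List (α → ℂ)) (g : α) :
    l.sum g = (l.map (fun η => η g)).sum := by
  induction l with
  | nil => simp
  | cons η t ih => rw [List.sum_cons, Pi.add_apply, ih, List.map_cons, List.sum_cons]

/-- Grouping a list sum by a key. -/
theorem ti_list_group {α : Type*} (l : List α) (N : ℕ) (P : ℕ → α → Prop)
    [∀ j, DecidablePred (P j)] (f : α → ℂ)
    (hP : ∀ a ∈ l, ∃ j₀ ∈ Finset.range N, P j₀ a ∧ ∀ j ∈ Finset.range N, P j a → j = j₀) :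
    (l.map f).sum = ∑ j ∈ Finset.range N, ((l.filter (fun a => P j a)).map f).sum := by
  induction l with
  | nil => simp
  | cons a t ih =>
    obtain ⟨j₀, hj₀, hPj₀, huniq⟩ := hP a (List.mem_cons_self ..)
    have ih' := ih (fun b hb => hP b (List.mem_cons_of_mem _ hb))
    have h1 : ∀ j ∈ Finset.range N, (((a :: t).filter (fun a => P j a)).map f).sum
        = (if j = j₀ then f a else 0) + ((t.filter (fun a => P j a)).map f).sum := by
      intro j hj
      by_cases hPj : P j a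
      · have hjj : j = j₀ := huniq j hj hPj
        rw [List.filter_cons_of_pos (by simpa using hPj), List.map_cons, List.sum_cons,
          if_pos hjj]
      · have hjj : j ≠ j₀ := fun h => hPj (h ▸ hPj₀)
        rw [List.filter_cons_of_neg (by simpa using hPj), if_neg hjj, zero_add]
    rw [Finset.sum_congr rfl h1, Finset.sum_add_distrib, ← ih', List.map_cons, List.sum_cons,
      Finset.sum_ite_eq' (Finset.range N) j₀ (fun _ => f a), if_pos hj₀]

/-- Restrictions of characters of a subgroup `Hs` to a smaller subgroup `C`, summed over a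
list. -/
theorem ti_isChar_map {Γ : Type*} [Group Γ] (Hs C : Subgroup Γ) (hCH : C ≤ Hs)
    (l : List (Hs → ℂ)) (hl : ∀ η ∈ l, IsCharacter Hs η) :
    IsCharacter C (fun c : C => (l.map (fun η => η ⟨c, hCH c.2⟩)).sum) := by
  induction l with
  | nil =>
    have h0 : (fun c : C => (([] : List (Hs → ℂ)).map (fun η => η ⟨c, hCH c.2⟩)).sum) = 0 := by
      funext c
      simp
    rw [h0]
    exact Helper2.isCharacter_zero
  | cons η t ih =>
    have h1 : IsCharacter C (fun c : C => η ⟨c, hCH c.2⟩) := by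
      obtain ⟨n, σ, hσ⟩ := hl η (List.mem_cons_self ..)
      refine ⟨n, σ.comp (Subgroup.inclusion hCH), ?_⟩
      funext c
      rw [← hσ]
      rfl
    have h2 := ih (fun η hη => hl η (List.mem_cons_of_mem _ hη))
    have h3 : (fun c : C => (((η :: t).map (fun η => η ⟨c, hCH c.2⟩)).sum))
        = (fun c : C => η ⟨c, hCH c.2⟩)
          + (fun c : C => (t.map (fun η => η ⟨c, hCH c.2⟩)).sum) := by
      funext c
      simp
    rw [h3]
    exact Helper2.IsCharacter.add h1 h2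

/-- Combinatorics of pairwise distances that are `0` or at least `B`. -/
theorem ti_pairs (N : ℕ) (D : ℕ → ℕ → ℝ) (B : ℝ) (hB : 0 < B) (E : ℕ → ℕ → Prop)
    (hErefl : ∀ j, E j j) (hEsymm : ∀ j j', E j j' → E j' j)
    (hEtrans : ∀ a b c, E a b → E b c → E a c)
    (hD0 : ∀ j j', 0 ≤ D j j') (hDsymm : ∀ j j', D j j' = D j' j)
    (hDE : ∀ j j', E j j' → D j j' = 0) (hDne : ∀ j j', ¬ E j j' → B ≤ D j j')
    (hT : ∑ j ∈ Finset.range N, ∑ j' ∈ Finset.range N, D j j' ≤ 2 * B * ((N : ℝ) - 1)) :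
    (∀ j ∈ Finset.range N, ∀ j' ∈ Finset.range N, E j j') ∨
      ∃ jo ∈ Finset.range N, ∃ js ∈ Finset.range N, js ≠ jo ∧
        (∀ j ∈ Finset.range N, j ≠ jo → E j js) ∧ D jo js = B := by
  classical
  by_cases hall : ∀ j ∈ Finset.range N, ∀ j' ∈ Finset.range N, E j j'
  · exact Or.inl hall
  right
  push_neg at hall
  obtain ⟨j₀, hj₀, j₁, hj₁, hne⟩ := hall
  have hj01 : j₀ ≠ j₁ := fun h => hne (h ▸ hErefl j₀)
  obtain ⟨R, hR⟩ : ∃ R : Finset ℕ, R = ((Finset.range N).erase j₀).erase j₁ := ⟨_, rfl⟩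
  have hj₁' : j₁ ∈ (Finset.range N).erase j₀ := Finset.mem_erase.2 ⟨hj01.symm, hj₁⟩
  have hsplit : ∀ F : ℕ → ℝ, ∑ j ∈ Finset.range N, F j = F j₀ + F j₁ + ∑ j ∈ R, F j := by
    intro F
    rw [← Finset.add_sum_erase _ F hj₀, ← Finset.add_sum_erase _ F hj₁', hR, add_assoc]
  have hRcard : (R.card : ℝ) = (N : ℝ) - 2 := by
    have hN2 : 2 ≤ N := by
      have h0 := Finset.mem_range.1 hj₀
      have h1' := Finset.mem_range.1 hj₁
      omega
    have h1 : R.card = N - 2 := by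
      rw [hR, Finset.card_erase_of_mem hj₁', Finset.card_erase_of_mem hj₀, Finset.card_range]
      omega
    rw [h1, Nat.cast_sub hN2]
    norm_num
  obtain ⟨Q, hQ⟩ : ∃ Q : ℝ, Q = ∑ j ∈ R, ∑ j' ∈ R, D j j' := ⟨_, rfl⟩
  have hrow : ∀ j, ∑ j' ∈ Finset.range N, D j j' = D j j₀ + D j j₁ + ∑ j' ∈ R, D j j' :=
    fun j => hsplit (fun j' => D j j')
  have hT1 : ∑ j ∈ Finset.range N, ∑ j' ∈ Finset.range N, D j j'
      = (∑ j' ∈ Finset.range N, D j₀ j') + (∑ j' ∈ Finset.range N, D j₁ j')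
        + ∑ j ∈ R, ∑ j' ∈ Finset.range N, D j j' :=
    hsplit (fun j => ∑ j' ∈ Finset.range N, D j j')
  have e1 : ∑ j' ∈ R, D j₀ j' = ∑ j ∈ R, D j j₀ :=
    Finset.sum_congr rfl fun j _ => hDsymm _ _
  have e2 : ∑ j' ∈ R, D j₁ j' = ∑ j ∈ R, D j j₁ :=
    Finset.sum_congr rfl fun j _ => hDsymm _ _
  have hTeq : ∑ j ∈ Finset.range N, ∑ j' ∈ Finset.range N, D j j'
      = 2 * D j₀ j₁ + 2 * ∑ j ∈ R, (D j j₀ + D j j₁) + Q := by
    rw [hT1, hrow j₀, hrow j₁, Finset.sum_congr rfl (fun j _ => hrow j), hQ]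
    simp only [Finset.sum_add_distrib]
    rw [hDE j₀ j₀ (hErefl _), hDE j₁ j₁ (hErefl _), hDsymm j₁ j₀, e1, e2]
    ring
  have hD01 : B ≤ D j₀ j₁ := hDne _ _ hne
  have hmge : ∀ j ∈ R, B ≤ D j j₀ + D j j₁ := by
    intro j _
    by_cases h : E j j₀
    · have h' : ¬ E j j₁ := fun h1 => hne (hEtrans _ _ _ (hEsymm _ _ h) h1)
      have h2 := hDne _ _ h'
      have h3 := hD0 j j₀
      linarith
    · have h2 := hDne _ _ h
      have h3 := hD0 j j₁
      linarith
  have hmsum : ((N : ℝ) - 2) * B ≤ ∑ j ∈ R, (D j j₀ + D j j₁) := by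
    have h1 := Finset.sum_le_sum hmge
    rw [Finset.sum_const, nsmul_eq_mul, hRcard] at h1
    exact h1
  have hQ0 : 0 ≤ Q := by
    rw [hQ]
    exact Finset.sum_nonneg fun j _ => Finset.sum_nonneg fun j' _ => hD0 _ _
  rw [hTeq] at hT
  have hT' : 2 * D j₀ j₁ + 2 * ∑ j ∈ R, (D j j₀ + D j j₁) + Q
      ≤ 2 * B + 2 * (((N : ℝ) - 2) * B) := by
    have e : 2 * B * ((N : ℝ) - 1) = 2 * B + 2 * (((N : ℝ) - 2) * B) := by ring
    rw [← e]
    exact hT
  have hD01' : D j₀ j₁ = B := by linarith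
  have hQ' : Q ≤ 0 := by linarith
  have hmS : ∑ j ∈ R, (D j j₀ + D j j₁) ≤ ((N : ℝ) - 2) * B := by linarith
  have hmeq : ∀ j ∈ R, D j j₀ + D j j₁ = B := by
    have h1 : ∑ j ∈ R, (D j j₀ + D j j₁ - B) = 0 := by
      have h0 : ∑ j ∈ R, (D j j₀ + D j j₁ - B)
          = ∑ j ∈ R, (D j j₀ + D j j₁) - ((N : ℝ) - 2) * B := by
        rw [Finset.sum_sub_distrib, Finset.sum_const, nsmul_eq_mul, hRcard]
      have h0' : 0 ≤ ∑ j ∈ R, (D j j₀ + D j j₁ - B) :=
        Finset.sum_nonneg fun j hj => sub_nonneg.2 (hmge j hj)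
      linarith
    have h2 := (Finset.sum_eq_zero_iff_of_nonneg
      (fun j hj => sub_nonneg.2 (hmge j hj))).1 h1
    intro j hj
    have h3 := h2 j hj
    linarith
  have hRR : ∀ j ∈ R, ∀ j' ∈ R, E j j' := by
    intro j hj j' hj'
    by_contra hE
    have h1 := hDne _ _ hE
    have h2 : D j j' ≤ Q := by
      rw [hQ]
      calc D j j' ≤ ∑ b ∈ R, D j b :=
            Finset.single_le_sum (f := fun b => D j b) (fun b _ => hD0 j b) hj'
        _ ≤ ∑ a ∈ R, ∑ b ∈ R, D a b :=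
            Finset.single_le_sum (f := fun a => ∑ b ∈ R, D a b)
              (fun a _ => Finset.sum_nonneg fun b _ => hD0 a b) hj
    linarith
  have htype : ∀ j ∈ R, E j j₀ ∨ E j j₁ := by
    intro j hj
    by_cases h : E j j₀
    · exact Or.inl h
    · right
      by_contra h'
      have h1 := hDne _ _ h
      have h2 := hDne _ _ h'
      have h3 := hmeq j hj
      linarith
  by_cases h0 : ∀ j ∈ R, E j j₀
  · refine ⟨j₁, hj₁, j₀, hj₀, hj01, ?_, ?_⟩
    · intro j hj hjne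
      by_cases hjj : j = j₀
      · rw [hjj]
        exact hErefl _
      · exact h0 j (by
          rw [hR]
          exact Finset.mem_erase.2 ⟨hjne, Finset.mem_erase.2 ⟨hjj, hj⟩⟩)
    · rw [hDsymm]
      exact hD01'
  · push_neg at h0
    obtain ⟨a, haR, haE⟩ := h0
    have ha1 : E a j₁ := (htype a haR).resolve_left haE
    refine ⟨j₀, hj₀, j₁, hj₁, hj01.symm, ?_, hD01'⟩
    intro j hj hjne
    by_cases hjj : j = j₁
    · rw [hjj]
      exact hErefl _
    · have hjR : j ∈ R := by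
        rw [hR]
        exact Finset.mem_erase.2 ⟨hjj, Finset.mem_erase.2 ⟨hjne, hj⟩⟩
      exact hEtrans _ _ _ (hRR j hjR a haR) ha1

end Cfsg.Agent.Helper21
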