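import Mathlib
import Cfsg.Agent.Helper21.TIStruct

/-!
Structure of an irreducible character on `C × ⟨x⟩` (continued; used for S4451).
-/

set_option autoImplicit false

namespace Cfsg.Agent.Helper21

open Cfsg
open scoped ComplexConjugate

theorem ti_struct {Γ : Type*} [Group Γ] [Fintype Γ] (G : Subgroup Γ) [hGn : G.Normal]
    (x : Γ) (N : ℕ) (hx : orderOf x = N) (hN : 1 < N) (hcop : (Nat.card G).Coprime N)
    (hgen : ∀ g : Γ, ∃ k ∈ G, ∃ i : ℕ, g = k * x ^ i)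
    (C : Subgroup Γ) [Fintype C] (hC : ∀ c, c ∈ C ↔ c ∈ G ∧ c * x = x * c)
    (hfpf : ∀ i : ℕ, ¬ N ∣ i → ∀ k ∈ G, x ^ i * k = k * x ^ i → x * k = k * x)
    {χ : Γ → ℂ} (hχ : IsIrrCharacter Γ χ) (ζ : ℂ) (hζ : IsPrimitiveRoot ζ N) :
    ∃ φ : ℕ → C → ℂ, (∀ j, IsCharacter C (φ j)) ∧
      (∀ (c : C) (i : ℕ), χ ((c : Γ) * x ^ i) = ∑ j ∈ Finset.range N, (ζ ^ j) ^ i * φ j c) ∧
      ((∀ j ∈ Finset.range N, ∀ j' ∈ Finset.range N, φ j = φ j') ∨
        ∃ jo ∈ Finset.range N, ∃ js ∈ Finset.range N, js ≠ jo ∧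
          (∀ j ∈ Finset.range N, j ≠ jo → φ j = φ js) ∧
          ∑ c : C, ‖φ jo c - φ js c‖ ^ 2 = (Nat.card C : ℝ)) := by
  classical
  have hN0 : 0 < N := by omega
  haveI : NeZero N := ⟨by omega⟩
  have hχc := Helper24.isCharacter_of_irr hχ
  obtain ⟨Hs, hHs⟩ : ∃ Hs : Subgroup Γ, Hs = Subgroup.centralizer ({x} : Set Γ) := ⟨_, rfl⟩
  have hmemH : ∀ g, g ∈ Hs ↔ x * g = g * x := by
    intro g
    rw [hHs, Subgroup.mem_centralizer_iff]
    simp
  have hxH : x ∈ Hs := (hmemH x).2 rfl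
  have hCH : C ≤ Hs := fun c hc => (hmemH c).2 ((hC c).1 hc).2.symm
  haveI : Fintype Hs := Fintype.ofFinite Hs
  obtain ⟨x', hx'⟩ : ∃ x' : Hs, x' = ⟨x, hxH⟩ := ⟨_, rfl⟩
  have hx'c : x' ∈ Subgroup.center Hs := by
    rw [Subgroup.mem_center_iff]
    intro g
    apply Subtype.ext
    rw [hx']
    simp only [Subgroup.coe_mul]
    exact ((hmemH g).1 g.2).symm
  obtain ⟨l, hl, hsum⟩ := Helper2.IsCharacter.exists_list (Helper24.isCharacter_restrict Hs hχc)
  have hω : ∀ η ∈ l, ∃ ω : ℂ, ω ^ N = 1 ∧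
      ∀ (g : Hs) (i : ℕ), η (g * x' ^ i) = ω ^ i * η g := by
    intro η hη
    obtain ⟨c, hc1, hc2⟩ := ft_central (hl η hη) x' hx'c
    have hpow : ∀ (i : ℕ) (g : Hs), η (x' ^ i * g) = c ^ i * η g := by
      intro i
      induction i with
      | zero => intro g; simp
      | succ i ih =>
        intro g
        rw [pow_succ, mul_assoc, ih, hc2, pow_succ]
        ring
    have hxN : x' ^ N = 1 := by
      apply Subtype.ext
      rw [hx']
      simp only [Subgroup.coe_pow, Subgroup.coe_one]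
      rw [← hx]
      exact pow_orderOf_eq_one x
    have h1 : η 1 ≠ 0 := Helper25.irr_one_ne_zero (hl η hη)
    refine ⟨c, ?_, ?_⟩
    · have h0 := hpow N 1
      rw [hxN, mul_one] at h0
      have h2 : (c ^ N - 1) * η 1 = 0 := by rw [sub_mul, one_mul, ← h0, sub_self]
      rcases mul_eq_zero.1 h2 with h | h
      · exact sub_eq_zero.1 h
      · exact absurd h h1
    · intro g i
      have hcomm : g * x' ^ i = x' ^ i * g :=
        Subgroup.mem_center_iff.1 (Subgroup.pow_mem _ hx'c i) g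
      rw [hcomm, hpow]
  obtain ⟨P, hP⟩ : ∃ P : ℕ → (Hs → ℂ) → Prop,
      P = fun j η => ∀ (g : Hs) (i : ℕ), η (g * x' ^ i) = (ζ ^ j) ^ i * η g := ⟨_, rfl⟩
  have hPex : ∀ η ∈ l, ∃ j₀ ∈ Finset.range N, P j₀ η ∧
      ∀ j ∈ Finset.range N, P j η → j = j₀ := by
    intro η hη
    obtain ⟨ω, hω1, hω2⟩ := hω η hη
    obtain ⟨j₀, hj₀, hj₀'⟩ := hζ.eq_pow_of_pow_eq_one hω1
    refine ⟨j₀, Finset.mem_range.2 hj₀, ?_, ?_⟩
    · rw [hP]
      intro g i
      rw [hj₀']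
      exact hω2 g i
    · intro j hj hPj
      rw [hP] at hPj
      have h1 := hPj 1 1
      have h2 := hω2 1 1
      rw [h1] at h2
      have h3 : η 1 ≠ 0 := Helper25.irr_one_ne_zero (hl η hη)
      have h4 : ζ ^ j = ζ ^ j₀ := by
        rw [hj₀']
        have := mul_right_cancel₀ h3 h2
        simpa using this
      exact hζ.pow_inj (Finset.mem_range.1 hj) hj₀ h4
  obtain ⟨φ, hφdef⟩ : ∃ φ : ℕ → C → ℂ, φ = fun (j : ℕ) (c : C) =>
      ((l.filter (fun η => P j η)).map (fun η => η ⟨(c : Γ), hCH c.2⟩)).sum := ⟨_, rfl⟩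
  have hφc : ∀ j, IsCharacter C (φ j) := by
    intro j
    rw [hφdef]
    exact ti_isChar_map Hs C hCH (l.filter (fun η => P j η))
      (fun η hη => Helper24.isCharacter_of_irr (hl η (List.mem_of_mem_filter hη)))
  have hF1 : ∀ (c : C) (i : ℕ),
      χ ((c : Γ) * x ^ i) = ∑ j ∈ Finset.range N, (ζ ^ j) ^ i * φ j c := by
    intro c i
    obtain ⟨c', hc'⟩ : ∃ c' : Hs, c' = ⟨c, hCH c.2⟩ := ⟨_, rfl⟩
    have h1 : χ ((c : Γ) * x ^ i) = l.sum (c' * x' ^ i) := by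
      rw [← hsum, hc', hx']
      rfl
    rw [h1, ti_list_apply, ti_list_group l N P (fun η => η (c' * x' ^ i)) hPex]
    refine Finset.sum_congr rfl fun j _ => ?_
    rw [hφdef]
    simp only
    rw [← List.sum_map_mul_left]
    congr 1
    apply List.map_congr_left
    intro η hη
    have hPj : P j η := by simpa using (List.mem_filter.1 hη).2
    rw [hP] at hPj
    rw [hPj c' i, hc']
  have hCpos : (0 : ℝ) < Nat.card C := by exact_mod_cast Nat.card_pos
  have hpars : ∀ c : C,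
      ∑ i ∈ (Finset.range N).filter (fun i => i ≠ 0), ‖χ ((c : Γ) * x ^ i)‖ ^ 2
        = (1 / 2 : ℝ) * ∑ j ∈ Finset.range N, ∑ j' ∈ Finset.range N,
            ‖φ j c - φ j' c‖ ^ 2 := by
    intro c
    have h1 := hh_parseval N hN0 ζ hζ (fun j => φ j c)
    have h2 : ∑ i ∈ Finset.range N, ‖χ ((c : Γ) * x ^ i)‖ ^ 2
        = (N : ℝ) * ∑ j ∈ Finset.range N, ‖φ j c‖ ^ 2 := by
      rw [← h1]
      refine Finset.sum_congr rfl fun i _ => ?_
      rw [hF1 c i]
    have h3 : (Finset.range N).filter (fun i => i ≠ 0) = (Finset.range N).erase 0 := by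
      ext i
      simp [Finset.mem_erase, Finset.mem_filter, and_comm]
    have h4 : ‖χ ((c : Γ) * x ^ 0)‖ ^ 2
        + ∑ i ∈ (Finset.range N).erase 0, ‖χ ((c : Γ) * x ^ i)‖ ^ 2
          = ∑ i ∈ Finset.range N, ‖χ ((c : Γ) * x ^ i)‖ ^ 2 :=
      Finset.add_sum_erase _ (fun i => ‖χ ((c : Γ) * x ^ i)‖ ^ 2) (Finset.mem_range.2 hN0)
    have h5 : χ ((c : Γ) * x ^ 0) = ∑ j ∈ Finset.range N, φ j c := by
      rw [hF1 c 0]
      simp
    have hL := ti_lagrange N (fun j => φ j c)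
    rw [h3, hL]
    rw [h5, h2] at h4
    linarith
  have hT : ∑ j ∈ Finset.range N, ∑ j' ∈ Finset.range N, ∑ c : C, ‖φ j c - φ j' c‖ ^ 2
      ≤ 2 * (Nat.card C : ℝ) * ((N : ℝ) - 1) := by
    have hb := ti_bound G x N hx hN0 hcop hgen C hC hfpf hχ
    rw [Finset.sum_congr rfl (fun c _ => hpars c), ← Finset.mul_sum] at hb
    have hswap : ∑ c : C, ∑ j ∈ Finset.range N, ∑ j' ∈ Finset.range N, ‖φ j c - φ j' c‖ ^ 2
        = ∑ j ∈ Finset.range N, ∑ j' ∈ Finset.range N, ∑ c : C, ‖φ j c - φ j' c‖ ^ 2 := by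
      rw [Finset.sum_comm]
      refine Finset.sum_congr rfl fun j _ => ?_
      rw [Finset.sum_comm]
    rw [hswap] at hb
    linarith
  have hres := ti_pairs N (fun j j' => ∑ c : C, ‖φ j c - φ j' c‖ ^ 2) (Nat.card C) hCpos
    (fun j j' => φ j = φ j') (fun j => rfl) (fun j j' h => h.symm)
    (fun a b c h1 h2 => h1.trans h2)
    (fun j j' => Finset.sum_nonneg fun c _ => by positivity)
    (fun j j' => Finset.sum_congr rfl fun c _ => by rw [norm_sub_rev])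
    (fun j j' h => by
      have h' : φ j = φ j' := h
      simp [h'])
    (fun j j' h => ti_norm_ge (hφc j) (hφc j') (by
      by_contra hcon
      exact h (funext fun g => sub_eq_zero.1 (not_not.1 (not_exists.1 hcon g)))))
    hT
  exact ⟨φ, hφc, hF1, hres⟩

end Cfsg.Agent.Helper21
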