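import Mathlib
import Cfsg.Agent.Helper21.TIStruct2
import Cfsg.Agent.Helper2.CharLinear

/-!
Main character-value computation for S4451.
-/

set_option autoImplicit false

namespace Cfsg.Agent.Helper21

open Cfsg
open scoped ComplexConjugate

theorem ti_main {Γ : Type*} [Group Γ] [Fintype Γ] (G : Subgroup Γ) [hGn : G.Normal]
    (x : Γ) (N : ℕ) (hx : orderOf x = N) (hN : 1 < N) (hcop : (Nat.card G).Coprime N)
    (hgen : ∀ g : Γ, ∃ k ∈ G, ∃ i : ℕ, g = k * x ^ i)
    (C : Subgroup Γ) [Fintype C] (hC : ∀ c, c ∈ C ↔ c ∈ G ∧ c * x = x * c)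
    (hfpf : ∀ i : ℕ, ¬ N ∣ i → ∀ k ∈ G, x ^ i * k = k * x ^ i → x * k = k * x)
    {χ : Γ → ℂ} (hχ : IsIrrCharacter Γ χ) {β : C → ℂ} (hβirr : IsIrrCharacter C β)
    (ε₀ : ℤ) (hε₀ : ε₀ = 1 ∨ ε₀ = -1)
    (hβ : ∀ c : C, χ ((c : Γ) * x) = (ε₀ : ℂ) * β c) :
    ∃ (ε : ℤ) (η : ℂ), (ε = 1 ∨ ε = -1) ∧ (η = 1 ∨ (η = -1 ∧ 2 ∣ N)) ∧
      (∀ (c : C) (i : ℕ), ¬ N ∣ i → χ ((c : Γ) * x ^ i) = (ε : ℂ) * β c * η ^ i) ∧
      ∃ ϑ : C → ℂ, IsCharacter C ϑ ∧
        ∀ c : C, χ (c : Γ) = (N : ℂ) * ϑ c + (ε : ℂ) * β c := by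
  classical
  have hN0 : 0 < N := by omega
  obtain ⟨ζ, hζ⟩ : ∃ ζ : ℂ, IsPrimitiveRoot ζ N := ⟨_, Complex.isPrimitiveRoot_exp N hN0.ne'⟩
  obtain ⟨φ, hφc, hF1, hcase⟩ := ti_struct G x N hx hN hcop hgen C hC hfpf hχ ζ hζ
  have hζN : ζ ^ N = 1 := hζ.pow_eq_one
  have hgeo : ∀ i : ℕ, ¬ N ∣ i → ∑ j ∈ Finset.range N, (ζ ^ j) ^ i = 0 := by
    intro i hi
    have h1 : ζ ^ i ≠ 1 := fun h => hi ((hζ.pow_eq_one_iff_dvd i).1 h)
    have h2 : ∑ j ∈ Finset.range N, (ζ ^ j) ^ i = ∑ j ∈ Finset.range N, (ζ ^ i) ^ j := by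
      refine Finset.sum_congr rfl fun j _ => ?_
      rw [← pow_mul, ← pow_mul, mul_comm]
    have h3 : (ζ ^ i - 1) * ∑ j ∈ Finset.range N, (ζ ^ i) ^ j = 0 := by
      rw [mul_geom_sum, ← pow_mul, mul_comm, pow_mul, hζN, one_pow, sub_self]
    rw [h2]
    rcases mul_eq_zero.1 h3 with h | h
    · exact absurd (sub_eq_zero.1 h) h1
    · exact h
  have hβc := Helper24.isCharacter_of_irr hβirr
  have hβ1 : β 1 ≠ 0 := Helper25.irr_one_ne_zero hβirr
  have hε₀ne : (ε₀ : ℂ) ≠ 0 := by
    rcases hε₀ with h | h <;> rw [h] <;> norm_num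
  have hne0 : χ (((1 : C) : Γ) * x ^ 1) ≠ 0 := by
    rw [pow_one, hβ 1]
    exact mul_ne_zero hε₀ne hβ1
  have hN1 : ¬ N ∣ 1 := by
    intro h
    have := Nat.le_of_dvd one_pos h
    omega
  rcases hcase with hall | ⟨jo, hjo, js, hjs, hne, hoth, hnorm⟩
  · exfalso
    apply hne0
    rw [hF1 1 1]
    have h1 : ∀ j ∈ Finset.range N, (ζ ^ j) ^ 1 * φ j 1 = (ζ ^ j) ^ 1 * φ 0 1 := by
      intro j hj
      rw [hall j hj 0 (Finset.mem_range.2 hN0)]
    rw [Finset.sum_congr rfl h1, ← Finset.sum_mul, hgeo 1 hN1, zero_mul]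
  · have hsplit : ∀ (c : C) (i : ℕ), ∑ j ∈ Finset.range N, (ζ ^ j) ^ i * φ j c
        = (∑ j ∈ Finset.range N, (ζ ^ j) ^ i) * φ js c
          + (ζ ^ jo) ^ i * (φ jo c - φ js c) := by
      intro c i
      have h1 : ∀ j ∈ Finset.range N, (ζ ^ j) ^ i * φ j c
          = (ζ ^ j) ^ i * φ js c
            + (if j = jo then (ζ ^ jo) ^ i * (φ jo c - φ js c) else 0) := by
        intro j hj
        by_cases hjj : j = jo
        · rw [if_pos hjj, hjj]
          ring
        · rw [if_neg hjj, hoth j hj hjj, add_zero]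
      rw [Finset.sum_congr rfl h1, Finset.sum_add_distrib, ← Finset.sum_mul,
        Finset.sum_ite_eq' (Finset.range N) jo (fun _ => (ζ ^ jo) ^ i * (φ jo c - φ js c)),
        if_pos hjo]
    obtain ⟨w, hw⟩ : ∃ w : ℂ, w = ζ ^ jo := ⟨_, rfl⟩
    have hval : ∀ (c : C) (i : ℕ), ¬ N ∣ i →
        χ ((c : Γ) * x ^ i) = w ^ i * (φ jo c - φ js c) := by
      intro c i hi
      rw [hF1 c i, hsplit c i, hgeo i hi, zero_mul, zero_add, hw]
    have hzero : ∀ c : C, χ (c : Γ) = (N : ℂ) * φ js c + (φ jo c - φ js c) := by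
      intro c
      have h0 := hF1 c 0
      rw [pow_zero, mul_one] at h0
      rw [h0, hsplit c 0]
      simp only [pow_zero, Finset.sum_const, Finset.card_range, nsmul_eq_mul, mul_one, one_mul]
    have hwN : w ^ N = 1 := by rw [hw, ← pow_mul, mul_comm, pow_mul, hζN, one_pow]
    have hδ : ∀ c : C, w * (φ jo c - φ js c) = (ε₀ : ℂ) * β c := by
      intro c
      rw [← hβ c]
      have := hval c 1 hN1
      rw [pow_one, pow_one] at this
      exact this.symm
    have ha := Helper24.charDegree_spec (hφc jo)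
    have hb := Helper24.charDegree_spec (hφc js)
    have hd := Helper24.charDegree_spec hβc
    obtain ⟨a, ha'⟩ : ∃ a : ℕ, a = charDegree (φ jo) := ⟨_, rfl⟩
    obtain ⟨b, hb'⟩ : ∃ b : ℕ, b = charDegree (φ js) := ⟨_, rfl⟩
    obtain ⟨d, hd'⟩ : ∃ d : ℕ, d = charDegree β := ⟨_, rfl⟩
    rw [← ha'] at ha
    rw [← hb'] at hb
    rw [← hd'] at hd
    have hd0 : (d : ℂ) ≠ 0 := by
      rw [← hd]
      exact hβ1
    have hd0' : (0 : ℝ) < d := by
      have : d ≠ 0 := by
        intro h
        apply hd0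
        rw [h]
        simp
      exact_mod_cast Nat.pos_of_ne_zero this
    have h1 := hδ 1
    rw [ha, hb, hd] at h1
    have hwnorm : ‖w‖ = 1 := by
      have h2 : ‖w‖ ^ N = 1 := by rw [← norm_pow, hwN, norm_one]
      exact (pow_eq_one_iff_of_nonneg (norm_nonneg w) hN0.ne').1 h2
    have hr : ((a : ℝ) - b = d) ∨ ((a : ℝ) - b = -d) := by
      have h2 := congrArg norm h1
      rw [norm_mul, norm_mul, hwnorm, one_mul, Complex.norm_natCast] at h2
      have h3 : ‖(ε₀ : ℂ)‖ = 1 := by
        rcases hε₀ with h | h <;> rw [h] <;> simp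
      rw [h3, one_mul] at h2
      have h4 : ‖(a : ℂ) - b‖ = |(a : ℝ) - b| := by
        have : (a : ℂ) - b = (((a : ℝ) - b : ℝ) : ℂ) := by
          push_cast
          ring
        rw [this, Complex.norm_real, Real.norm_eq_abs]
      rw [h4] at h2
      exact (abs_eq hd0'.le).1 h2
    have hab : (a : ℂ) - b = d ∨ (a : ℂ) - b = -d := by
      rcases hr with h | h
      · left
        exact_mod_cast h
      · right
        exact_mod_cast h
    have hw1 : w = 1 ∨ w = -1 := by
      rcases hab with h | h <;> rcases hε₀ with he | he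
      · left
        rw [h, he] at h1
        have : (w - 1) * d = 0 := by
          push_cast at h1
          linear_combination h1
        rcases mul_eq_zero.1 this with h' | h'
        · exact sub_eq_zero.1 h'
        · exact absurd h' hd0
      · right
        rw [h, he] at h1
        have : (w + 1) * d = 0 := by
          push_cast at h1
          linear_combination h1
        rcases mul_eq_zero.1 this with h' | h'
        · exact eq_neg_of_add_eq_zero_left h'
        · exact absurd h' hd0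
      · right
        rw [h, he] at h1
        have : (w + 1) * d = 0 := by
          push_cast at h1
          linear_combination -h1
        rcases mul_eq_zero.1 this with h' | h'
        · exact eq_neg_of_add_eq_zero_left h'
        · exact absurd h' hd0
      · left
        rw [h, he] at h1
        have : (w - 1) * d = 0 := by
          push_cast at h1
          linear_combination -h1
        rcases mul_eq_zero.1 this with h' | h'
        · exact sub_eq_zero.1 h'
        · exact absurd h' hd0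
    rcases hw1 with hw1 | hw1
    · have hδ' : ∀ c : C, φ jo c - φ js c = (ε₀ : ℂ) * β c := by
        intro c
        have h3 := hδ c
        rw [hw1, one_mul] at h3
        exact h3
      refine ⟨ε₀, 1, hε₀, Or.inl rfl, ?_, φ js, hφc js, ?_⟩
      · intro c i hi
        rw [hval c i hi, hw1, hδ' c]
        simp only [one_pow, one_mul, mul_one]
      · intro c
        rw [hzero c, hδ' c]
    · have h2N : 2 ∣ N := by
        rw [hw1] at hwN
        rcases Nat.even_or_odd N with he | ho
        · exact he.two_dvd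
        · rw [ho.neg_one_pow] at hwN
          norm_num at hwN
      have hδ' : ∀ c : C, φ jo c - φ js c = -((ε₀ : ℂ) * β c) := by
        intro c
        have h3 := hδ c
        rw [hw1] at h3
        linear_combination -h3
      refine ⟨-ε₀, -1, ?_, Or.inr ⟨rfl, h2N⟩, ?_, φ js, hφc js, ?_⟩
      · rcases hε₀ with h | h
        · right
          rw [h]
        · left
          rw [h]
          norm_num
      · intro c i hi
        rw [hval c i hi, hw1, hδ' c]
        push_cast
        ring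
      · intro c
        rw [hzero c, hδ' c]
        push_cast
        ring

end Cfsg.Agent.Helper21
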