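import Mathlib
import Cfsg.Agent.Helper21.TIMain
import Cfsg.Agent.Helper21.HHAmbient
import Cfsg.Agent.Helper25.Gallagher
import Cfsg.Agent.Helper25.CharPos
import Cfsg.Agent.Helper24.LinearChar
import Cfsg.Agent.Helper2.CharOrtho
import Cfsg.Agent.Helper2.CharComplete

/-!
Auxiliary lemmas for S4454 (fully ramified characters and Frobenius quotients).
-/

set_option autoImplicit false

namespace Cfsg.Agent.Helper21

open Cfsg
open scoped ComplexConjugate

/-- Gallagher's coset sum: if `η` restricts irreducibly to the normal subgroup `M`, then the sum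
of `|η|²` over every coset of `M` is `|M|`. -/
theorem fram_coset_sum {K : Type*} [Group K] [Fintype K] (M : Subgroup K) [hM : M.Normal]
    [Fintype M] {η : K → ℂ} (hη : IsCharacter K η)
    (hirr : IsIrrCharacter M (fun n : M => η n)) (z : K) :
    ∑ n : M, ‖η ((n : K) * z)‖ ^ 2 = (Nat.card M : ℝ) := by
  have hΛ := Helper25.isCharacter_cosetNorm M hη
  have h1 : Helper25.cosetNorm M η 1 = 1 := by
    rw [Helper25.cosetNorm_one]
    have h := Helper2.classInner_irr hirr hirr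
    rw [if_pos rfl] at h
    exact h
  have hmul := Helper24.linear_char_mul hΛ h1
  have hpow : ∀ k : ℕ, Helper25.cosetNorm M η (z ^ k) = (Helper25.cosetNorm M η z) ^ k := by
    intro k
    induction k with
    | zero => rw [pow_zero, pow_zero, h1]
    | succ k ih => rw [pow_succ z k, hmul, ih, pow_succ]
  have hzN : (Helper25.cosetNorm M η z) ^ (orderOf z) = 1 := by
    rw [← hpow, pow_orderOf_eq_one, h1]
  have hnorm : ‖Helper25.cosetNorm M η z‖ = 1 := by
    have h2 : ‖Helper25.cosetNorm M η z‖ ^ (orderOf z) = 1 := by rw [← norm_pow, hzN, norm_one]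
    exact (pow_eq_one_iff_of_nonneg (norm_nonneg _) (orderOf_pos z).ne').1 h2
  rw [Helper25.cosetNorm_eq_ofReal, Complex.norm_real, Real.norm_eq_abs] at hnorm
  have hMpos : (0 : ℝ) < Nat.card M := by exact_mod_cast Nat.card_pos
  have hs0 : (0 : ℝ) ≤ ∑ n : M, ‖η ((n : K) * z)‖ ^ 2 :=
    Finset.sum_nonneg fun n _ => by positivity
  rw [abs_of_nonneg (mul_nonneg (inv_nonneg.2 hMpos.le) hs0)] at hnorm
  have h3 : ∑ n : M, ‖η ((n : K) * z)‖ ^ 2
      = (Nat.card M : ℝ) * ((Nat.card M : ℝ)⁻¹ * ∑ n : M, ‖η ((n : K) * z)‖ ^ 2) := by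
    rw [← mul_assoc, mul_inv_cancel₀ hMpos.ne', one_mul]
  rw [h3, hnorm, mul_one]

open Classical in
/-- A sum over a coset written with an indicator. -/
theorem fram_ind_sum {Γ : Type*} [Group Γ] [Fintype Γ] (N : Subgroup Γ) [Fintype N] (z : Γ)
    (F : Γ → ℝ) :
    ∑ g : Γ, (if g * z⁻¹ ∈ N then F g else 0) = ∑ n : N, F ((n : Γ) * z) := by
  rw [← Finset.sum_filter]
  have himg := Finset.sum_image (s := (Finset.univ : Finset N)) (g := fun n : N => (n : Γ) * z)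
    (f := F) (fun a _ b _ hab => Subtype.ext (mul_right_cancel hab))
  rw [← himg]
  apply Finset.sum_congr _ (fun _ _ => rfl)
  ext g
  simp only [Finset.mem_filter, Finset.mem_univ, true_and, Finset.mem_image]
  constructor
  · intro h
    exact ⟨⟨g * z⁻¹, h⟩, by simp⟩
  · rintro ⟨n, rfl⟩
    simp

/-- The number theory at the end of S4454. -/
theorem fram_numth (m e : ℕ) (hm : 2 ≤ m) (r : ℕ → ℕ)
    (hsum : ∑ j ∈ Finset.range m, r j = e)
    (hsq : (m : ℝ) * ∑ j ∈ Finset.range m, (r j : ℝ) ^ 2 ≤ (e : ℝ) ^ 2 + m - 1)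
    (k₀ : ℕ) (hk : k₀ * m + 1 = e ^ 2 + m) :
    (m : ℤ) ∣ (e : ℤ) - 1 ∨ (m : ℤ) ∣ (e : ℤ) + 1 := by
  obtain ⟨q, hq⟩ : ∃ q : ℕ, q = e / m := ⟨_, rfl⟩
  obtain ⟨s, hs⟩ : ∃ s : ℕ, s = e % m := ⟨_, rfl⟩
  have hdiv : m * q + s = e := by
    rw [hq, hs]
    exact Nat.div_add_mod e m
  have hsm : s < m := by
    rw [hs]
    exact Nat.mod_lt _ (by omega)
  have hs0 : s ≠ 0 := by
    intro h0
    have h1 : m ∣ e := ⟨q, by rw [← hdiv, h0, add_zero]⟩
    have h2 : m ∣ e ^ 2 + m := dvd_add (dvd_pow h1 two_ne_zero) (dvd_refl m)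
    rw [← hk] at h2
    have h3 : m ∣ 1 := (Nat.dvd_add_right (dvd_mul_left m k₀)).1 h2
    have := Nat.le_of_dvd one_pos h3
    omega
  have hdivZ : (m : ℤ) * q + s = e := by exact_mod_cast hdiv
  have hsumZ : ∑ j ∈ Finset.range m, (r j : ℤ) = e := by exact_mod_cast hsum
  have hsqZ : (m : ℤ) * ∑ j ∈ Finset.range m, (r j : ℤ) ^ 2 ≤ (e : ℤ) ^ 2 + m - 1 := by
    have h : (((m : ℤ) * ∑ j ∈ Finset.range m, (r j : ℤ) ^ 2 : ℤ) : ℝ)
        ≤ (((e : ℤ) ^ 2 + m - 1 : ℤ) : ℝ) := by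
      push_cast
      exact hsq
    exact_mod_cast h
  have hk1 : ∑ j ∈ Finset.range m, ((r j : ℤ) - q) = s := by
    rw [Finset.sum_sub_distrib, hsumZ, Finset.sum_const, Finset.card_range, nsmul_eq_mul]
    linarith
  have hk2 : ∑ j ∈ Finset.range m, ((r j : ℤ) - q) ^ 2
      = ∑ j ∈ Finset.range m, (r j : ℤ) ^ 2 - 2 * q * e + m * (q : ℤ) ^ 2 := by
    have h1 : ∀ j ∈ Finset.range m, ((r j : ℤ) - q) ^ 2
        = (r j : ℤ) ^ 2 - 2 * q * (r j : ℤ) + (q : ℤ) ^ 2 := by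
      intro j _
      ring
    rw [Finset.sum_congr rfl h1, Finset.sum_add_distrib, Finset.sum_sub_distrib,
      ← Finset.mul_sum, hsumZ, Finset.sum_const, Finset.card_range, nsmul_eq_mul]
  have hk3 : ∑ j ∈ Finset.range m, ((r j : ℤ) - q)
      ≤ ∑ j ∈ Finset.range m, ((r j : ℤ) - q) ^ 2 :=
    Finset.sum_le_sum fun j _ => Int.le_self_sq _
  have hmain : (m : ℤ) * s ≤ (s : ℤ) ^ 2 + m - 1 := by
    have h1 : (m : ℤ) * ∑ j ∈ Finset.range m, ((r j : ℤ) - q) ^ 2 ≤ (s : ℤ) ^ 2 + m - 1 := by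
      rw [hk2]
      have h2 : (s : ℤ) = e - m * q := by linarith
      rw [h2]
      nlinarith [hsqZ]
    have h3 : (m : ℤ) * s ≤ (m : ℤ) * ∑ j ∈ Finset.range m, ((r j : ℤ) - q) ^ 2 := by
      rw [← hk1]
      exact mul_le_mul_of_nonneg_left hk3 (by positivity)
    linarith
  have hcases : s = 1 ∨ s + 1 = m := by
    by_contra hcon
    rw [not_or] at hcon
    obtain ⟨h1, h2⟩ := hcon
    have h3 : (2 : ℤ) ≤ s := by
      have : 2 ≤ s := by omega
      exact_mod_cast this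
    have h4 : (s : ℤ) + 2 ≤ m := by
      have : s + 2 ≤ m := by omega
      exact_mod_cast this
    nlinarith [mul_nonneg (sub_nonneg.2 h3) (sub_nonneg.2 h4)]
  rcases hcases with h | h
  · left
    refine ⟨q, ?_⟩
    rw [← hdivZ, h]
    push_cast
    ring
  · right
    refine ⟨q + 1, ?_⟩
    have h5 : (s : ℤ) + 1 = m := by exact_mod_cast h
    rw [← hdivZ, ← h5]
    ring

/-- Summation over a group `K = M ⟨x⟩` with `M` normal and `K / M` of order `m`. -/
theorem fram_bij {K : Type*} [Group K] [Fintype K] (M : Subgroup K) [Fintype M] (x : K)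
    (m : ℕ) (hm : 0 < m) (hgen : ∀ k : K, ∃ n ∈ M, ∃ i : ℕ, k = n * x ^ i)
    (hxM : ∀ i : ℕ, x ^ i ∈ M ↔ m ∣ i) (F : K → ℝ) :
    ∑ k : K, F k = ∑ i ∈ Finset.range m, ∑ n : M, F ((n : K) * x ^ i) := by
  classical
  have hprod : ∑ i ∈ Finset.range m, ∑ n : M, F ((n : K) * x ^ i)
      = ∑ p ∈ (Finset.range m) ×ˢ (Finset.univ : Finset M), F ((p.2 : K) * x ^ p.1) :=
    (Finset.sum_product' (Finset.range m) Finset.univ (fun i (n : M) => F ((n : K) * x ^ i))).symm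
  rw [hprod]
  symm
  have key : ∀ (a b : ℕ) (u v : M), a ≤ b → b < m → (u : K) * x ^ a = (v : K) * x ^ b →
      a = b := by
    intro a b u v hab hb h
    have h1 : x ^ (b - a) ∈ M := by
      have h3 : x ^ b = x ^ (b - a) * x ^ a := by rw [← pow_add, Nat.sub_add_cancel hab]
      rw [h3, ← mul_assoc] at h
      have h4 := mul_right_cancel h
      have h2 : x ^ (b - a) = (v : K)⁻¹ * (u : K) := by
        rw [h4]
        group
      rw [h2]
      exact M.mul_mem (M.inv_mem v.2) u.2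
    have h5 := (hxM _).1 h1
    have h6 : b - a = 0 := Nat.eq_zero_of_dvd_of_lt h5 (by omega)
    omega
  refine Finset.sum_bij (fun p _ => ((p.2 : M) : K) * x ^ p.1) (fun _ _ => Finset.mem_univ _)
    ?_ ?_ (fun _ _ => rfl)
  · rintro ⟨i, n⟩ hp ⟨i', n'⟩ hp' heq
    simp only [Finset.mem_product, Finset.mem_range, Finset.mem_univ, and_true] at hp hp'
    have heq' : (n : K) * x ^ i = (n' : K) * x ^ i' := heq
    have hii : i = i' := by
      rcases le_total i i' with h | h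
      · exact key i i' n n' h hp' heq'
      · exact (key i' i n' n h hp heq'.symm).symm
    subst hii
    have h7 := mul_right_cancel heq'
    rw [Subtype.ext h7]
  · intro k _
    obtain ⟨n, hn, i, rfl⟩ := hgen k
    refine ⟨(i % m, ⟨n * x ^ (m * (i / m)), ?_⟩), ?_, ?_⟩
    · exact M.mul_mem hn ((hxM _).2 (dvd_mul_right m _))
    · simp only [Finset.mem_product, Finset.mem_range, Finset.mem_univ, and_true]
      exact Nat.mod_lt _ hm
    · show n * x ^ (m * (i / m)) * x ^ (i % m) = n * x ^ i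
      rw [mul_assoc, ← pow_add, Nat.div_add_mod]

/-- Spectral decomposition of a character along an element `x` whose `m`-th power is in the
kernel. -/
theorem fram_spec {K : Type*} [Group K] [Finite K] {Λ : K → ℂ} (hΛ : IsCharacter K Λ) (x : K)
    (m : ℕ) (hm : 0 < m) (hxm : Λ (x ^ m) = Λ 1) (ζ : ℂ) (hζ : IsPrimitiveRoot ζ m) :
    ∃ r : ℕ → ℕ, (∀ i : ℕ, Λ (x ^ i) = ∑ j ∈ Finset.range m, (ζ ^ j) ^ i * (r j : ℂ)) ∧
      ((∑ j ∈ Finset.range m, r j : ℕ) : ℂ) = Λ 1 := by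
  obtain ⟨n, ρ, rfl⟩ := hΛ
  have h1 : ρ.character 1 = (n : ℂ) := by
    rw [Representation.char_one]
    simp
  have hρ : ρ (x ^ m) = 1 := hh_one_of_char ρ (x ^ m) (by rw [hxm, h1])
  obtain ⟨ρ', hρ'⟩ : ∃ ρ' : Representation ℂ (Module.End ℂ (Fin n → ℂ))ˣ (Fin n → ℂ),
      ∀ u, ρ' u = (u : Module.End ℂ (Fin n → ℂ)) := ⟨Units.coeHom _, fun u => rfl⟩
  obtain ⟨x', hx'⟩ : ∃ x' : (Module.End ℂ (Fin n → ℂ))ˣ,
      (x' : Module.End ℂ (Fin n → ℂ)) = ρ x := ⟨ρ.toHomUnits x, MonoidHom.coe_toHomUnits ρ x⟩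
  have hx'm : x' ^ m = 1 := by
    apply Units.ext
    rw [Units.val_pow_eq_pow_val, Units.val_one, hx', ← map_pow]
    exact hρ
  obtain ⟨r, φ, hF, hφ1, hsum, -, -⟩ := hh_spec ρ' x' m hm hx'm ζ hζ ⊥ (by
    intro c hc
    rw [Subgroup.mem_bot] at hc
    rw [hc, one_mul, mul_one])
  refine ⟨r, ?_, ?_⟩
  · intro i
    have h2 := hF 1 i
    rw [one_mul] at h2
    have h3 : ρ'.character (x' ^ i) = ρ.character (x ^ i) := by
      show LinearMap.trace ℂ (Fin n → ℂ) (ρ' (x' ^ i))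
        = LinearMap.trace ℂ (Fin n → ℂ) (ρ (x ^ i))
      rw [hρ', Units.val_pow_eq_pow_val, hx', map_pow ρ x i]
    rw [← h3, h2]
    refine Finset.sum_congr rfl fun j _ => ?_
    rw [hφ1 j]
  · rw [h1, hsum]

end Cfsg.Agent.Helper21
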