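import Mathlib
import Cfsg.Agent.Helper21.FRA
import Cfsg.Agent.S0886

/-!
Main lemmas for S4454 (fully ramified characters and Frobenius quotients).
-/

set_option autoImplicit false

namespace Cfsg.Agent.Helper21

open Cfsg
open scoped ComplexConjugate

/-- Unpacking full ramification: `ϑ^G = e χ` with `ϑ` invariant forces `|G| = e² |N|`,
`χ_N = e ϑ` and `χ` vanishes off `N`. -/
theorem fram_basic {Γ : Type*} [Group Γ] (G N : Subgroup Γ) [hN : N.Normal] [Fintype G]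
    [Fintype N] (hNG : N ≤ G) (θ : N → ℂ) (hθ : IsIrrCharacter N θ)
    (hinv : ∀ (x : Γ) (n : N), θ ⟨x * n * x⁻¹, hN.conj_mem n n.2 x⟩ = θ n)
    (χ : G → ℂ) (hχ : IsIrrCharacter G χ) (e : ℕ)
    (hram : indFun (N.subgroupOf G) (fun n : N.subgroupOf G => θ ⟨(n : G), n.2⟩)
      = fun g => (e : ℂ) * χ g) :
    (Nat.card G = e ^ 2 * Nat.card N) ∧ (∀ n : N, χ ⟨n, hNG n.2⟩ = (e : ℂ) * θ n) ∧
      (∀ g : G, (g : Γ) ∉ N → χ g = 0) := by
  classical
  obtain ⟨c, hc⟩ : ∃ c : ℂ, c = (Nat.card (N.subgroupOf G) : ℂ)⁻¹ := ⟨_, rfl⟩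
  have hcardsub : Nat.card (N.subgroupOf G) = Nat.card N :=
    Nat.card_congr (Subgroup.subgroupOfEquivOfLe hNG).toEquiv
  have hNpos : (0 : ℝ) < Nat.card N := by exact_mod_cast Nat.card_pos
  have hGpos : (0 : ℝ) < Nat.card G := by exact_mod_cast Nat.card_pos
  have hN0 : (Nat.card N : ℂ) ≠ 0 := by exact_mod_cast Nat.card_pos.ne'
  have hG0 : (Nat.card G : ℂ) ≠ 0 := by exact_mod_cast Nat.card_pos.ne'
  have hc0 : c ≠ 0 := by
    rw [hc, hcardsub]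
    exact inv_ne_zero hN0
  have hext1 : ∀ (y : G) (hy : (y : Γ) ∈ N),
      extendByZero (N.subgroupOf G) (fun n : N.subgroupOf G => θ ⟨(n : G), n.2⟩) y
        = θ ⟨(y : Γ), hy⟩ := by
    intro y hy
    have h := Function.Injective.extend_apply (Subtype.val_injective)
      (fun n : N.subgroupOf G => θ ⟨(n : G), n.2⟩) (0 : G → ℂ)
      (⟨y, Subgroup.mem_subgroupOf.2 hy⟩ : N.subgroupOf G)
    exact h
  have hext0 : ∀ y : G, (y : Γ) ∉ N →
      extendByZero (N.subgroupOf G) (fun n : N.subgroupOf G => θ ⟨(n : G), n.2⟩) y = 0 := by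
    intro y hy
    have h := Function.extend_apply' (f := (Subtype.val : N.subgroupOf G → G))
      (fun n : N.subgroupOf G => θ ⟨(n : G), n.2⟩) (0 : G → ℂ) y (by
        rintro ⟨a, rfl⟩
        exact hy (Subgroup.mem_subgroupOf.1 a.2))
    exact h
  have hind : ∀ g : G, (e : ℂ) * χ g = c * ∑ y : G,
      extendByZero (N.subgroupOf G) (fun n : N.subgroupOf G => θ ⟨(n : G), n.2⟩)
        (y⁻¹ * g * y) := by
    intro g
    have h := congrFun hram g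
    rw [← h, hc]
    rfl
  have hθconj : ∀ (y : Γ) (n : N) (h : y⁻¹ * (n : Γ) * y ∈ N),
      θ ⟨y⁻¹ * (n : Γ) * y, h⟩ = θ n := by
    intro y n h
    have h1 := hinv y⁻¹ n
    have h2 : (⟨y⁻¹ * (n : Γ) * y⁻¹⁻¹, hN.conj_mem n n.2 y⁻¹⟩ : N) = ⟨y⁻¹ * (n : Γ) * y, h⟩ :=
      Subtype.ext (by
        show y⁻¹ * (n : Γ) * y⁻¹⁻¹ = y⁻¹ * (n : Γ) * y
        rw [inv_inv])
    rw [← h2]
    exact h1
  have hA2 : ∀ n : N, (e : ℂ) * χ ⟨n, hNG n.2⟩ = c * (Nat.card G : ℂ) * θ n := by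
    intro n
    rw [hind]
    have h1 : ∀ y : G,
        extendByZero (N.subgroupOf G) (fun n : N.subgroupOf G => θ ⟨(n : G), n.2⟩)
          (y⁻¹ * ⟨n, hNG n.2⟩ * y) = θ n := by
      intro y
      have hy : ((y⁻¹ * ⟨n, hNG n.2⟩ * y : G) : Γ) ∈ N := by
        have h := hN.conj_mem n n.2 (y : Γ)⁻¹
        simpa using h
      rw [hext1 _ hy]
      exact hθconj (y : Γ) n hy
    rw [Finset.sum_congr rfl (fun y _ => h1 y), Finset.sum_const, Finset.card_univ,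
      nsmul_eq_mul, Nat.card_eq_fintype_card]
    ring
  have hθ1 : θ 1 ≠ 0 := Helper25.irr_one_ne_zero hθ
  have he0 : (e : ℂ) ≠ 0 := by
    intro h
    have h1 := hA2 1
    rw [h, zero_mul] at h1
    exact mul_ne_zero (mul_ne_zero hc0 hG0) hθ1 h1.symm
  have hA1 : ∀ g : G, (g : Γ) ∉ N → χ g = 0 := by
    intro g hg
    have h1 : ∀ y : G,
        extendByZero (N.subgroupOf G) (fun n : N.subgroupOf G => θ ⟨(n : G), n.2⟩)
          (y⁻¹ * g * y) = 0 := by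
      intro y
      apply hext0
      intro hy
      apply hg
      have h := hN.conj_mem _ hy (y : Γ)
      simpa [mul_assoc] using h
    have h2 := hind g
    rw [Finset.sum_congr rfl (fun y _ => h1 y), Finset.sum_const_zero, mul_zero] at h2
    rcases mul_eq_zero.1 h2 with h | h
    · exact absurd h he0
    · exact h
  have hsplit : ∑ g : G, ‖χ g‖ ^ 2 = ∑ n : N, ‖χ ⟨n, hNG n.2⟩‖ ^ 2 := by
    have hinj : Function.Injective (fun n : N => (⟨n, hNG n.2⟩ : G)) := by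
      intro a b hab
      apply Subtype.ext
      exact congrArg (fun g : G => (g : Γ)) hab
    have himg := Finset.sum_image (s := (Finset.univ : Finset N))
      (g := fun n : N => (⟨n, hNG n.2⟩ : G)) (f := fun g : G => ‖χ g‖ ^ 2)
      (fun a _ b _ hab => hinj hab)
    rw [← himg]
    symm
    apply Finset.sum_subset (Finset.subset_univ _)
    intro g _ hg
    have hgN : (g : Γ) ∉ N := by
      intro h
      apply hg
      rw [Finset.mem_image]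
      exact ⟨⟨g, h⟩, Finset.mem_univ _, rfl⟩
    rw [hA1 g hgN]
    simp
  have hnorm : ∀ n : N, (e : ℝ) ^ 2 * ‖χ ⟨n, hNG n.2⟩‖ ^ 2
      = ((Nat.card G : ℝ) / (Nat.card N : ℝ)) ^ 2 * ‖θ n‖ ^ 2 := by
    intro n
    have h1 := congrArg norm (hA2 n)
    rw [norm_mul, norm_mul, norm_mul, Complex.norm_natCast, Complex.norm_natCast, hc, norm_inv,
      Complex.norm_natCast, hcardsub] at h1
    have h2 : (e : ℝ) ^ 2 * ‖χ ⟨n, hNG n.2⟩‖ ^ 2 = ((e : ℝ) * ‖χ ⟨n, hNG n.2⟩‖) ^ 2 := by ring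
    rw [h2, h1]
    ring
  have hsum1 : (e : ℝ) ^ 2 * (Nat.card G : ℝ)
      = ((Nat.card G : ℝ) / (Nat.card N : ℝ)) ^ 2 * (Nat.card N : ℝ) := by
    have h1 : (e : ℝ) ^ 2 * ∑ g : G, ‖χ g‖ ^ 2
        = ((Nat.card G : ℝ) / (Nat.card N : ℝ)) ^ 2 * ∑ n : N, ‖θ n‖ ^ 2 := by
      rw [hsplit, Finset.mul_sum, Finset.sum_congr rfl (fun n _ => hnorm n), ← Finset.mul_sum]
    rw [Helper24.irr_norm_sum hχ, Helper24.irr_norm_sum hθ] at h1
    exact h1
  have hcardR : (Nat.card G : ℝ) = (e : ℝ) ^ 2 * (Nat.card N : ℝ) := by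
    have h3 : ((Nat.card G : ℝ) / (Nat.card N : ℝ)) ^ 2 * (Nat.card N : ℝ)
        = (Nat.card G : ℝ) ^ 2 / (Nat.card N : ℝ) := by
      field_simp
    rw [h3] at hsum1
    have h4 : (e : ℝ) ^ 2 * (Nat.card G : ℝ) * (Nat.card N : ℝ) = (Nat.card G : ℝ) ^ 2 := by
      rw [hsum1, div_mul_cancel₀ _ hNpos.ne']
    have h5 : (Nat.card G : ℝ) * ((e : ℝ) ^ 2 * (Nat.card N : ℝ))
        = (Nat.card G : ℝ) * (Nat.card G : ℝ) := by
      linear_combination h4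
    exact (mul_left_cancel₀ hGpos.ne' h5).symm
  have hcardN : Nat.card G = e ^ 2 * Nat.card N := by exact_mod_cast hcardR
  have hcG : c * (Nat.card G : ℂ) = (e : ℂ) ^ 2 := by
    rw [hc, hcardsub, hcardN]
    push_cast
    field_simp
  refine ⟨hcardN, ?_, hA1⟩
  intro n
  have h := hA2 n
  rw [hcG] at h
  exact mul_left_cancel₀ he0 (by rw [h]; ring)

open Classical in
/-- Double counting: the sum of `|ψ|²` over a coset of `N` outside `G` is at most `|N|`. -/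
theorem fram_count {Γ : Type*} [Group Γ] [Fintype Γ] (G N : Subgroup Γ) [hG : G.Normal]
    [hN : N.Normal] [Fintype N] (hNG : N ≤ G) (hcyc : IsCyclic (Γ ⧸ G))
    (hfrob : ∀ x : Γ, x ∉ G → ∀ g : Γ, g ∈ G → x * g * x⁻¹ * g⁻¹ ∈ N → g ∈ N)
    {ψ : Γ → ℂ} (hψ : IsCharacter Γ ψ)
    (hcos : ∀ z : Γ, ∑ g : Γ, (if g * z⁻¹ ∈ G then ‖ψ g‖ ^ 2 else 0) = (Nat.card G : ℝ))
    (z : Γ) (hz : z ∉ G) :
    ∑ g : Γ, (if g * z⁻¹ ∈ N then ‖ψ g‖ ^ 2 else 0) ≤ (Nat.card N : ℝ) := by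
  obtain ⟨q, hq⟩ := (isCyclic_iff_exists_zpowers_eq_top (α := Γ ⧸ G)).1 hcyc
  have hcomm : ∀ a b : Γ ⧸ G, a * b = b * a := by
    intro a b
    have ha : a ∈ Subgroup.zpowers q := by
      rw [hq]
      exact Subgroup.mem_top a
    have hb : b ∈ Subgroup.zpowers q := by
      rw [hq]
      exact Subgroup.mem_top b
    obtain ⟨i, rfl⟩ := Subgroup.mem_zpowers_iff.1 ha
    obtain ⟨j, rfl⟩ := Subgroup.mem_zpowers_iff.1 hb
    exact zpow_mul_comm q i j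
  have hBinv : ∀ g u : Γ, (u⁻¹ * g * u) * z⁻¹ ∈ G ↔ g * z⁻¹ ∈ G := by
    intro g u
    rw [← QuotientGroup.eq_one_iff (N := G), ← QuotientGroup.eq_one_iff (N := G)]
    have h1 : ((u⁻¹ * g * u * z⁻¹ : Γ) : Γ ⧸ G) = ((g * z⁻¹ : Γ) : Γ ⧸ G) := by
      simp only [QuotientGroup.mk_mul, QuotientGroup.mk_inv]
      rw [hcomm ((u : Γ ⧸ G))⁻¹ (g : Γ ⧸ G), mul_assoc (g : Γ ⧸ G), inv_mul_cancel, mul_one]
    rw [h1]
  obtain ⟨m, hm⟩ : ∃ m : ℕ, m = G.index := ⟨_, rfl⟩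
  have hmpos : 0 < m := by
    rw [hm]
    exact Nat.pos_of_ne_zero Subgroup.index_ne_zero_of_finite
  have hcount : ∀ g : Γ, g * z⁻¹ ∈ G →
      (Finset.univ.filter (fun u : Γ => (u⁻¹ * g * u) * z⁻¹ ∈ N)).card ≤ m * Nat.card N := by
    intro g _
    rcases (Finset.univ.filter (fun u : Γ => (u⁻¹ * g * u) * z⁻¹ ∈ N)).eq_empty_or_nonempty
      with hS | ⟨u₀, hu₀⟩
    · rw [hS]
      simp
    · rw [Finset.mem_filter] at hu₀
      obtain ⟨t, ht⟩ : ∃ t : Γ, t = u₀⁻¹ * g * u₀ := ⟨_, rfl⟩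
      have htz : t * z⁻¹ ∈ N := by
        rw [ht]
        exact hu₀.2
      have htG : t ∉ G := by
        intro h
        apply hz
        have h1 : (t * z⁻¹)⁻¹ * t ∈ G := G.mul_mem (G.inv_mem (hNG htz)) h
        simpa using h1
      let T : Subgroup Γ :=
        { carrier := {v | v⁻¹ * t * v * t⁻¹ ∈ N}
          one_mem' := by
            show (1 : Γ)⁻¹ * t * 1 * t⁻¹ ∈ N
            simp
          mul_mem' := by
            intro v w hv hw
            have hv' : v⁻¹ * t * v * t⁻¹ ∈ N := hv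
            have hw' : w⁻¹ * t * w * t⁻¹ ∈ N := hw
            have h1 : (v * w)⁻¹ * t * (v * w) * t⁻¹
                = (w⁻¹ * (v⁻¹ * t * v * t⁻¹) * w⁻¹⁻¹) * (w⁻¹ * t * w * t⁻¹) := by group
            show (v * w)⁻¹ * t * (v * w) * t⁻¹ ∈ N
            rw [h1]
            exact N.mul_mem (hN.conj_mem _ hv' w⁻¹) hw'
          inv_mem' := by
            intro v hv
            have hv' : v⁻¹ * t * v * t⁻¹ ∈ N := hv
            have h1 : v⁻¹⁻¹ * t * v⁻¹ * t⁻¹ = v * (v⁻¹ * t * v * t⁻¹)⁻¹ * v⁻¹ := by group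
            show v⁻¹⁻¹ * t * v⁻¹ * t⁻¹ ∈ N
            rw [h1]
            exact hN.conj_mem _ (N.inv_mem hv') v }
      have hTmem : ∀ v, v ∈ T ↔ v⁻¹ * t * v * t⁻¹ ∈ N := fun v => Iff.rfl
      have hTG : G ⊓ T ≤ N := by
        intro v hv
        obtain ⟨hvG, hvT⟩ := Subgroup.mem_inf.1 hv
        apply hfrob t htG v hvG
        have h1 : t * v * t⁻¹ * v⁻¹ = v * (v⁻¹ * t * v * t⁻¹) * v⁻¹ := by group
        rw [h1]
        exact hN.conj_mem _ ((hTmem v).1 hvT) v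
      have hTcard : Nat.card T ≤ m * Nat.card N := by
        have h1 := Subgroup.relIndex_inf_mul_relIndex (⊥ : Subgroup Γ) G T
        rw [Subgroup.relIndex_bot_left, bot_inf_eq, Subgroup.relIndex_bot_left] at h1
        have h2 : G.relIndex T ≤ m := by
          rw [hm]
          exact Nat.le_of_dvd (Nat.pos_of_ne_zero Subgroup.index_ne_zero_of_finite)
            (Subgroup.relIndex_dvd_index_of_normal G T)
        have h3 : Nat.card (G ⊓ T : Subgroup Γ) ≤ Nat.card N := Subgroup.card_le_of_le hTG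
        rw [← h1]
        calc Nat.card (G ⊓ T : Subgroup Γ) * G.relIndex T ≤ Nat.card N * m :=
              Nat.mul_le_mul h3 h2
          _ = m * Nat.card N := mul_comm _ _
      have hST : (Finset.univ.filter (fun u : Γ => (u⁻¹ * g * u) * z⁻¹ ∈ N)).card
          ≤ (Finset.univ.filter (fun v : Γ => v ∈ T)).card := by
        apply Finset.card_le_card_of_injOn (fun u => u₀⁻¹ * u)
        · intro u hu
          rw [Finset.mem_coe, Finset.mem_filter] at hu ⊢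
          refine ⟨Finset.mem_univ _, ?_⟩
          rw [hTmem, ht]
          have h1 : (u₀⁻¹ * u)⁻¹ * (u₀⁻¹ * g * u₀) * (u₀⁻¹ * u) * (u₀⁻¹ * g * u₀)⁻¹
              = (u⁻¹ * g * u * z⁻¹) * (u₀⁻¹ * g * u₀ * z⁻¹)⁻¹ := by group
          rw [h1]
          exact N.mul_mem hu.2 (N.inv_mem hu₀.2)
        · intro a _ b _ hab
          exact mul_left_cancel hab
      have hTfin : (Finset.univ.filter (fun v : Γ => v ∈ T)).card = Nat.card T := by
        rw [Nat.card_eq_fintype_card, Fintype.card_subtype]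
      rw [hTfin] at hST
      exact hST.trans hTcard
  have hmain := hh_double_count (fun g => ‖ψ g‖ ^ 2) (fun g => by positivity)
    (fun g u => by
      have h := Helper24.char_conj_invariant hψ g u⁻¹
      rw [inv_inv] at h
      show ‖ψ (u⁻¹ * g * u)‖ ^ 2 = ‖ψ g‖ ^ 2
      rw [h])
    (fun g => g * z⁻¹ ∈ N) (fun g => g * z⁻¹ ∈ G) hBinv (m * Nat.card N) hcount
  have hAB : ∑ g : Γ, (if g * z⁻¹ ∈ N ∧ g * z⁻¹ ∈ G then ‖ψ g‖ ^ 2 else 0)
      = ∑ g : Γ, (if g * z⁻¹ ∈ N then ‖ψ g‖ ^ 2 else 0) := by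
    refine Finset.sum_congr rfl fun g _ => ?_
    by_cases h : g * z⁻¹ ∈ N
    · rw [if_pos ⟨h, hNG h⟩, if_pos h]
    · rw [if_neg (fun h' => h h'.1), if_neg h]
  rw [hAB, hcos z] at hmain
  have hΓ : (Nat.card Γ : ℝ) = (m : ℝ) * Nat.card G := by
    have h := Subgroup.card_mul_index G
    rw [← hm] at h
    rw [← h]
    push_cast
    ring
  rw [hΓ] at hmain
  push_cast at hmain
  have hGpos : (0 : ℝ) < Nat.card G := by exact_mod_cast Nat.card_pos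
  have hmposR : (0 : ℝ) < m := by exact_mod_cast hmpos
  have hfin : (m : ℝ) * Nat.card G * (∑ g : Γ, (if g * z⁻¹ ∈ N then ‖ψ g‖ ^ 2 else 0))
      ≤ (m : ℝ) * Nat.card G * Nat.card N := by linarith
  exact le_of_mul_le_mul_left hfin (by positivity)

/-- The abstract form of S4454 inside `K = M ⟨x⟩`. -/
theorem fram_lemmaL {K : Type*} [Group K] [Fintype K] (M : Subgroup K) [hM : M.Normal]
    [Fintype M] (x : K) (m : ℕ) (hm : 2 ≤ m)
    (hgen : ∀ k : K, ∃ n ∈ M, ∃ i : ℕ, k = n * x ^ i)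
    (hxM : ∀ i : ℕ, x ^ i ∈ M ↔ m ∣ i)
    (θ : M → ℂ) (hθ : IsIrrCharacter M θ)
    (hinv : ∀ (k : K) (n : M), θ ⟨k * n * k⁻¹, hM.conj_mem n n.2 k⟩ = θ n)
    (η : K → ℂ) (hη : IsCharacter K η) (e : ℕ)
    (hηM : ∀ n : M, η n = (e : ℂ) * θ n)
    (hcos : ∀ i : ℕ, ¬ m ∣ i → ∑ n : M, ‖η ((n : K) * x ^ i)‖ ^ 2 = (Nat.card M : ℝ)) :
    (m : ℤ) ∣ (e : ℤ) - 1 ∨ (m : ℤ) ∣ (e : ℤ) + 1 := by
  classical
  have hm0 : 0 < m := by omega
  have hMpos : (0 : ℝ) < Nat.card M := by exact_mod_cast Nat.card_pos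
  have hcyc : IsCyclic (K ⧸ M) := by
    rw [isCyclic_iff_exists_zpowers_eq_top]
    refine ⟨(x : K ⧸ M), ?_⟩
    rw [eq_top_iff]
    intro q _
    obtain ⟨k, rfl⟩ := QuotientGroup.mk_surjective q
    obtain ⟨n, hn, i, rfl⟩ := hgen k
    rw [Subgroup.mem_zpowers_iff]
    refine ⟨(i : ℤ), ?_⟩
    rw [zpow_natCast, QuotientGroup.mk_mul, (QuotientGroup.eq_one_iff n).2 hn, one_mul,
      QuotientGroup.mk_pow]
  obtain ⟨θh, hθh, hθhM⟩ := S0886.result M hcyc θ hθ hinv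
  have hθhc := Helper24.isCharacter_of_irr hθh
  have hθhirr : IsIrrCharacter M (fun n : M => θh n) := by
    have h : (fun n : M => θh n) = θ := funext hθhM
    rw [h]
    exact hθ
  have hθcos : ∀ k : K, ∑ n : M, ‖θh ((n : K) * k)‖ ^ 2 = (Nat.card M : ℝ) :=
    fun k => fram_coset_sum M hθhc hθhirr k
  obtain ⟨Λ, hΛdef⟩ : ∃ Λ : K → ℂ, Λ = Helper25.cosetPair M η θh := ⟨_, rfl⟩
  have hΛc : IsCharacter K Λ := by
    rw [hΛdef]
    exact Helper25.isCharacter_cosetPair M hη hθhc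
  have hΛval : ∀ k : K, Λ k
      = (Nat.card M : ℂ)⁻¹ * ∑ n : M, η ((n : K) * k) * conj (θh ((n : K) * k)) := by
    intro k
    rw [hΛdef]
    rfl
  have hΛ1 : Λ 1 = (e : ℂ) := by
    rw [hΛval]
    have h1 : ∀ n : M, η ((n : K) * 1) * conj (θh ((n : K) * 1))
        = (e : ℂ) * (θ n * conj (θ n)) := by
      intro n
      rw [mul_one, hηM n, hθhM n, mul_assoc]
    rw [Finset.sum_congr rfl (fun n _ => h1 n), ← Finset.mul_sum]
    have h2 := Helper2.classInner_irr hθ hθ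
    rw [if_pos rfl] at h2
    unfold classInner at h2
    rw [mul_left_comm, h2, mul_one]
  have hΛxm : Λ (x ^ m) = Λ 1 := by
    have h1 := Helper25.cosetPair_mul_left M η θh ⟨x ^ m, (hxM m).2 dvd_rfl⟩ 1
    rw [mul_one] at h1
    rw [hΛdef]
    exact h1
  have hΛle : ∀ i : ℕ, ¬ m ∣ i → ‖Λ (x ^ i)‖ ^ 2 ≤ 1 := by
    intro i hi
    have h1 : ‖Λ (x ^ i)‖ ≤ (Nat.card M : ℝ)⁻¹
        * ∑ n : M, ‖η ((n : K) * x ^ i)‖ * ‖θh ((n : K) * x ^ i)‖ := by
      rw [hΛval, norm_mul, norm_inv, Complex.norm_natCast]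
      refine mul_le_mul_of_nonneg_left ?_ (inv_nonneg.2 hMpos.le)
      refine (norm_sum_le _ _).trans (le_of_eq ?_)
      refine Finset.sum_congr rfl fun n _ => ?_
      rw [norm_mul, RCLike.norm_conj]
    have h2 := Finset.sum_mul_sq_le_sq_mul_sq Finset.univ
      (fun n : M => ‖η ((n : K) * x ^ i)‖) (fun n : M => ‖θh ((n : K) * x ^ i)‖)
    rw [hcos i hi, hθcos (x ^ i)] at h2
    have h0 : 0 ≤ ∑ n : M, ‖η ((n : K) * x ^ i)‖ * ‖θh ((n : K) * x ^ i)‖ :=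
      Finset.sum_nonneg fun n _ => by positivity
    have h3 : ∑ n : M, ‖η ((n : K) * x ^ i)‖ * ‖θh ((n : K) * x ^ i)‖ ≤ Nat.card M := by
      nlinarith
    have h4 : ‖Λ (x ^ i)‖ ≤ 1 := by
      calc ‖Λ (x ^ i)‖ ≤ (Nat.card M : ℝ)⁻¹
            * ∑ n : M, ‖η ((n : K) * x ^ i)‖ * ‖θh ((n : K) * x ^ i)‖ := h1
        _ ≤ (Nat.card M : ℝ)⁻¹ * (Nat.card M : ℝ) :=
            mul_le_mul_of_nonneg_left h3 (inv_nonneg.2 hMpos.le)
        _ = 1 := inv_mul_cancel₀ hMpos.ne'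
    have h5 := norm_nonneg (Λ (x ^ i))
    nlinarith
  obtain ⟨ζ, hζ⟩ : ∃ ζ : ℂ, IsPrimitiveRoot ζ m := ⟨_, Complex.isPrimitiveRoot_exp m hm0.ne'⟩
  obtain ⟨r, hr, hrsum⟩ := fram_spec hΛc x m hm0 hΛxm ζ hζ
  have hrsumN : ∑ j ∈ Finset.range m, r j = e := by
    rw [hΛ1] at hrsum
    exact_mod_cast hrsum
  have hpars := hh_parseval m hm0 ζ hζ (fun j => (r j : ℂ))
  have hpars2 : ∑ i ∈ Finset.range m, ‖Λ (x ^ i)‖ ^ 2
      = (m : ℝ) * ∑ j ∈ Finset.range m, (r j : ℝ) ^ 2 := by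
    have h1 : ∀ i ∈ Finset.range m, ‖Λ (x ^ i)‖ ^ 2
        = ‖∑ j ∈ Finset.range m, (ζ ^ j) ^ i * (r j : ℂ)‖ ^ 2 := by
      intro i _
      rw [hr i]
    rw [Finset.sum_congr rfl h1, hpars]
    congr 1
    refine Finset.sum_congr rfl fun j _ => ?_
    rw [Complex.norm_natCast]
  have hsplit : ∑ i ∈ Finset.range m, ‖Λ (x ^ i)‖ ^ 2 ≤ (e : ℝ) ^ 2 + ((m : ℝ) - 1) := by
    have h4 : ‖Λ (x ^ 0)‖ ^ 2 + ∑ i ∈ (Finset.range m).erase 0, ‖Λ (x ^ i)‖ ^ 2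
        = ∑ i ∈ Finset.range m, ‖Λ (x ^ i)‖ ^ 2 :=
      Finset.add_sum_erase _ (fun i => ‖Λ (x ^ i)‖ ^ 2) (Finset.mem_range.2 hm0)
    have h0 : ‖Λ (x ^ 0)‖ ^ 2 = (e : ℝ) ^ 2 := by
      rw [pow_zero, hΛ1, Complex.norm_natCast]
    have h1 : ∑ i ∈ (Finset.range m).erase 0, ‖Λ (x ^ i)‖ ^ 2
        ≤ ∑ _i ∈ (Finset.range m).erase 0, (1 : ℝ) := by
      apply Finset.sum_le_sum
      intro i hi
      rw [Finset.mem_erase, Finset.mem_range] at hi
      exact hΛle i (fun hdvd => hi.1 (Nat.eq_zero_of_dvd_of_lt hdvd hi.2))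
    rw [Finset.sum_const, Finset.card_erase_of_mem (Finset.mem_range.2 hm0), Finset.card_range,
      nsmul_eq_mul, mul_one, Nat.cast_sub (by omega : 1 ≤ m), Nat.cast_one] at h1
    rw [← h4, h0]
    linarith
  have hsq : (m : ℝ) * ∑ j ∈ Finset.range m, (r j : ℝ) ^ 2 ≤ (e : ℝ) ^ 2 + m - 1 := by
    rw [← hpars2]
    linarith
  obtain ⟨k₀, hk₀⟩ := Helper2.classInner_char_nat hη hη
  have hKcard : (Nat.card K : ℝ) = (m : ℝ) * Nat.card M := by
    have h1 := fram_bij M x m hm0 hgen hxM (fun _ => (1 : ℝ))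
    simp only [Finset.sum_const, Finset.card_univ, Finset.card_range, nsmul_eq_mul,
      mul_one] at h1
    rw [Nat.card_eq_fintype_card, Nat.card_eq_fintype_card]
    exact h1
  have hηsum : ∑ k : K, ‖η k‖ ^ 2 = ((e : ℝ) ^ 2 + ((m : ℝ) - 1)) * Nat.card M := by
    have h4 : ∑ n : M, ‖η ((n : K) * x ^ 0)‖ ^ 2
        + ∑ i ∈ (Finset.range m).erase 0, ∑ n : M, ‖η ((n : K) * x ^ i)‖ ^ 2
        = ∑ i ∈ Finset.range m, ∑ n : M, ‖η ((n : K) * x ^ i)‖ ^ 2 :=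
      Finset.add_sum_erase _ (fun i => ∑ n : M, ‖η ((n : K) * x ^ i)‖ ^ 2)
        (Finset.mem_range.2 hm0)
    have h0 : ∑ n : M, ‖η ((n : K) * x ^ 0)‖ ^ 2 = (e : ℝ) ^ 2 * Nat.card M := by
      have h1 : ∀ n : M, ‖η ((n : K) * x ^ 0)‖ ^ 2 = (e : ℝ) ^ 2 * ‖θ n‖ ^ 2 := by
        intro n
        rw [pow_zero, mul_one, hηM n, norm_mul, Complex.norm_natCast, mul_pow]
      rw [Finset.sum_congr rfl (fun n _ => h1 n), ← Finset.mul_sum, Helper24.irr_norm_sum hθ]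
    have h1 : ∑ i ∈ (Finset.range m).erase 0, ∑ n : M, ‖η ((n : K) * x ^ i)‖ ^ 2
        = ((m : ℝ) - 1) * Nat.card M := by
      have h2 : ∀ i ∈ (Finset.range m).erase 0,
          ∑ n : M, ‖η ((n : K) * x ^ i)‖ ^ 2 = (Nat.card M : ℝ) := by
        intro i hi
        rw [Finset.mem_erase, Finset.mem_range] at hi
        exact hcos i (fun hdvd => hi.1 (Nat.eq_zero_of_dvd_of_lt hdvd hi.2))
      rw [Finset.sum_congr rfl h2, Finset.sum_const,
        Finset.card_erase_of_mem (Finset.mem_range.2 hm0), Finset.card_range, nsmul_eq_mul,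
        Nat.cast_sub (by omega : 1 ≤ m), Nat.cast_one]
    rw [fram_bij M x m hm0 hgen hxM (fun k => ‖η k‖ ^ 2), ← h4, h0, h1]
    ring
  have hk₀' : ∑ k : K, ‖η k‖ ^ 2 = (k₀ : ℝ) * Nat.card K := by
    unfold classInner at hk₀
    have hK0 : (Nat.card K : ℂ) ≠ 0 := by exact_mod_cast Nat.card_pos.ne'
    have h1 : ∑ g : K, η g * conj (η g) = (k₀ : ℂ) * Nat.card K := by
      rw [← hk₀, mul_comm, ← mul_assoc, mul_inv_cancel₀ hK0, one_mul]
    apply Complex.ofReal_injective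
    push_cast
    rw [← h1]
    refine Finset.sum_congr rfl fun g _ => ?_
    rw [Complex.mul_conj']
  have hkm : k₀ * m + 1 = e ^ 2 + m := by
    have h1 : (k₀ : ℝ) * ((m : ℝ) * Nat.card M)
        = ((e : ℝ) ^ 2 + ((m : ℝ) - 1)) * Nat.card M := by
      rw [← hKcard, ← hk₀', hηsum]
    have h2 : (k₀ : ℝ) * m = (e : ℝ) ^ 2 + ((m : ℝ) - 1) := by
      have h3 : ((k₀ : ℝ) * m) * Nat.card M
          = ((e : ℝ) ^ 2 + ((m : ℝ) - 1)) * Nat.card M := by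
        rw [← h1]
        ring
      exact mul_right_cancel₀ hMpos.ne' h3
    have h4 : ((k₀ * m + 1 : ℕ) : ℝ) = ((e ^ 2 + m : ℕ) : ℝ) := by
      push_cast
      linarith
    exact_mod_cast h4
  exact fram_numth m e hm r hrsumN hsq k₀ hkm

end Cfsg.Agent.Helper21
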