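import Mathlib
import Cfsg.Agent.Helper21.FRB

/-!
S4454: fully ramified characters and Frobenius quotients, final assembly.
-/

set_option autoImplicit false

namespace Cfsg.Agent.Helper21

open Cfsg
open scoped ComplexConjugate

theorem fram_main {Γ : Type*} [Group Γ] [Fintype Γ] (G N : Subgroup Γ) [hG : G.Normal]
    [hN : N.Normal] [Fintype G] [Fintype N] (hNG : N ≤ G) (hGlt : G ≠ ⊤)
    (hcyc : IsCyclic (Γ ⧸ G))
    (hfrob : ∀ x : Γ, x ∉ G → ∀ g : Γ, g ∈ G → x * g * x⁻¹ * g⁻¹ ∈ N → g ∈ N)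
    (θ : N → ℂ) (hθ : IsIrrCharacter N θ)
    (hinv : ∀ (x : Γ) (n : N), θ ⟨x * n * x⁻¹, hN.conj_mem n n.2 x⟩ = θ n)
    (χ : G → ℂ) (hχ : IsIrrCharacter G χ) (e : ℕ)
    (hram : indFun (N.subgroupOf G) (fun n : N.subgroupOf G => θ ⟨(n : G), n.2⟩)
      = fun g => (e : ℂ) * χ g) :
    (G.index : ℤ) ∣ (e : ℤ) - 1 ∨ (G.index : ℤ) ∣ (e : ℤ) + 1 := by
  classical
  obtain ⟨hcard, hχN, hχ0⟩ := fram_basic G N hNG θ hθ hinv χ hχ e hram
  have hχinv : ∀ (x : Γ) (g : G), χ ⟨x * g * x⁻¹, hG.conj_mem g g.2 x⟩ = χ g := by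
    intro x g
    by_cases hg : (g : Γ) ∈ N
    · have h1 : χ g = (e : ℂ) * θ ⟨g, hg⟩ := hχN ⟨g, hg⟩
      have h2 : χ ⟨x * g * x⁻¹, hG.conj_mem g g.2 x⟩
          = (e : ℂ) * θ ⟨x * g * x⁻¹, hN.conj_mem g hg x⟩ :=
        hχN ⟨x * g * x⁻¹, hN.conj_mem g hg x⟩
      have h3 : θ ⟨x * g * x⁻¹, hN.conj_mem g hg x⟩ = θ ⟨g, hg⟩ := hinv x ⟨g, hg⟩
      rw [h2, h3, h1]
    · have h1 : ((⟨x * g * x⁻¹, hG.conj_mem g g.2 x⟩ : G) : Γ) ∉ N := by
        intro h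
        apply hg
        have h' := hN.conj_mem _ h x⁻¹
        simpa [mul_assoc] using h'
      rw [hχ0 _ h1, hχ0 g hg]
  obtain ⟨ψ, hψ, hψG⟩ := S0886.result G hcyc χ hχ hχinv
  have hψc := Helper24.isCharacter_of_irr hψ
  have hψN : ∀ n : N, ψ (n : Γ) = (e : ℂ) * θ n := by
    intro n
    have h1 := hψG ⟨n, hNG n.2⟩
    rw [← hχN n]
    exact h1
  have hirrG : IsIrrCharacter G (fun g : G => ψ g) := by
    have h : (fun g : G => ψ g) = χ := funext hψG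
    rw [h]
    exact hχ
  have hGsum : ∀ z : Γ, ∑ g : G, ‖ψ ((g : Γ) * z)‖ ^ 2 = (Nat.card G : ℝ) :=
    fun z => fram_coset_sum G hψc hirrG z
  have hle : ∀ z : Γ, z ∉ G → ∑ n : N, ‖ψ ((n : Γ) * z)‖ ^ 2 ≤ (Nat.card N : ℝ) := by
    intro z hz
    rw [← fram_ind_sum N z (fun g => ‖ψ g‖ ^ 2)]
    exact fram_count G N hNG hcyc hfrob hψc (fun z' => by
      rw [fram_ind_sum G z' (fun g => ‖ψ g‖ ^ 2)]
      exact hGsum z') z hz
  have hdouble : ∀ z : Γ, ∑ g : G, ∑ n : N, ‖ψ ((n : Γ) * ((g : Γ) * z))‖ ^ 2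
      = (Nat.card N : ℝ) * Nat.card G := by
    intro z
    rw [Finset.sum_comm]
    have h1 : ∀ n : N, ∑ g : G, ‖ψ ((n : Γ) * ((g : Γ) * z))‖ ^ 2 = (Nat.card G : ℝ) := by
      intro n
      rw [← hGsum z]
      exact Fintype.sum_equiv (Equiv.mulLeft (⟨n, hNG n.2⟩ : G)) _ _ (fun g => by
        show ‖ψ ((n : Γ) * ((g : Γ) * z))‖ ^ 2
          = ‖ψ ((((⟨n, hNG n.2⟩ : G) * g : G) : Γ) * z)‖ ^ 2
        rw [Subgroup.coe_mul, mul_assoc])
    rw [Finset.sum_congr rfl (fun n _ => h1 n), Finset.sum_const, Finset.card_univ,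
      nsmul_eq_mul, Nat.card_eq_fintype_card (α := N)]
  have heq : ∀ z : Γ, z ∉ G → ∑ n : N, ‖ψ ((n : Γ) * z)‖ ^ 2 = (Nat.card N : ℝ) := by
    intro z hz
    have hzg : ∀ g : G, (g : Γ) * z ∉ G := fun g h => hz (by
      have h' := G.mul_mem (G.inv_mem g.2) h
      simpa using h')
    have h1 : ∑ g : G, ((Nat.card N : ℝ) - ∑ n : N, ‖ψ ((n : Γ) * ((g : Γ) * z))‖ ^ 2)
        = 0 := by
      rw [Finset.sum_sub_distrib, hdouble z, Finset.sum_const, Finset.card_univ, nsmul_eq_mul,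
        Nat.card_eq_fintype_card (α := G)]
      ring
    have h2 := (Finset.sum_eq_zero_iff_of_nonneg
      (fun g _ => sub_nonneg.2 (hle _ (hzg g)))).1 h1 1 (Finset.mem_univ _)
    rw [Subgroup.coe_one, one_mul] at h2
    linarith
  -- a generator of Γ / G
  obtain ⟨q, hq⟩ := (isCyclic_iff_exists_zpowers_eq_top (α := Γ ⧸ G)).1 hcyc
  obtain ⟨x, rfl⟩ := QuotientGroup.mk_surjective q
  obtain ⟨m, hm⟩ : ∃ m : ℕ, m = G.index := ⟨_, rfl⟩
  have hord : orderOf (x : Γ ⧸ G) = m := by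
    rw [hm, Subgroup.index_eq_card, ← Nat.card_zpowers, hq, Subgroup.card_top]
  have hm2 : 2 ≤ m := by
    have h0 : m ≠ 0 := by
      rw [hm]
      exact Subgroup.index_ne_zero_of_finite
    have h1 : m ≠ 1 := by
      rw [hm]
      exact fun h => hGlt (Subgroup.index_eq_one.1 h)
    omega
  have hm0 : 0 < m := by omega
  have hxG : ∀ i : ℕ, x ^ i ∈ G ↔ m ∣ i := by
    intro i
    rw [← QuotientGroup.eq_one_iff, QuotientGroup.mk_pow, ← hord, orderOf_dvd_iff_pow_eq_one]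
  have hx1 : x ∉ G := by
    intro h
    have h1 := (hxG 1).1 (by simpa using h)
    have h2 := Nat.le_of_dvd one_pos h1
    omega
  have hxmN : x ^ m ∈ N := by
    apply hfrob x hx1 (x ^ m) ((hxG m).2 dvd_rfl)
    have h1 : x * x ^ m * x⁻¹ * (x ^ m)⁻¹ = 1 := by group
    rw [h1]
    exact N.one_mem
  have hxN : ∀ i : ℕ, x ^ i ∈ N ↔ m ∣ i := by
    intro i
    constructor
    · intro h
      exact (hxG i).1 (hNG h)
    · rintro ⟨k, rfl⟩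
      rw [pow_mul]
      exact N.pow_mem hxmN k
  -- the subgroup H = N ⟨x⟩
  obtain ⟨H, hH⟩ : ∃ H : Subgroup Γ, H = N ⊔ Subgroup.zpowers x := ⟨_, rfl⟩
  have hNH : N ≤ H := by
    rw [hH]
    exact le_sup_left
  have hxH : x ∈ H := by
    rw [hH]
    exact (le_sup_right : Subgroup.zpowers x ≤ N ⊔ Subgroup.zpowers x) (Subgroup.mem_zpowers x)
  have hHmem : ∀ h ∈ H, ∃ n ∈ N, ∃ i : ℕ, h = n * x ^ i := by
    intro h hh
    rw [hH] at hh
    obtain ⟨n, hn, y, hy, rfl⟩ := Subgroup.mem_sup_of_normal_left.1 hh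
    obtain ⟨i, hi⟩ := (Submonoid.mem_powers_iff y x).1 ((mem_powers_iff_mem_zpowers).2 hy)
    exact ⟨n, hn, i, by rw [hi]⟩
  haveI : Fintype H := Fintype.ofFinite H
  haveI : Fintype (N.subgroupOf H) := Fintype.ofFinite _
  have hgenK : ∀ k : H, ∃ n ∈ N.subgroupOf H, ∃ i : ℕ, k = n * (⟨x, hxH⟩ : H) ^ i := by
    intro k
    obtain ⟨n, hn, i, hi⟩ := hHmem k k.2
    refine ⟨⟨n, hNH hn⟩, Subgroup.mem_subgroupOf.2 hn, i, ?_⟩
    apply Subtype.ext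
    exact hi
  have hxMK : ∀ i : ℕ, (⟨x, hxH⟩ : H) ^ i ∈ N.subgroupOf H ↔ m ∣ i := by
    intro i
    rw [Subgroup.mem_subgroupOf]
    exact hxN i
  obtain ⟨α, hα⟩ : ∃ α : N.subgroupOf H ≃* N, ∀ n : N.subgroupOf H,
      ((α n : N) : Γ) = ((n : H) : Γ) :=
    ⟨Subgroup.subgroupOfEquivOfLe hNH, fun n => rfl⟩
  have hθ' : IsIrrCharacter (N.subgroupOf H) (θ ∘ α) := Helper2.isIrrCharacter_comp_equiv α hθ
  have hinv' : ∀ (k : H) (n : N.subgroupOf H),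
      (θ ∘ α) ⟨k * n * k⁻¹, (inferInstance : (N.subgroupOf H).Normal).conj_mem n n.2 k⟩
        = (θ ∘ α) n := by
    intro k n
    have h1 := hinv (k : Γ) (α n)
    have h2 : α ⟨k * n * k⁻¹, (inferInstance : (N.subgroupOf H).Normal).conj_mem n n.2 k⟩
        = ⟨(k : Γ) * (α n : Γ) * (k : Γ)⁻¹, hN.conj_mem (α n) (α n).2 (k : Γ)⟩ := by
      apply Subtype.ext
      rw [hα]
      show (k : Γ) * ((n : H) : Γ) * (k : Γ)⁻¹ = (k : Γ) * (α n : Γ) * (k : Γ)⁻¹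
      rw [hα]
    show θ (α ⟨k * n * k⁻¹, _⟩) = θ (α n)
    rw [h2]
    exact h1
  have hηc : IsCharacter H (fun h : H => ψ h) := Helper24.isCharacter_restrict H hψc
  have hηM : ∀ n : N.subgroupOf H, (fun h : H => ψ h) n = (e : ℂ) * (θ ∘ α) n := by
    intro n
    show ψ ((n : H) : Γ) = (e : ℂ) * θ (α n)
    rw [← hα n]
    exact hψN (α n)
  have hcosK : ∀ i : ℕ, ¬ m ∣ i →
      ∑ n : N.subgroupOf H, ‖(fun h : H => ψ h) ((n : H) * (⟨x, hxH⟩ : H) ^ i)‖ ^ 2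
        = (Nat.card (N.subgroupOf H) : ℝ) := by
    intro i hi
    have hxi : x ^ i ∉ G := fun h => hi ((hxG i).1 h)
    rw [Nat.card_congr α.toEquiv, ← heq (x ^ i) hxi]
    exact Fintype.sum_equiv α.toEquiv _ _ (fun n => by
      show ‖ψ (((n : H) : Γ) * x ^ i)‖ ^ 2 = ‖ψ (((α n : N) : Γ) * x ^ i)‖ ^ 2
      rw [hα n])
  have hfinal := fram_lemmaL (N.subgroupOf H) (⟨x, hxH⟩ : H) m hm2 hgenK hxMK (θ ∘ α) hθ' hinv'
    (fun h : H => ψ h) hηc e hηM hcosK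
  rw [← hm]
  exact hfinal

end Cfsg.Agent.Helper21
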