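import Mathlib
import Cfsg.Agent.Helper21.FTBound
import Cfsg.Agent.Helper6.Kernel
import Cfsg.Agent.Helper2.CharConstituent
import Cfsg.Agent.Helper2.CharComplete
import Cfsg.Agent.Helper2.CharOrtho

/-!
The Feit–Thompson bound, part 2: `(1 + χ(1))² > |H|` (S0898), as a reduction to part 1.
-/

set_option autoImplicit false

namespace Cfsg.Agent.Helper21

open Cfsg
open scoped ComplexConjugate

/-- An irreducible character that is trivial on a subgroup whose normal closure is the whole
group is the principal character. -/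
theorem ftq_trivial {G : Type*} [Group G] [Fintype G] (H : Subgroup G)
    (hncl : ∀ M : Subgroup G, M.Normal → H ≤ M → M = ⊤) {φ : G → ℂ} (hφ : IsIrrCharacter G φ)
    (htriv : ∀ h ∈ H, φ h = φ 1) : φ = fun _ => 1 := by
  have hφc := Helper24.isCharacter_of_irr hφ
  let K : Subgroup G :=
    { carrier := {g | φ g = φ 1}
      one_mem' := rfl
      mul_mem' := fun {a b} ha hb => by
        show φ (a * b) = φ 1
        rw [Helper6.char_mul_of_eq_degree hφc ha b]
        exact hb
      inv_mem' := fun {a} ha => by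
        show φ a⁻¹ = φ 1
        have := Helper6.char_mul_of_eq_degree hφc ha a⁻¹
        rw [mul_inv_cancel] at this
        exact this.symm }
  have hKn : K.Normal := ⟨fun n hn g => by
    show φ (g * n * g⁻¹) = φ 1
    rw [Helper24.char_conj_invariant hφc n g]
    exact hn⟩
  have hK := hncl K hKn (fun h hh => htriv h hh)
  have hall : ∀ g, φ g = φ 1 := fun g => by
    have : g ∈ K := by
      rw [hK]
      trivial
    exact this
  have hd := Helper24.charDegree_spec hφc
  have hsum := Helper24.irr_norm_sum hφ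
  have h1 : ∑ g : G, ‖φ g‖ ^ 2 = (Nat.card G : ℝ) * (charDegree φ : ℝ) ^ 2 := by
    simp only [hall, hd]
    simp [Finset.sum_const, Finset.card_univ, Nat.card_eq_fintype_card]
  rw [hsum] at h1
  have hGpos : (0 : ℝ) < Nat.card G := by exact_mod_cast Nat.card_pos
  have h2 : (charDegree φ : ℝ) ^ 2 = 1 :=
    (mul_left_cancel₀ hGpos.ne' (h1.symm.trans (mul_one _).symm))
  have h3 : charDegree φ = 1 := by
    have : (charDegree φ) ^ 2 = 1 := by exact_mod_cast h2
    rcases Nat.pow_eq_one.1 this with h | h
    · exact h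
    · exact absurd h (by norm_num)
  funext g
  rw [hall g, hd, h3]
  simp

/-- The additive functional used to compare the restriction to `H` with the degree. -/
theorem ftq_L_exists {G : Type*} [Group G] [Fintype G] (H : Subgroup G) [Fintype H] :
    ∃ L : (G → ℂ) →+ ℝ, ∀ φ : G → ℂ, L φ
      = Real.sqrt (Nat.card H) * (classInner (fun h : H => φ h) (fun _ => 1)).re - (φ 1).re
        - (Real.sqrt (Nat.card H) - 1) * (classInner φ (fun _ => 1)).re := by
  refine ⟨{ toFun := fun φ => Real.sqrt (Nat.card H)
              * (classInner (fun h : H => φ h) (fun _ => 1)).re - (φ 1).re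
              - (Real.sqrt (Nat.card H) - 1) * (classInner φ (fun _ => 1)).re
            map_zero' := ?_
            map_add' := ?_ }, fun φ => rfl⟩
  · have e1 : (fun h : H => (0 : G → ℂ) h) = (0 : H → ℂ) := rfl
    rw [e1, Helper2.classInner_zero_left, Helper2.classInner_zero_left]
    simp
  · intro φ ψ
    have e1 : (fun h : H => (φ + ψ) h) = (fun h : H => φ h) + (fun h : H => ψ h) := rfl
    rw [e1, Helper2.classInner_add_left, Helper2.classInner_add_left]
    simp only [Pi.add_apply, Complex.add_re]
    ring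

/-- For a character of an abelian group, the norm is at least the degree. -/
theorem ftq_norm_ge_deg {K : Type*} [Group K] [Fintype K] (hK : ∀ a b : K, a * b = b * a)
    (l : List (K → ℂ)) (hl : ∀ φ ∈ l, IsIrrCharacter K φ) :
    (l.sum 1).re ≤ (classInner l.sum l.sum).re := by
  induction l with
  | nil =>
    simp [Helper2.classInner_zero_left]
  | cons φ t ih =>
    have hφ := hl φ (List.mem_cons_self ..)
    have ht : ∀ ψ ∈ t, IsIrrCharacter K ψ := fun ψ hψ => hl ψ (List.mem_cons_of_mem _ hψ)
    have ih' := ih ht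
    have hT : IsCharacter K t.sum :=
      Helper2.isCharacter_list_sum t (fun ψ hψ => Helper24.isCharacter_of_irr (ht ψ hψ))
    obtain ⟨n, hn⟩ := Helper2.classInner_char_nat hT (Helper24.isCharacter_of_irr hφ)
    have hn' : classInner φ t.sum = (n : ℂ) := by
      rw [← Helper2.classInner_conj_symm, hn]
      simp
    have h1 : classInner φ φ = 1 := by
      rw [Helper2.classInner_irr hφ hφ, if_pos rfl]
    rw [List.sum_cons, Helper2.classInner_add_left, Helper2.classInner_add_right,
      Helper2.classInner_add_right, h1, hn, hn', Pi.add_apply,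
      Helper2.irr_abelian_linear hK hφ]
    simp only [Complex.add_re, Complex.one_re, Complex.natCast_re]
    have : (0 : ℝ) ≤ n := Nat.cast_nonneg n
    linarith

theorem ftq_list_sum_nonpos (l : List ℝ) (h : ∀ x ∈ l, x ≤ 0) : l.sum ≤ 0 := by
  induction l with
  | nil => simp
  | cons a t ih =>
    rw [List.sum_cons]
    have h1 := h a (List.mem_cons_self ..)
    have h2 := ih (fun x hx => h x (List.mem_cons_of_mem _ hx))
    linarith

/-- **Feit–Thompson bound, part 2**, assuming part 1 for all irreducible characters. -/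
theorem ftq_part2 {G : Type*} [Group G] [Fintype G] (H : Subgroup G) [Fintype H]
    (hab : ∀ a ∈ H, ∀ b ∈ H, a * b = b * a)
    (part1 : ∀ ψ : G → ℂ, IsIrrCharacter G ψ → (∃ h ∈ H, ψ h ≠ ψ 1) →
      (ψ 1).re ^ 2 > (Nat.card H : ℝ) * (classInner (fun h : H => ψ h) (fun _ => 1)).re ^ 2)
    (χ : G → ℂ) (hχ : IsIrrCharacter G χ) (hχ1 : χ 1 ≠ 1)
    (hncl : ∀ M : Subgroup G, M.Normal → H ≤ M → M = ⊤) :
    (1 + (χ 1).re) ^ 2 > (Nat.card H : ℝ) := by
  classical
  have hχc := Helper24.isCharacter_of_irr hχ
  have hd := Helper24.charDegree_spec hχc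
  have hdpos := Helper24.irr_degree_pos hχ
  obtain ⟨f, hf⟩ : ∃ f : ℕ, f = charDegree χ := ⟨_, rfl⟩
  rw [← hf] at hd hdpos
  have hf2 : 2 ≤ f := by
    rcases Nat.lt_or_ge f 2 with h | h
    · exfalso
      apply hχ1
      have : f = 1 := by omega
      rw [hd, this]
      simp
    · exact h
  have hf2' : (2 : ℝ) ≤ f := by exact_mod_cast hf2
  obtain ⟨r, hr⟩ : ∃ r : ℝ, r = Real.sqrt (Nat.card H) := ⟨_, rfl⟩
  have hr0 : 0 ≤ r := by rw [hr]; exact Real.sqrt_nonneg _
  have hr2 : r ^ 2 = (Nat.card H : ℝ) := by rw [hr]; exact Real.sq_sqrt (Nat.cast_nonneg _)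
  obtain ⟨L, hL⟩ := ftq_L_exists (G := G) H
  rw [← hr] at hL
  have hone_irr : IsIrrCharacter G (fun _ => (1 : ℂ)) := Helper25.isIrrCharacter_one
  have hLirr : ∀ φ, IsIrrCharacter G φ → L φ ≤ 0 ∧ (φ ≠ (fun _ => (1 : ℂ)) → L φ < 0) := by
    intro φ hφ
    by_cases h1 : φ = fun _ => (1 : ℂ)
    · refine ⟨le_of_eq ?_, fun h => absurd h1 h⟩
      rw [hL, h1]
      have a1 : classInner (fun _ : H => (1 : ℂ)) (fun _ => 1) = 1 := by
        have := Helper2.classInner_irr (Helper25.isIrrCharacter_one (G := H))
          (Helper25.isIrrCharacter_one (G := H))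
        rw [if_pos rfl] at this
        exact this
      have a2 : classInner (fun _ : G => (1 : ℂ)) (fun _ => 1) = 1 := by
        have := Helper2.classInner_irr hone_irr hone_irr
        rw [if_pos rfl] at this
        exact this
      rw [a1, a2]
      simp
    · have hlt : L φ < 0 := by
        have htr : ∃ h ∈ H, φ h ≠ φ 1 := by
          by_contra hno
          push_neg at hno
          exact h1 (ftq_trivial H hncl hφ hno)
        have hp := part1 φ hφ htr
        have hin : classInner φ (fun _ => (1 : ℂ)) = 0 := by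
          rw [Helper2.classInner_irr hφ hone_irr, if_neg h1]
        rw [hL, hin]
        simp only [Complex.zero_re, mul_zero, sub_zero]
        have hdφ := Helper24.charDegree_spec (Helper24.isCharacter_of_irr hφ)
        have hd0 : 0 ≤ (φ 1).re := by
          rw [hdφ]
          simp
        have h2 : (r * (classInner (fun h : H => φ h) (fun _ => 1)).re) ^ 2 < (φ 1).re ^ 2 := by
          rw [mul_pow, hr2]
          exact hp
        have h3 := (abs_lt.1 (abs_lt_of_sq_lt_sq h2 hd0)).2
        linarith
      exact ⟨hlt.le, fun _ => hlt⟩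
  have hΘ : IsCharacter G (χ * fun g => conj (χ g)) :=
    Helper2.IsCharacter.mul hχc (Helper2.isCharacter_conj hχc)
  obtain ⟨l, hl, hΘl⟩ := Helper2.IsCharacter.exists_list hΘ
  have hsumχ := Helper24.irr_norm_sum hχ
  have hGpos : (0 : ℝ) < Nat.card G := by exact_mod_cast Nat.card_pos
  have hex : ∃ φ ∈ l, φ ≠ fun _ => (1 : ℂ) := by
    by_contra hno
    push_neg at hno
    have hrep : l = List.replicate l.length (fun _ => (1 : ℂ)) := List.eq_replicate_of_mem hno
    have hconst : ∀ g, (χ * fun g => conj (χ g)) g = (l.length : ℂ) := by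
      intro g
      rw [hΘl, hrep, List.sum_replicate]
      simp
    have hnorm : ∀ g, ‖χ g‖ ^ 2 = (f : ℝ) ^ 2 := by
      intro g
      have h1 := hconst g
      have h2 := hconst 1
      simp only [Pi.mul_apply] at h1 h2
      rw [← h2, hd] at h1
      have : ((‖χ g‖ ^ 2 : ℝ) : ℂ) = (((f : ℝ) ^ 2 : ℝ) : ℂ) := by
        push_cast
        rw [← Complex.mul_conj', h1]
        simp
        ring
      exact_mod_cast this
    simp only [hnorm] at hsumχ
    rw [Finset.sum_const, Finset.card_univ, nsmul_eq_mul, ← Nat.card_eq_fintype_card] at hsumχ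
    have : (f : ℝ) ^ 2 = 1 := mul_left_cancel₀ hGpos.ne' (hsumχ.trans (mul_one _).symm)
    nlinarith
  obtain ⟨φ₀, hφ₀l, hφ₀1⟩ := hex
  have hLΘ : L (χ * fun g => conj (χ g)) < 0 := by
    rw [hΘl, (List.perm_cons_erase hφ₀l).sum_eq, List.sum_cons, map_add, map_list_sum]
    have h1 := (hLirr φ₀ (hl φ₀ hφ₀l)).2 hφ₀1
    have h2 : ((l.erase φ₀).map L).sum ≤ 0 := by
      apply ftq_list_sum_nonpos
      intro x hx
      obtain ⟨φ, hφ, rfl⟩ := List.mem_map.1 hx
      exact (hLirr φ (hl φ (List.mem_of_mem_erase hφ))).1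
    linarith
  rw [hL] at hLΘ
  have e1 : classInner (χ * fun g => conj (χ g)) (fun _ => (1 : ℂ)) = 1 := by
    have h := Helper2.classInner_irr hχ hχ
    rw [if_pos rfl] at h
    have e : classInner (χ * fun g => conj (χ g)) (fun _ => (1 : ℂ)) = classInner χ χ := by
      unfold classInner
      simp
    rw [e, h]
  have e2 : ((χ * fun g => conj (χ g)) 1).re = (f : ℝ) ^ 2 := by
    simp only [Pi.mul_apply]
    rw [hd]
    simp
    ring
  have e3 : (f : ℝ)
      ≤ (classInner (fun h : H => (χ * fun g => conj (χ g)) h) (fun _ => (1 : ℂ))).re := by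
    have hHab : ∀ a b : H, a * b = b * a := fun a b => Subtype.ext (hab a a.2 b b.2)
    obtain ⟨lH, hlH, hres⟩ :=
      Helper2.IsCharacter.exists_list (Helper24.isCharacter_restrict H hχc)
    have := ftq_norm_ge_deg hHab lH hlH
    rw [← hres] at this
    have e4 : classInner (fun h : H => (χ * fun g => conj (χ g)) h) (fun _ => (1 : ℂ))
        = classInner (fun h : H => χ h) (fun h : H => χ h) := by
      unfold classInner
      simp
    rw [e4]
    have e5 : ((fun h : H => χ h) 1).re = (f : ℝ) := by
      show (χ ((1 : H) : G)).re = f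
      rw [Subgroup.coe_one, hd]
      simp
    rw [e5] at this
    exact this
  rw [e1, e2] at hLΘ
  simp only [Complex.one_re, mul_one] at hLΘ
  rw [hd]
  simp only [Complex.natCast_re]
  have hrs := mul_le_mul_of_nonneg_left e3 hr0
  have hrf : r < f + 1 := by nlinarith
  rw [← hr2]
  nlinarith

end Cfsg.Agent.Helper21
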