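import Mathlib
import Cfsg.Agent.Helper21.HHAmbient
import Cfsg.Agent.Helper21.FTPart2
import Cfsg.Agent.Helper24.LinearChar
import Cfsg.Agent.Helper2.CharOrtho
import Cfsg.Agent.Helper2.CharDecomp

/-!
Preparations for the Feit–Thompson / Blichfeldt normal Sylow theorem (S0899):
abelian Sylow subgroups, intersections of Sylow subgroups, the transfer kernel.
-/

set_option autoImplicit false

namespace Cfsg.Agent.Helper21

open Cfsg

/-- If all irreducible constituents of the restriction of a faithful character to `Q` are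
linear, then `Q` is abelian. -/
theorem fs_comm_of_linear {G : Type*} [Group G] [Finite G] {n : ℕ}
    (ρ : Representation ℂ G (Fin n → ℂ)) (hρ : Function.Injective ρ)
    (Q : Subgroup G) (l : List (Q → ℂ)) (hl : ∀ φ ∈ l, IsIrrCharacter Q φ)
    (hsum : (fun g : Q => ρ.character g) = l.sum) (hlin : ∀ φ ∈ l, φ 1 = 1) :
    ∀ a ∈ Q, ∀ b ∈ Q, a * b = b * a := by
  intro a ha b hb
  obtain ⟨a', ha'⟩ : ∃ a' : Q, (a' : G) = a := ⟨⟨a, ha⟩, rfl⟩
  obtain ⟨b', hb'⟩ : ∃ b' : Q, (b' : G) = b := ⟨⟨b, hb⟩, rfl⟩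
  have hall : ∀ φ ∈ l, φ (a' * b' * a'⁻¹ * b'⁻¹) = φ 1 := by
    intro φ hφ
    have hmul := Helper24.linear_char_mul (Helper24.isCharacter_of_irr (hl φ hφ)) (hlin φ hφ)
    rw [hmul, hmul, hmul]
    have e : φ a' * φ b' * φ a'⁻¹ * φ b'⁻¹ = (φ a' * φ a'⁻¹) * (φ b' * φ b'⁻¹) := by ring
    rw [e, ← hmul, ← hmul, mul_inv_cancel, mul_inv_cancel, hlin φ hφ, mul_one]
  have h1 := hh_list_eval l _ _ hall
  rw [← hsum] at h1
  have h2 : ρ.character (a * b * a⁻¹ * b⁻¹) = (n : ℂ) := by
    have h0 : ((a' * b' * a'⁻¹ * b'⁻¹ : Q) : G) = a * b * a⁻¹ * b⁻¹ := by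
      simp [ha', hb']
    rw [← h0]
    refine h1.trans ?_
    show ρ.character ((1 : Q) : G) = _
    rw [Subgroup.coe_one, Representation.char_one]
    simp
  have h3 := hh_one_of_char ρ _ h2
  have h4 : a * b * a⁻¹ * b⁻¹ = 1 := hρ (by rw [h3, map_one])
  calc a * b = (a * b * a⁻¹ * b⁻¹) * (b * a) := by group
    _ = b * a := by rw [h4, one_mul]

/-- `p`-subgroups of a group with a faithful representation of degree `< p` are abelian. -/
theorem fs_pgroup_comm {G : Type*} [Group G] [Finite G] (p : ℕ) [Fact p.Prime] {n : ℕ}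
    (ρ : Representation ℂ G (Fin n → ℂ)) (hρ : Function.Injective ρ) (hn : n < p)
    (Q : Subgroup G) (hQ : IsPGroup p Q) : ∀ a ∈ Q, ∀ b ∈ Q, a * b = b * a := by
  classical
  haveI : Fintype Q := Fintype.ofFinite Q
  have hψ : IsCharacter Q (fun g : Q => ρ.character g) :=
    Helper24.isCharacter_restrict Q ⟨n, ρ, rfl⟩
  obtain ⟨l, hl, hsum⟩ := Helper2.IsCharacter.exists_list hψ
  obtain ⟨m, hm, hle⟩ := hh_list_deg l hl
  have hmn : m = n := by
    have h1 : (fun g : Q => ρ.character g) 1 = (n : ℂ) := by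
      show ρ.character ((1 : Q) : G) = _
      rw [Subgroup.coe_one, Representation.char_one]
      simp
    rw [hsum, hm] at h1
    exact_mod_cast h1
  refine fs_comm_of_linear ρ hρ Q l hl hsum ?_
  intro φ hφ
  have hd := Helper24.charDegree_spec (Helper24.isCharacter_of_irr (hl φ hφ))
  have hdvd := Helper2.irr_degree_dvd_card (hl φ hφ)
  obtain ⟨k, hk⟩ := (IsPGroup.iff_card.1 hQ)
  rw [hk] at hdvd
  obtain ⟨j, hj, hjeq⟩ := (Nat.dvd_prime_pow (Fact.out)).1 hdvd
  have hlt : charDegree φ < p := lt_of_le_of_lt ((hle φ hφ).trans hmn.le) hn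
  have h1 : charDegree φ = 1 := by
    rcases Nat.eq_zero_or_pos j with h0 | h0
    · rw [hjeq, h0, pow_zero]
    · exfalso
      have : p ≤ charDegree φ := by
        rw [hjeq]
        calc p = p ^ 1 := (pow_one p).symm
          _ ≤ p ^ j := Nat.pow_le_pow_right (Fact.out : p.Prime).pos h0
      omega
  rw [hd, h1]
  simp

/-- Two distinct Sylow subgroups meet inside the center, if all proper subgroups have normal
Sylow subgroups and `p`-subgroups are abelian. -/
theorem fs_inter_center {G : Type*} [Group G] [Finite G] (p : ℕ) [Fact p.Prime]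
    (hab : ∀ Q : Subgroup G, IsPGroup p Q → ∀ a ∈ Q, ∀ b ∈ Q, a * b = b * a)
    (hsub : ∀ L : Subgroup G, L ≠ ⊤ → ∀ Q : Sylow p L, (Q : Subgroup L).Normal)
    (Q₁ Q₂ : Sylow p G) (hne : Q₁ ≠ Q₂) :
    (Q₁ : Subgroup G) ⊓ (Q₂ : Subgroup G) ≤ Subgroup.center G := by
  intro z hz
  obtain ⟨hz1, hz2⟩ := Subgroup.mem_inf.1 hz
  by_contra hzc
  obtain ⟨L, hL⟩ : ∃ L : Subgroup G, L = Subgroup.centralizer ({z} : Set G) := ⟨_, rfl⟩
  have hLtop : L ≠ ⊤ := by
    intro htop
    apply hzc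
    rw [Subgroup.mem_center_iff]
    intro g
    have hg : g ∈ L := by rw [htop]; exact Subgroup.mem_top g
    rw [hL, Subgroup.mem_centralizer_iff] at hg
    exact (hg z rfl).symm
  have h1 : (Q₁ : Subgroup G) ≤ L := by
    intro a ha
    rw [hL, Subgroup.mem_centralizer_iff]
    intro h hh
    rw [Set.mem_singleton_iff] at hh
    subst hh
    exact hab Q₁ Q₁.isPGroup' _ hz1 _ ha
  have h2 : (Q₂ : Subgroup G) ≤ L := by
    intro a ha
    rw [hL, Subgroup.mem_centralizer_iff]
    intro h hh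
    rw [Set.mem_singleton_iff] at hh
    subst hh
    exact hab Q₂ Q₂.isPGroup' _ hz2 _ ha
  have hnorm := hsub L hLtop (Q₁.subtype h1)
  haveI : Unique (Sylow p L) := Sylow.unique_of_normal (Q₁.subtype h1) hnorm
  have heq : Q₁.subtype h1 = Q₂.subtype h2 := Subsingleton.elim _ _
  apply hne
  apply Sylow.ext
  have e1 := congrArg (fun S : Sylow p L => (S : Subgroup L).map L.subtype) heq
  simp only [Sylow.coe_subtype] at e1
  rwa [Subgroup.subgroupOf_map_subtype, Subgroup.subgroupOf_map_subtype, inf_of_le_left h1,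
    inf_of_le_left h2] at e1

/-- The kernel of the transfer into an abelian Sylow subgroup. -/
theorem fs_transfer {G : Type*} [Group G] [Finite G] (p : ℕ) [Fact p.Prime] (P : Sylow p G)
    (hab : ∀ a ∈ (P : Subgroup G), ∀ b ∈ (P : Subgroup G), a * b = b * a) :
    ∃ K₀ : Subgroup G, K₀.Normal ∧ K₀.index ∣ Nat.card (P : Subgroup G) ∧
      ∀ z ∈ Subgroup.center G, z ∈ (P : Subgroup G) → z ∈ K₀ → z = 1 := by
  letI : CommGroup (P : Subgroup G) :=
    { (inferInstance : Group (P : Subgroup G)) with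
      mul_comm := fun a b => Subtype.ext (hab _ a.2 _ b.2) }
  obtain ⟨V, hV⟩ : ∃ V : G →* (P : Subgroup G),
      V = MonoidHom.transfer (MonoidHom.id (P : Subgroup G)) := ⟨_, rfl⟩
  refine ⟨V.ker, inferInstance, ?_, ?_⟩
  · rw [Subgroup.index_ker]
    exact Subgroup.card_subgroup_dvd_card _
  · intro z hzc hzP hzK
    have key : ∀ (k : ℕ) (g₀ : G), g₀⁻¹ * z ^ k * g₀ ∈ (P : Subgroup G) →
        g₀⁻¹ * z ^ k * g₀ = z ^ k := by
      intro k g₀ _
      have hc : z ^ k ∈ Subgroup.center G := Subgroup.pow_mem _ hzc k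
      rw [Subgroup.mem_center_iff] at hc
      rw [mul_assoc, ← hc g₀, ← mul_assoc, inv_mul_cancel, one_mul]
    have h1 := MonoidHom.transfer_eq_pow (MonoidHom.id (P : Subgroup G)) z key
    rw [← hV] at h1
    rw [MonoidHom.mem_ker] at hzK
    rw [hzK] at h1
    have h2 : z ^ (P : Subgroup G).index = 1 := by
      have := congrArg (fun t : (P : Subgroup G) => (t : G)) h1
      simpa using this.symm
    have h3 : orderOf z ∣ (P : Subgroup G).index := orderOf_dvd_of_pow_eq_one h2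
    have h4 : orderOf z ∣ Nat.card (P : Subgroup G) := by
      have : orderOf (⟨z, hzP⟩ : (P : Subgroup G)) ∣ Nat.card (P : Subgroup G) :=
        orderOf_dvd_natCard _
      rwa [Subgroup.orderOf_mk] at this
    have h5 : orderOf z = 1 := Nat.eq_one_of_dvd_coprimes P.card_coprime_index h4 h3
    exact orderOf_eq_one_iff.1 h5

end Cfsg.Agent.Helper21
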