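import Mathlib
import Cfsg.Agent.Helper21.FSNormalA

/-!
The Feit–Thompson / Blichfeldt normal Sylow theorem (S0899): the core argument.
-/

set_option autoImplicit false

namespace Cfsg.Agent.Helper21

open Cfsg

theorem fs_list_comm {Γ : Type*} [Group Γ] (l : List (Γ → ℂ))
    (hl : ∀ φ ∈ l, IsIrrCharacter Γ φ) (hlin : ∀ φ ∈ l, φ 1 = 1) (a b : Γ) :
    l.sum (a * b * a⁻¹ * b⁻¹) = l.sum 1 := by
  refine hh_list_eval l _ _ ?_
  intro φ hφ
  have hmul := Helper24.linear_char_mul (Helper24.isCharacter_of_irr (hl φ hφ)) (hlin φ hφ)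
  rw [hmul, hmul, hmul]
  have e : φ a * φ b * φ a⁻¹ * φ b⁻¹ = (φ a * φ a⁻¹) * (φ b * φ b⁻¹) := by ring
  rw [e, ← hmul, ← hmul, mul_inv_cancel, mul_inv_cancel, hlin φ hφ, mul_one]

/-- The case where the Sylow subgroup meets the center trivially: the Feit–Thompson bound
applies. -/
theorem fs_case_top {G : Type*} [Group G] [Finite G] (p : ℕ) [Fact p.Prime] {n : ℕ}
    (ρ : Representation ℂ G (Fin n → ℂ)) (hρ : Function.Injective ρ)
    (habQ : ∀ Q : Subgroup G, IsPGroup p Q → ∀ a ∈ Q, ∀ b ∈ Q, a * b = b * a)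
    (hsub : ∀ L : Subgroup G, L ≠ ⊤ → ∀ Q : Sylow p L, (Q : Subgroup L).Normal)
    (P : Sylow p G) (hcard : (n + 1) ^ 2 ≤ Nat.card (P : Subgroup G))
    (hZ : (P : Subgroup G) ⊓ Subgroup.center G = ⊥) :
    (P : Subgroup G).Normal := by
  classical
  by_contra hPn
  haveI : Fintype G := Fintype.ofFinite G
  haveI : Fintype (P : Subgroup G) := Fintype.ofFinite _
  have habP := habQ P P.isPGroup'
  have hone : ∀ g : G, g ∉ Subgroup.center G → ∀ a b : G,
      Subgroup.centralizer ({g} : Set G) ⊓ (P : Subgroup G).map (MulAut.conj a).toMonoidHom ≠ ⊥ →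
      Subgroup.centralizer ({g} : Set G) ⊓ (P : Subgroup G).map (MulAut.conj b).toMonoidHom ≠ ⊥ →
      (P : Subgroup G).map (MulAut.conj a).toMonoidHom
        = (P : Subgroup G).map (MulAut.conj b).toMonoidHom := by
    intro g hg a b ha hb
    obtain ⟨L, hL⟩ : ∃ L : Subgroup G, L = Subgroup.centralizer ({g} : Set G) := ⟨_, rfl⟩
    rw [← hL] at ha hb
    have hLtop : L ≠ ⊤ := by
      intro htop
      apply hg
      rw [Subgroup.mem_center_iff]
      intro x
      have hx : x ∈ L := by rw [htop]; exact Subgroup.mem_top x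
      rw [hL, Subgroup.mem_centralizer_iff] at hx
      exact (hx g rfl).symm
    obtain ⟨S⟩ : Nonempty (Sylow p L) := inferInstance
    have hSn := hsub L hLtop S
    haveI : Unique (Sylow p L) := Sylow.unique_of_normal S hSn
    obtain ⟨Pc, hPc⟩ := (S.isPGroup'.map L.subtype).exists_le_sylow
    have key : ∀ c : G, L ⊓ (P : Subgroup G).map (MulAut.conj c).toMonoidHom ≠ ⊥ →
        (c • P : Sylow p G) = Pc := by
      intro c hc
      by_contra hne
      have hcen := fs_inter_center p habQ hsub (c • P) Pc hne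
      obtain ⟨z, hz, hz1⟩ :
          ∃ z ∈ L ⊓ (P : Subgroup G).map (MulAut.conj c).toMonoidHom, z ≠ 1 := by
        by_contra hcon
        push_neg at hcon
        exact hc ((Subgroup.eq_bot_iff_forall _).2 hcon)
      obtain ⟨hzL, hzP⟩ := Subgroup.mem_inf.1 hz
      have hzPc : z ∈ (Pc : Subgroup G) := by
        apply hPc
        have hpg : IsPGroup p
            (((P : Subgroup G).map (MulAut.conj c).toMonoidHom).subgroupOf L) :=
          (P.isPGroup'.map _).comap_subtype
        obtain ⟨S', hS'⟩ := hpg.exists_le_sylow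
        have hS'S : S' = S := Subsingleton.elim _ _
        rw [hS'S] at hS'
        exact ⟨⟨z, hzL⟩, hS' (Subgroup.mem_subgroupOf.2 hzP), rfl⟩
      have hzP' : z ∈ ((c • P : Sylow p G) : Subgroup G) := hzP
      have hzc : z ∈ Subgroup.center G := hcen (Subgroup.mem_inf.2 ⟨hzP', hzPc⟩)
      obtain ⟨w, hw, hwz⟩ := Subgroup.mem_map.1 hzP
      have hwz' : c * w * c⁻¹ = z := hwz
      have hw' : w = z := by
        have hzc' := Subgroup.mem_center_iff.1 hzc c⁻¹
        have e0 : w = c⁻¹ * z * c := by rw [← hwz']; group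
        rw [e0, hzc']
        group
      rw [hw'] at hw
      have hmem : z ∈ (P : Subgroup G) ⊓ Subgroup.center G := Subgroup.mem_inf.2 ⟨hw, hzc⟩
      rw [hZ, Subgroup.mem_bot] at hmem
      exact hz1 hmem
    have e1 := key a ha
    have e2 := key b hb
    have e3 : ((a • P : Sylow p G) : Subgroup G) = ((b • P : Sylow p G) : Subgroup G) := by
      rw [e1, e2]
    exact e3
  have hncl : ∀ M : Subgroup G, M.Normal → (P : Subgroup G) ≤ M → M = ⊤ := by
    intro M hM hPM
    by_contra hMtop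
    have hn1 := hsub M hMtop (P.subtype hPM)
    haveI := Sylow.characteristic_of_normal (P.subtype hPM) hn1
    have hn2 : (((P.subtype hPM : Sylow p M) : Subgroup M).map M.subtype).Normal :=
      inferInstance
    rw [Sylow.coe_subtype, Subgroup.subgroupOf_map_subtype, inf_of_le_left hPM] at hn2
    exact hPn hn2
  obtain ⟨l, hl, hsum⟩ :=
    Helper2.IsCharacter.exists_list (⟨n, ρ, rfl⟩ : IsCharacter G ρ.character)
  obtain ⟨m, hm, hle⟩ := hh_list_deg l hl
  have hone' : ρ.character 1 = (n : ℂ) := by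
    rw [Representation.char_one]
    simp
  have hmn : m = n := by
    have h0 := hone'
    rw [hsum, hm] at h0
    exact_mod_cast h0
  have hlin : ∀ φ ∈ l, φ 1 = 1 := by
    intro φ hφ
    by_contra h1
    have hb := ftq_part2 (P : Subgroup G) habP
      (fun ψ hψ hk => ft_part1 (P : Subgroup G) habP hZ hone ψ hψ hk) φ (hl φ hφ) h1 hncl
    have hd := Helper24.charDegree_spec (Helper24.isCharacter_of_irr (hl φ hφ))
    rw [hd] at hb
    have hb' : (Nat.card (P : Subgroup G) : ℝ) < (1 + (charDegree φ : ℝ)) ^ 2 := by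
      simpa using hb
    have hb'' : Nat.card (P : Subgroup G) < (1 + charDegree φ) ^ 2 := by exact_mod_cast hb'
    have h3 : (1 + charDegree φ) ^ 2 ≤ (n + 1) ^ 2 :=
      Nat.pow_le_pow_left (by have := hle φ hφ; omega) 2
    omega
  have hcomm : ∀ a b : G, a * b = b * a := by
    intro a b
    have h1 := fs_list_comm l hl hlin a b
    rw [← hsum, hone'] at h1
    have h3 := hh_one_of_char ρ _ h1
    have h4 : a * b * a⁻¹ * b⁻¹ = 1 := hρ (by rw [h3, map_one])
    calc a * b = (a * b * a⁻¹ * b⁻¹) * (b * a) := by group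
      _ = b * a := by rw [h4, one_mul]
  exact hPn ⟨fun h hh g => by rw [hcomm g h, mul_inv_cancel_right]; exact hh⟩

/-- The case where the transfer kernel is proper: it is a normal `p`-complement, and the
Hall–Higman type lemma shows that the Sylow subgroup centralizes it. -/
theorem fs_case_ntop {G : Type*} [Group G] [Finite G] (p : ℕ) [Fact p.Prime] {n : ℕ}
    (ρ : Representation ℂ G (Fin n → ℂ)) (hρ : Function.Injective ρ) (hn : n + 1 < p)
    (habQ : ∀ Q : Subgroup G, IsPGroup p Q → ∀ a ∈ Q, ∀ b ∈ Q, a * b = b * a)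
    (hsub : ∀ L : Subgroup G, L ≠ ⊤ → ∀ Q : Sylow p L, (Q : Subgroup L).Normal)
    (P : Sylow p G) (K₀ : Subgroup G) [hK₀n : K₀.Normal] (hK₀top : K₀ ≠ ⊤)
    (hidx : K₀.index ∣ Nat.card (P : Subgroup G))
    (hK₀z : ∀ z ∈ Subgroup.center G, z ∈ (P : Subgroup G) → z ∈ K₀ → z = 1) :
    (P : Subgroup G).Normal := by
  classical
  by_contra hPn
  obtain ⟨P₂, hP₂⟩ : ∃ P₂ : Sylow p G, P₂ ≠ P := by
    by_contra hcon
    push_neg at hcon
    haveI : Subsingleton (Sylow p G) := ⟨fun a b => (hcon a).trans (hcon b).symm⟩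
    exact hPn (Sylow.normal_of_subsingleton P)
  have hcen := fs_inter_center p habQ hsub P₂ P hP₂
  obtain ⟨S₀⟩ : Nonempty (Sylow p K₀) := inferInstance
  have hS₀n := hsub K₀ hK₀top S₀
  haveI := Sylow.characteristic_of_normal S₀ hS₀n
  haveI hNn : ((S₀ : Subgroup K₀).map K₀.subtype).Normal := inferInstance
  have hNp : IsPGroup p ((S₀ : Subgroup K₀).map K₀.subtype) := S₀.isPGroup'.map _
  have hN1 : (S₀ : Subgroup K₀).map K₀.subtype ≤ P₂ := hNp.le_sylow_of_normal P₂
  have hN2 : (S₀ : Subgroup K₀).map K₀.subtype ≤ P := hNp.le_sylow_of_normal P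
  have hS₀bot : (S₀ : Subgroup K₀) = ⊥ := by
    rw [Subgroup.eq_bot_iff_forall]
    intro s hs
    have hsN : (s : G) ∈ (S₀ : Subgroup K₀).map K₀.subtype := ⟨s, hs, rfl⟩
    have h1 := hK₀z (s : G) (hcen (Subgroup.mem_inf.2 ⟨hN1 hsN, hN2 hsN⟩)) (hN2 hsN) s.2
    exact Subtype.ext h1
  have hcop : (Nat.card K₀).Coprime p := by
    have hnd : ¬ p ∣ Nat.card K₀ := fun hd => S₀.ne_bot_of_dvd_card hd hS₀bot
    exact ((Nat.Prime.coprime_iff_not_dvd (Fact.out : p.Prime)).2 hnd).symm
  by_cases hcent : ∀ y ∈ (P : Subgroup G), ∀ k ∈ K₀, y * k = k * y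
  · apply hPn
    rw [← Subgroup.normalizer_eq_top_iff]
    apply Subgroup.eq_top_of_card_eq
    apply Nat.dvd_antisymm (Subgroup.card_subgroup_dvd_card _)
    have h1 : Nat.card K₀ ∣ Nat.card (Subgroup.normalizer ((P : Subgroup G) : Set G)) := by
      apply Subgroup.card_dvd_of_le
      refine le_trans ?_ (Subgroup.centralizer_le_normalizer _)
      intro k hk
      rw [Subgroup.mem_centralizer_iff]
      intro y hy
      exact hcent y hy k hk
    have h2 : Nat.card (P : Subgroup G)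
        ∣ Nat.card (Subgroup.normalizer ((P : Subgroup G) : Set G)) :=
      Subgroup.card_dvd_of_le Subgroup.le_normalizer
    have hcop2 : (Nat.card K₀).Coprime (Nat.card (P : Subgroup G)) := by
      obtain ⟨k, hk⟩ := IsPGroup.iff_card.1 P.isPGroup'
      rw [hk]
      exact Nat.Coprime.pow_right k hcop
    have h3 := Nat.Coprime.mul_dvd_of_dvd_of_dvd hcop2 h1 h2
    refine dvd_trans ?_ h3
    rw [← Subgroup.card_mul_index K₀]
    exact Nat.mul_dvd_mul_left _ hidx
  · push_neg at hcent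
    obtain ⟨y, hy, k, hk, hyk⟩ := hcent
    obtain ⟨C, hC⟩ : ∃ C : Subgroup G, C = Subgroup.centralizer (K₀ : Set G) := ⟨_, rfl⟩
    have hyC : y ∉ C := by
      intro h
      rw [hC, Subgroup.mem_centralizer_iff] at h
      exact hyk (h k hk).symm
    have hex : ∃ j : ℕ, y ^ p ^ j ∈ C := by
      obtain ⟨j, hj⟩ := P.isPGroup' ⟨y, hy⟩
      refine ⟨j, ?_⟩
      have h0 : y ^ p ^ j = 1 := by
        have := congrArg (fun t : (P : Subgroup G) => (t : G)) hj
        simpa using this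
      rw [h0]
      exact Subgroup.one_mem _
    obtain ⟨j₀, hj₀⟩ : ∃ j₀, j₀ = Nat.find hex := ⟨_, rfl⟩
    have hj₀spec : y ^ p ^ j₀ ∈ C := by rw [hj₀]; exact Nat.find_spec hex
    have hj₀pos : j₀ ≠ 0 := by
      intro h0
      rw [h0, pow_zero, pow_one] at hj₀spec
      exact hyC hj₀spec
    obtain ⟨i, hi⟩ : ∃ i, j₀ = i + 1 := Nat.exists_eq_succ_of_ne_zero hj₀pos
    obtain ⟨x, hx⟩ : ∃ x : G, x = y ^ p ^ i := ⟨_, rfl⟩
    have hxC : x ∉ C := by
      rw [hx]
      exact Nat.find_min hex (by rw [← hj₀, hi]; exact Nat.lt_succ_self i)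
    have hxpC : x ^ p ∈ C := by
      rw [hx, ← pow_mul, ← pow_succ, ← hi]
      exact hj₀spec
    have hxP : x ∈ (P : Subgroup G) := by rw [hx]; exact Subgroup.pow_mem _ hy _
    obtain ⟨b, hb⟩ := (IsPGroup.iff_orderOf.1 P.isPGroup') ⟨x, hxP⟩
    rw [Subgroup.orderOf_mk] at hb
    have hb0 : b ≠ 0 := by
      intro h0
      rw [h0, pow_zero, orderOf_eq_one_iff] at hb
      rw [hb] at hxC
      exact hxC (Subgroup.one_mem _)
    obtain ⟨a, ha⟩ : ∃ a, b = a + 1 := Nat.exists_eq_succ_of_ne_zero hb0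
    rw [ha] at hb
    have hxp : ∀ k ∈ K₀, x ^ p * k = k * x ^ p := by
      intro k hk
      rw [hC, Subgroup.mem_centralizer_iff] at hxpC
      exact (hxpC k hk).symm
    have hamb := hh_ambient p ρ hn K₀ hcop x a hb hxp
    apply hxC
    rw [hC, Subgroup.mem_centralizer_iff]
    intro k hk
    have h4 : x * k * x⁻¹ * k⁻¹ = 1 := hρ (by rw [hamb k hk, map_one])
    calc k * x = (x * k * x⁻¹ * k⁻¹)⁻¹ * (x * k) := by group
      _ = x * k := by rw [h4, inv_one, one_mul]

/-- Core of the normal Sylow theorem: a large Sylow subgroup is normal as soon as all proper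
subgroups have normal Sylow subgroups. -/
theorem fs_core {G : Type*} [Group G] [Finite G] (p : ℕ) [Fact p.Prime] {n : ℕ}
    (ρ : Representation ℂ G (Fin n → ℂ)) (hρ : Function.Injective ρ) (hn : n + 1 < p)
    (hsub : ∀ L : Subgroup G, L ≠ ⊤ → ∀ Q : Sylow p L, (Q : Subgroup L).Normal)
    (P : Sylow p G) (hcard : (n + 1) ^ 2 ≤ Nat.card (P : Subgroup G)) :
    (P : Subgroup G).Normal := by
  have habQ : ∀ Q : Subgroup G, IsPGroup p Q → ∀ a ∈ Q, ∀ b ∈ Q, a * b = b * a :=
    fun Q hQ => fs_pgroup_comm p ρ hρ (by omega) Q hQ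
  obtain ⟨K₀, hK₀n, hK₀idx, hK₀z⟩ := fs_transfer p P (habQ P P.isPGroup')
  by_cases htop : K₀ = ⊤
  · apply fs_case_top p ρ hρ habQ hsub P hcard
    rw [Subgroup.eq_bot_iff_forall]
    intro z hz
    obtain ⟨h1, h2⟩ := Subgroup.mem_inf.1 hz
    exact hK₀z z h2 h1 (by rw [htop]; exact Subgroup.mem_top z)
  · exact fs_case_ntop p ρ hρ hn habQ hsub P K₀ htop hK₀idx hK₀z

end Cfsg.Agent.Helper21
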