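import Mathlib
import Cfsg.Agent.Helper21.FSNormalB

/-!
The Feit–Thompson / Blichfeldt normal Sylow theorem (S0899): induction on the group order.
-/

set_option autoImplicit false

namespace Cfsg.Agent.Helper21

open Cfsg

universe u

/-- Inductive form of the normal Sylow theorem. The second alternative is phrased in a way that
passes to subgroups: inside every subgroup of order not divisible by `p ^ 2`, all elements of
order `p` generate the same subgroup. -/
theorem fs_main (p : ℕ) [Fact p.Prime] (n : ℕ) (hn : n + 1 < p) :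
    ∀ (N : ℕ) (G : Type u) [Group G] [Finite G], Nat.card G = N →
      ∀ ρ : Representation ℂ G (Fin n → ℂ), Function.Injective ρ →
      ((n + 1) ^ 2 ≤ p ∨ (∀ K : Subgroup G, ¬ p ^ 2 ∣ Nat.card K → ∀ x ∈ K, ∀ y ∈ K,
          orderOf x = p → orderOf y = p → y ∈ Subgroup.zpowers x)) →
      ∀ P : Sylow p G, (P : Subgroup G).Normal := by
  intro N
  induction N using Nat.strong_induction_on with
  | _ N ih =>
    intro G _ _ hN ρ hρ halt P
    have hsub : ∀ L : Subgroup G, L ≠ ⊤ → ∀ Q : Sylow p L, (Q : Subgroup L).Normal := by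
      intro L hL Q
      have hlt : Nat.card L < N := by
        rw [← hN]
        refine lt_of_le_of_ne (Subgroup.card_le_card_group L) ?_
        intro h
        exact hL (Subgroup.eq_top_of_card_eq L h)
      refine ih (Nat.card L) hlt L rfl (ρ.comp L.subtype) ?_ ?_ Q
      · intro a b hab
        exact Subtype.ext (hρ hab)
      · rcases halt with h | h
        · exact Or.inl h
        · right
          intro K hK x hx y hy hox hoy
          have hcard : Nat.card (K.map L.subtype) = Nat.card K :=
            Subgroup.card_map_of_injective L.subtype_injective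
          have h1 := h (K.map L.subtype) (by rw [hcard]; exact hK) x ⟨x, hx, rfl⟩ y
            ⟨y, hy, rfl⟩ (by rw [Subgroup.orderOf_coe]; exact hox)
            (by rw [Subgroup.orderOf_coe]; exact hoy)
          obtain ⟨i, hi⟩ := Subgroup.mem_zpowers_iff.1 h1
          exact Subgroup.mem_zpowers_iff.2 ⟨i, Subtype.ext (by simpa using hi)⟩
    by_cases hbot : (P : Subgroup G) = ⊥
    · rw [hbot]; infer_instance
    obtain ⟨k, hk⟩ := IsPGroup.iff_card.1 P.isPGroup'
    have hk0 : k ≠ 0 := by
      intro h0
      rw [h0, pow_zero] at hk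
      exact hbot (Subgroup.card_eq_one.1 hk)
    have hpk : p ≤ p ^ k := by
      calc p = p ^ 1 := (pow_one p).symm
        _ ≤ p ^ k := Nat.pow_le_pow_right (Fact.out : p.Prime).pos (by omega)
    rcases halt with h | h
    · apply fs_core p ρ hρ hn hsub P
      rw [hk]
      exact h.trans hpk
    · by_cases h2 : p ^ 2 ∣ Nat.card G
      · apply fs_core p ρ hρ hn hsub P
        have hk2 : 2 ≤ k := by
          have hfac : Nat.card (P : Subgroup G) = p ^ (Nat.card G).factorization p :=
            P.card_eq_multiplicity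
          rw [hk] at hfac
          have hinj := Nat.pow_right_injective (Fact.out : p.Prime).two_le hfac
          rw [hinj]
          exact (Nat.Prime.pow_dvd_iff_le_factorization (Fact.out) Nat.card_pos.ne').1 h2
        rw [hk]
        calc (n + 1) ^ 2 ≤ p ^ 2 := Nat.pow_le_pow_left (by omega) 2
          _ ≤ p ^ k := Nat.pow_le_pow_right (Fact.out : p.Prime).pos hk2
      · have hk1 : k = 1 := by
          by_contra hne
          apply h2
          have h3 : p ^ 2 ∣ p ^ k := pow_dvd_pow p (by omega)
          rw [← hk] at h3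
          exact h3.trans (Subgroup.card_subgroup_dvd_card _)
        rw [hk1, pow_one] at hk
        refine ⟨fun y hy g => ?_⟩
        by_cases hy1 : y = 1
        · rw [hy1, mul_one, mul_inv_cancel]; exact Subgroup.one_mem _
        · have hoy : orderOf y = p := by
            have hd := orderOf_dvd_natCard (⟨y, hy⟩ : (P : Subgroup G))
            rw [hk, Subgroup.orderOf_mk] at hd
            rcases (Nat.dvd_prime (Fact.out : p.Prime)).1 hd with h0 | h0
            · exact absurd (orderOf_eq_one_iff.1 h0) hy1
            · exact h0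
          have hog : orderOf (g * y * g⁻¹) = p := by
            have h4 := orderOf_injective (MulAut.conj g).toMonoidHom (MulAut.conj g).injective y
            rw [← hoy, ← h4]
            rfl
          have hmem := h ⊤ (by rw [Subgroup.card_top]; exact h2) y (Subgroup.mem_top y)
            (g * y * g⁻¹) (Subgroup.mem_top _) hoy hog
          exact (Subgroup.zpowers_le.2 hy) hmem

/-- From "every subgroup of order not divisible by `p ^ 2` has a normal Sylow `p`-subgroup" to
the subgroup-closed form used in `fs_main`. -/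
theorem fs_alt {G : Type*} [Group G] [Finite G] (p : ℕ) [Fact p.Prime]
    (h : ∀ K : Subgroup G, ¬ p ^ 2 ∣ Nat.card K → ∀ Q : Sylow p K, (Q : Subgroup K).Normal) :
    ∀ K : Subgroup G, ¬ p ^ 2 ∣ Nat.card K → ∀ x ∈ K, ∀ y ∈ K,
      orderOf x = p → orderOf y = p → y ∈ Subgroup.zpowers x := by
  intro K hK x hx y hy hox hoy
  obtain ⟨x', hx'⟩ : ∃ x' : K, (x' : G) = x := ⟨⟨x, hx⟩, rfl⟩
  obtain ⟨y', hy'⟩ : ∃ y' : K, (y' : G) = y := ⟨⟨y, hy⟩, rfl⟩
  have hox' : orderOf x' = p := by rw [← Subgroup.orderOf_coe, hx']; exact hox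
  have hoy' : orderOf y' = p := by rw [← Subgroup.orderOf_coe, hy']; exact hoy
  have hcx : Nat.card (Subgroup.zpowers x') = p := by rw [Nat.card_zpowers, hox']
  have hcy : Nat.card (Subgroup.zpowers y') = p := by rw [Nat.card_zpowers, hoy']
  have hpx : IsPGroup p (Subgroup.zpowers x') :=
    IsPGroup.of_card (n := 1) (by rw [hcx, pow_one])
  have hpy : IsPGroup p (Subgroup.zpowers y') :=
    IsPGroup.of_card (n := 1) (by rw [hcy, pow_one])
  obtain ⟨Q, hQ⟩ := hpx.exists_le_sylow
  obtain ⟨Q', hQ'⟩ := hpy.exists_le_sylow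
  have hQn := h K hK Q
  haveI : Unique (Sylow p K) := Sylow.unique_of_normal Q hQn
  have hQQ : Q' = Q := Subsingleton.elim _ _
  rw [hQQ] at hQ'
  obtain ⟨k, hk⟩ := IsPGroup.iff_card.1 Q.isPGroup'
  have hk1 : k ≤ 1 := by
    by_contra hne
    apply hK
    have h3 : p ^ 2 ∣ p ^ k := pow_dvd_pow p (by omega)
    rw [← hk] at h3
    exact h3.trans (Subgroup.card_subgroup_dvd_card _)
  have hle : Nat.card (Q : Subgroup K) ≤ Nat.card (Subgroup.zpowers x') := by
    rw [hcx, hk]
    calc p ^ k ≤ p ^ 1 := Nat.pow_le_pow_right (Fact.out : p.Prime).pos hk1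
      _ = p := pow_one p
  have heq : Subgroup.zpowers x' = (Q : Subgroup K) := Subgroup.eq_of_le_of_card_ge hQ hle
  have hmem : y' ∈ Subgroup.zpowers x' := by
    rw [heq]; exact hQ' (Subgroup.mem_zpowers y')
  obtain ⟨i, hi⟩ := Subgroup.mem_zpowers_iff.1 hmem
  refine Subgroup.mem_zpowers_iff.2 ⟨i, ?_⟩
  rw [← hx', ← hy', ← hi]
  simp

/-- **Feit–Thompson / Blichfeldt**: normal Sylow `p`-subgroups for faithful representations of
small degree. -/
theorem fs_normal_sylow {G : Type u} [Group G] [Finite G] (n : ℕ)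
    (ρ : Representation ℂ G (Fin n → ℂ)) (hρ : Function.Injective ρ) (p : ℕ) [Fact p.Prime]
    (h : (n + 1) ^ 2 ≤ p ∨ (n + 1 < p ∧ ∀ K : Subgroup G, ¬ p ^ 2 ∣ Nat.card K →
      ∀ Q : Sylow p K, (Q : Subgroup K).Normal)) (P : Sylow p G) :
    (P : Subgroup G).Normal := by
  have hn : n + 1 < p := by
    rcases h with h | h
    · have hp2 : 2 ≤ p := (Fact.out : p.Prime).two_le
      by_contra hc
      push_neg at hc
      nlinarith
    · exact h.1
  refine fs_main p n hn (Nat.card G) G rfl ρ hρ ?_ P
  rcases h with h | h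
  · exact Or.inl h
  · exact Or.inr (fs_alt p h.2)

end Cfsg.Agent.Helper21
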