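import Cfsg.Agent.S0142
import Cfsg.Agent.Helper2.CharBound
import Cfsg.Agent.Helper2.CharCenter
import Cfsg.Agent.Helper2.CharDecomp
import Cfsg.Agent.Helper24.CharBasic
import Cfsg.Agent.Helper24.CharInv
import Cfsg.Agent.Helper24.Schur
import Cfsg.Agent.Helper24.OneNonlinear
import Cfsg.Agent.Helper25.ListSum
import Mathlib

set_option autoImplicit false

namespace Cfsg.Agent.Helper21

open Cfsg

/-- Degrees of irreducible characters of a `p`-group are `1` or divisible by `p`. -/
theorem irr_degree_pgroup {P : Type*} [Group P] [Finite P] {p : ℕ} [hp : Fact p.Prime]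
    (hP : IsPGroup p P) {φ : P → ℂ} (hφ : IsIrrCharacter P φ) :
    charDegree φ = 1 ∨ p ∣ charDegree φ := by
  have hspec := Helper24.charDegree_spec (Helper24.isCharacter_of_irr hφ)
  obtain ⟨m, σ, hσ, rfl⟩ := hφ
  haveI := hσ
  haveI : Fintype P := Fintype.ofFinite P
  have h1 := Helper2.finrank_dvd_index_center σ
  rw [Module.finrank_fin_fun] at h1
  have h2 : σ.character 1 = (m : ℂ) := by
    rw [Representation.char_one, Module.finrank_fin_fun]
  have h3 : charDegree σ.character = m := by
    rw [h2] at hspec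
    exact_mod_cast hspec.symm
  rw [h3]
  obtain ⟨k, hk⟩ := hP.exists_card_eq
  have h4 : m ∣ p ^ k := by
    rw [← hk]
    exact dvd_trans h1 (Subgroup.index_dvd_card _)
  obtain ⟨j, -, rfl⟩ := (Nat.dvd_prime_pow hp.out).1 h4
  rcases Nat.eq_zero_or_pos j with rfl | hj
  · left
    simp
  · right
    exact dvd_pow_self p hj.ne'

/-- A character of degree `p` of a `p`-group does not vanish at a central element lying in the
commutator subgroup. -/
theorem char_ne_zero_of_center_commutator {P : Type*} [Group P] [Finite P] {p : ℕ}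
    [hp : Fact p.Prime] (hP : IsPGroup p P) {θ : P → ℂ} (hθ : IsCharacter P θ)
    (hdeg : θ 1 = p) (z : P) (hzc : z ∈ Subgroup.center P) (hzd : z ∈ commutator P) :
    θ z ≠ 0 := by
  classical
  have hp0 : (p : ℂ) ≠ 0 := by exact_mod_cast hp.out.ne_zero
  obtain ⟨l, hl, rfl⟩ := Helper2.IsCharacter.exists_list hθ
  have hsum := Helper25.list_sum_apply_one l hl
  rw [hdeg] at hsum
  have hsumN : (l.map (fun φ => charDegree φ)).sum = p := by exact_mod_cast hsum.symm
  by_cases hall : ∀ φ ∈ l, charDegree φ = 1
  · have hval : ∀ (l' : List (P → ℂ)), (∀ φ ∈ l', IsIrrCharacter P φ) →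
        (∀ φ ∈ l', charDegree φ = 1) → l'.sum z = l'.sum 1 := by
      intro l' hl' hall'
      induction l' with
      | nil => simp
      | cons φ l' ih =>
        rw [List.sum_cons, Pi.add_apply, Pi.add_apply,
          ih (fun ψ hψ => hl' ψ (List.mem_cons_of_mem _ hψ))
            (fun ψ hψ => hall' ψ (List.mem_cons_of_mem _ hψ))]
        congr 1
        have hφ := hl' φ List.mem_cons_self
        have h1 : φ 1 = 1 := by
          rw [Helper24.charDegree_spec (Helper24.isCharacter_of_irr hφ),
            hall' φ List.mem_cons_self]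
          simp
        rw [Helper24.linear_char_commutator (Helper24.isCharacter_of_irr hφ) h1 z hzd, h1]
    rw [hval l hl hall, hdeg]
    exact hp0
  · push_neg at hall
    obtain ⟨φ₀, hφ₀, hd₀⟩ := hall
    have hpd : p ∣ charDegree φ₀ :=
      (irr_degree_pgroup hP (hl φ₀ hφ₀)).resolve_left hd₀
    have hirr₀ := hl φ₀ hφ₀
    obtain ⟨l₁, l₂, rfl⟩ := List.append_of_mem hφ₀
    rw [List.map_append, List.sum_append, List.map_cons, List.sum_cons] at hsumN
    have hge : p ≤ charDegree φ₀ :=
      Nat.le_of_dvd (Helper24.irr_degree_pos hirr₀) hpd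
    have hnil : ∀ l' : List (P → ℂ), (∀ φ ∈ l', IsIrrCharacter P φ) →
        (l'.map (fun φ => charDegree φ)).sum = 0 → l' = [] := by
      intro l' hl' h0
      cases l' with
      | nil => rfl
      | cons φ l' =>
        exfalso
        rw [List.map_cons, List.sum_cons] at h0
        have := Helper24.irr_degree_pos (hl' φ List.mem_cons_self)
        omega
    have h1 : l₁ = [] := hnil l₁ (fun φ hφ => hl φ (List.mem_append_left _ hφ)) (by omega)
    have h2 : l₂ = [] := hnil l₂
      (fun φ hφ => hl φ (List.mem_append_right _ (List.mem_cons_of_mem _ hφ))) (by omega)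
    subst h1 h2
    simp only [List.nil_append, List.sum_cons, List.sum_nil, add_zero] at hdeg ⊢
    obtain ⟨c, hc, -⟩ := Helper24.char_central_mul hirr₀ z hzc
    have hpow : ∀ k : ℕ, φ₀ (z ^ k) = c ^ k * φ₀ 1 := by
      intro k
      induction k with
      | zero => simp
      | succ k ih => rw [pow_succ, hc, ih, pow_succ]; ring
    have hc0 : c ≠ 0 := by
      intro h0
      have h3 := hpow (orderOf z)
      rw [pow_orderOf_eq_one, h0, zero_pow (orderOf_pos z).ne', zero_mul, hdeg] at h3
      exact hp0 h3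
    have h3 := hpow 1
    rw [pow_one, pow_one, hdeg] at h3
    rw [h3]
    exact mul_ne_zero hc0 hp0

/-- A non-abelian `p`-group has a non-identity central element in its commutator subgroup. -/
theorem exists_center_commutator_ne_one {P : Type*} [Group P] [Finite P] {p : ℕ}
    [hp : Fact p.Prime] (hP : IsPGroup p P) (hna : ¬ ∀ a b : P, a * b = b * a) :
    ∃ z : P, z ∈ Subgroup.center P ∧ z ∈ commutator P ∧ z ≠ 1 := by
  classical
  haveI : Nontrivial (P ⧸ Subgroup.center P) := by
    by_contra hnt
    rw [not_nontrivial_iff_subsingleton] at hnt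
    apply hna
    intro a b
    have ha : (QuotientGroup.mk a : P ⧸ Subgroup.center P) = 1 := Subsingleton.elim _ _
    rw [QuotientGroup.eq_one_iff] at ha
    exact (Subgroup.mem_center_iff.1 ha b).symm
  have hQ : IsPGroup p (P ⧸ Subgroup.center P) := hP.to_quotient _
  haveI := hQ.center_nontrivial
  obtain ⟨⟨xb, hxb⟩, hxb1⟩ := exists_ne (1 : Subgroup.center (P ⧸ Subgroup.center P))
  obtain ⟨x, rfl⟩ := QuotientGroup.mk_surjective xb
  have hx : x ∉ Subgroup.center P := by
    intro h
    apply hxb1
    apply Subtype.ext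
    exact (QuotientGroup.eq_one_iff x).2 h
  have hcomm : ∀ g : P, x * g * x⁻¹ * g⁻¹ ∈ Subgroup.center P := by
    intro g
    have h1 := Subgroup.mem_center_iff.1 hxb (QuotientGroup.mk g)
    rw [← QuotientGroup.eq_one_iff]
    have h2 : ((x * g * x⁻¹ * g⁻¹ : P) : P ⧸ Subgroup.center P) =
        (QuotientGroup.mk x : P ⧸ Subgroup.center P) * QuotientGroup.mk g *
          (QuotientGroup.mk x)⁻¹ * (QuotientGroup.mk g)⁻¹ := rfl
    rw [h2, ← h1]
    group
  obtain ⟨g, hg⟩ : ∃ g : P, g * x ≠ x * g := by
    by_contra hcon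
    push_neg at hcon
    exact hx (Subgroup.mem_center_iff.2 hcon)
  refine ⟨x * g * x⁻¹ * g⁻¹, hcomm g, ?_, ?_⟩
  · rw [commutator_def]
    exact Subgroup.commutator_mem_commutator (Subgroup.mem_top x) (Subgroup.mem_top g)
  · intro h
    apply hg
    have h2 : x * g * x⁻¹ * g⁻¹ * (g * x) = g * x := by rw [h, one_mul]
    rw [← h2]
    group

/-- A finite group with a faithful irreducible character of prime degree `p` and order divisible
by `p ^ 2` has a nontrivial centre. -/
theorem center_ne_bot_of_faithful_degree_p {G : Type*} [Group G] [Finite G] (p : ℕ)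
    (hp : p.Prime) (χ : IrrCharacter G) (hdeg : χ.1 1 = p)
    (hfaith : ∀ g : G, χ.1 g = χ.1 1 → g = 1) (hdiv : p ^ 2 ∣ Nat.card G) :
    Subgroup.center G ≠ ⊥ := by
  classical
  intro hZ
  haveI : Fact p.Prime := ⟨hp⟩
  haveI : Fintype G := Fintype.ofFinite G
  obtain ⟨n, ρ, hρ, hχ⟩ := χ.2
  haveI := hρ
  have hn : n = p := by
    have h1 : χ.1 1 = (n : ℂ) := by
      rw [← hχ, Representation.char_one, Module.finrank_fin_fun]
    rw [hdeg] at h1
    exact_mod_cast h1.symm
  have step1 : ∀ x : G, Nat.Coprime p (Subgroup.centralizer ({x} : Set G)).index →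
      χ.1 x = 0 ∨ x = 1 := by
    intro x hx
    have hcop : Nat.Coprime (Module.finrank ℂ (Fin n → ℂ))
        (Subgroup.centralizer ({x} : Set G)).index := by
      rw [Module.finrank_fin_fun, hn]
      exact hx
    rcases Cfsg.Agent.S0142.result ρ x hcop with h0 | h1
    · left
      rw [← hχ]
      exact h0
    · right
      obtain ⟨w, hw, -⟩ := Helper2.character_scalar_of_norm_eq ρ x h1
      have hc : x ∈ Subgroup.center G := by
        rw [Subgroup.mem_center_iff]
        intro g
        have hcomm : ρ (g * x) = ρ (x * g) := by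
          rw [map_mul, map_mul, hw, mul_smul_comm, smul_mul_assoc, mul_one, one_mul]
        have h2 : ρ (g * x * (x * g)⁻¹) = ρ 1 := by
          rw [map_mul, hcomm, ← map_mul, mul_inv_cancel]
        have h3 : χ.1 (g * x * (x * g)⁻¹) = χ.1 1 := by
          rw [← hχ]
          unfold Representation.character
          rw [h2]
        exact mul_inv_eq_one.1 (hfaith _ h3)
      rw [hZ] at hc
      exact Subgroup.mem_bot.1 hc
  obtain ⟨P⟩ : Nonempty (Sylow p G) := inferInstance
  have hPcard : p ^ 2 ∣ Nat.card ↥(P : Subgroup G) := by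
    rw [P.card_eq_multiplicity]
    exact pow_dvd_pow p ((Nat.Prime.pow_dvd_iff_le_factorization hp Nat.card_pos.ne').1 hdiv)
  have hcent : ∀ x : G, (∀ y ∈ (P : Subgroup G), y * x = x * y) →
      Nat.Coprime p (Subgroup.centralizer ({x} : Set G)).index := by
    intro x hx
    have hle : (P : Subgroup G) ≤ Subgroup.centralizer ({x} : Set G) := by
      intro y hy
      rw [Subgroup.mem_centralizer_iff]
      intro h hh
      rw [Set.mem_singleton_iff.1 hh]
      exact (hx y hy).symm
    have hdvd : (Subgroup.centralizer ({x} : Set G)).index ∣ (P : Subgroup G).index :=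
      Subgroup.index_dvd_of_le hle
    exact (Nat.Prime.coprime_iff_not_dvd hp).2 (fun h => P.not_dvd_index (dvd_trans h hdvd))
  have hθ : IsCharacter ↥(P : Subgroup G) (fun h : ↥(P : Subgroup G) => χ.1 h) :=
    Helper24.isCharacter_restrict _ (Helper24.isCharacter_of_irr χ.2)
  by_cases hab : ∀ a b : ↥(P : Subgroup G), a * b = b * a
  · haveI : Fintype ↥(P : Subgroup G) := Fintype.ofFinite _
    obtain ⟨m, hm⟩ := Helper24.sum_character_eq hθ
    have hvan : ∀ b : ↥(P : Subgroup G), b ≠ 1 → χ.1 (b : G) = 0 := by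
      intro b hb
      have hb' : ∀ y ∈ (P : Subgroup G), y * (b : G) = (b : G) * y :=
        fun y hy => congrArg Subtype.val (hab ⟨y, hy⟩ b)
      rcases step1 (b : G) (hcent (b : G) hb') with h0 | h1
      · exact h0
      · exact absurd (Subtype.ext h1) hb
    have hsum : ∑ h : ↥(P : Subgroup G), χ.1 (h : G) = χ.1 1 := by
      rw [Finset.sum_eq_single (1 : ↥(P : Subgroup G))]
      · rfl
      · intro b _ hb
        exact hvan b hb
      · intro h
        exact absurd (Finset.mem_univ _) h
    rw [hm, hdeg] at hsum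
    have hN : Nat.card ↥(P : Subgroup G) * m = p := by exact_mod_cast hsum
    have h1 : p ^ 2 ∣ p := dvd_trans hPcard ⟨m, hN.symm⟩
    have h2 := Nat.le_of_dvd hp.pos h1
    have h3 : p < p ^ 2 := by
      have := hp.one_lt
      nlinarith
    omega
  · obtain ⟨z, hzc, hzd, hz1⟩ := exists_center_commutator_ne_one P.isPGroup' hab
    have hdeg' : (fun h : ↥(P : Subgroup G) => χ.1 h) 1 = (p : ℂ) := hdeg
    have hne := char_ne_zero_of_center_commutator P.isPGroup' hθ hdeg' z hzc hzd
    have hz' : ∀ y ∈ (P : Subgroup G), y * (z : G) = (z : G) * y :=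
      fun y hy => congrArg Subtype.val (Subgroup.mem_center_iff.1 hzc ⟨y, hy⟩)
    rcases step1 (z : G) (hcent (z : G) hz') with h0 | h1
    · exact hne h0
    · exact hz1 (Subtype.ext h1)

end Cfsg.Agent.Helper21
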