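import Mathlib
import Cfsg.Agent.Helper21.Frobenius

/-!
Frobenius: the number of elements whose order is divisible by `n` is divisible by the largest
divisor of the group order prime to `n`.
-/

set_option autoImplicit false

universe u

namespace Cfsg.Agent.Helper21

/-- `N / gcd N (n ^ N)` is prime to `n`. -/
theorem coprime_div_gcd_pow {N n : ℕ} (hN : 0 < N) :
    Nat.Coprime (N / Nat.gcd N (n ^ N)) n := by
  by_contra hne
  obtain ⟨p, hp, hpd⟩ := Nat.exists_prime_and_dvd hne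
  have hpM : p ∣ N / Nat.gcd N (n ^ N) := hpd.trans (Nat.gcd_dvd_left _ _)
  have hpn : p ∣ n := hpd.trans (Nat.gcd_dvd_right _ _)
  obtain ⟨v, N', hN', hNeq⟩ := Nat.exists_eq_pow_mul_and_not_dvd hN.ne' p hp.ne_one
  have hv : v ≤ N := by
    have h1 : v < p ^ v := Nat.lt_pow_self hp.one_lt
    have h2 : p ^ v ≤ N := Nat.le_of_dvd hN ⟨N', hNeq⟩
    omega
  have h3 : p ^ v ∣ Nat.gcd N (n ^ N) :=
    Nat.dvd_gcd ⟨N', hNeq⟩ ((pow_dvd_pow_of_dvd hpn v).trans (pow_dvd_pow n hv))
  have h4 : p ^ v * p ∣ Nat.gcd N (n ^ N) * (N / Nat.gcd N (n ^ N)) := mul_dvd_mul h3 hpM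
  rw [Nat.mul_div_cancel' (Nat.gcd_dvd_left _ _)] at h4
  have h5 : p ^ v * p ∣ p ^ v * N' := hNeq ▸ h4
  exact hN' ((Nat.mul_dvd_mul_iff_left (pow_pos hp.pos v)).1 h5)

/-- Conjugation invariance of the fibers used below. -/
theorem card_fiber_conj {G : Type*} [Group G] (n E : ℕ) (h u : G) :
    Nat.card {g : G // n ∣ orderOf g ∧ g ^ E = h * u * h⁻¹} =
      Nat.card {g : G // n ∣ orderOf g ∧ g ^ E = u} := by
  have ho : ∀ (a g : G), orderOf (a * g * a⁻¹) = orderOf g := fun a g => by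
    rw [← MulAut.conj_apply]; exact (MulAut.conj a).orderOf_eq g
  exact Nat.card_congr
    { toFun := fun g => ⟨h⁻¹ * g.1 * h, by
        have h1 : orderOf (h⁻¹ * g.1 * h) = orderOf g.1 := by
          have := ho h⁻¹ g.1; rwa [inv_inv] at this
        have h2 : (h⁻¹ * g.1 * h) ^ E = h⁻¹ * g.1 ^ E * h := by
          have := conj_pow (a := h⁻¹) (b := g.1) (i := E); rwa [inv_inv] at this
        refine ⟨by rw [h1]; exact g.2.1, ?_⟩
        rw [h2, g.2.2]; group⟩
      invFun := fun g => ⟨h * g.1 * h⁻¹, by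
        refine ⟨by rw [ho]; exact g.2.1, ?_⟩
        rw [conj_pow, g.2.2]⟩
      left_inv := fun g => Subtype.ext (show h * (h⁻¹ * g.1 * h) * h⁻¹ = g.1 by group)
      right_inv := fun g => Subtype.ext (show h⁻¹ * (h * g.1 * h⁻¹) * h = g.1 by group) }

/-- The number of elements of order divisible by `n` is divisible by the `n'`-part of `|G|`. -/
theorem card_orderOf_dvd_dvd {G : Type u} [Group G] [Finite G] (n : ℕ) :
    (Nat.card G / Nat.gcd (Nat.card G) (n ^ Nat.card G)) ∣
      Nat.card {g : G // n ∣ orderOf g} := by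
  classical
  haveI : Fintype G := Fintype.ofFinite G
  obtain ⟨A, hA⟩ : ∃ A, A = Nat.gcd (Nat.card G) (n ^ Nat.card G) := ⟨_, rfl⟩
  obtain ⟨M, hM⟩ : ∃ M, M = Nat.card G / Nat.gcd (Nat.card G) (n ^ Nat.card G) := ⟨_, rfl⟩
  rw [← hM]
  have hAM : A * M = Nat.card G := by
    rw [hA, hM]; exact Nat.mul_div_cancel' (Nat.gcd_dvd_left _ _)
  have hMn : Nat.Coprime M n := by rw [hM]; exact coprime_div_gcd_pow Nat.card_pos
  have hcop : Nat.Coprime A M := by
    have h1 : A ∣ n ^ Nat.card G := by rw [hA]; exact Nat.gcd_dvd_right _ _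
    exact Nat.Coprime.coprime_dvd_left h1 (Nat.Coprime.pow_left _ hMn.symm)
  have hMpos : 0 < M := by
    rcases Nat.eq_zero_or_pos M with h | h
    · rw [h, mul_zero] at hAM; exact absurd hAM.symm Nat.card_pos.ne'
    · exact h
  obtain ⟨E, hE1, hE0⟩ := Nat.chineseRemainder hcop 1 0
  obtain ⟨E', hE'0, hE'1⟩ := Nat.chineseRemainder hcop 0 1
  have hEE : E + E' ≡ 1 [MOD Nat.card G] := by
    rw [← hAM]
    exact (Nat.modEq_and_modEq_iff_modEq_mul hcop).1
      ⟨by simpa using hE1.add hE'0, by simpa using hE0.add hE'1⟩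
  have hME : M ∣ E := (Nat.modEq_zero_iff_dvd).1 hE0
  have hAE' : A ∣ E' := (Nat.modEq_zero_iff_dvd).1 hE'0
  have k1 : ∀ g : G, g ^ E * g ^ E' = g := by
    intro g
    rw [← pow_add]
    conv_rhs => rw [← pow_one g]
    exact pow_eq_pow_iff_modEq.2 (hEE.of_dvd (orderOf_dvd_natCard g))
  have k2 : ∀ g : G, (g ^ E) ^ A = 1 := by
    intro g
    obtain ⟨j, hj⟩ := hME
    have h1 : E * A = Nat.card G * j := by rw [hj, ← hAM]; ring
    rw [← pow_mul, h1, pow_mul, pow_card_eq_one', one_pow]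
  have k3 : ∀ g : G, (g ^ E') ^ M = 1 := by
    intro g
    obtain ⟨j, hj⟩ := hAE'
    have h1 : E' * M = Nat.card G * j := by rw [hj, ← hAM]; ring
    rw [← pow_mul, h1, pow_mul, pow_card_eq_one', one_pow]
  have k4 : ∀ u : G, u ^ A = 1 → u ^ E = u := by
    intro u hu
    conv_rhs => rw [← pow_one u]
    exact pow_eq_pow_iff_modEq.2 (hE1.of_dvd (orderOf_dvd_of_pow_eq_one hu))
  have k5 : ∀ u : G, u ^ A = 1 → u ^ E' = 1 := by
    intro u hu
    obtain ⟨j, hj⟩ := hAE'
    rw [hj, pow_mul, hu, one_pow]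
  have k6 : ∀ w : G, w ^ M = 1 → w ^ E = 1 := by
    intro w hw
    obtain ⟨j, hj⟩ := hME
    rw [hj, pow_mul, hw, one_pow]
  have k7 : ∀ w : G, w ^ M = 1 → w ^ E' = w := by
    intro w hw
    conv_rhs => rw [← pow_one w]
    exact pow_eq_pow_iff_modEq.2 (hE'1.of_dvd (orderOf_dvd_of_pow_eq_one hw))
  have k8 : ∀ g : G, n ∣ orderOf g ↔ n ∣ orderOf (g ^ E) := by
    intro g
    constructor
    · intro h
      have hcomm : Commute (g ^ E) (g ^ E') := (Commute.refl g).pow_pow E E'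
      have h1 : orderOf g ∣ Nat.lcm (orderOf (g ^ E)) (orderOf (g ^ E')) := by
        have := hcomm.orderOf_mul_dvd_lcm
        rwa [k1 g] at this
      have h2 : n ∣ orderOf (g ^ E) * orderOf (g ^ E') :=
        (h.trans h1).trans (Nat.lcm_dvd_mul _ _)
      have h3 : Nat.Coprime n (orderOf (g ^ E')) :=
        Nat.Coprime.coprime_dvd_right (orderOf_dvd_of_pow_eq_one (k3 g)) hMn.symm
      exact h3.dvd_of_dvd_mul_right h2
    · intro h
      exact h.trans (orderOf_pow_dvd E)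
  have key : ∀ u : G, u ^ A = 1 → n ∣ orderOf u →
      Nat.card {g : G // n ∣ orderOf g ∧ g ^ E = u} =
        Nat.card {w : Subgroup.centralizer ({u} : Set G) // w ^ M = 1} := by
    intro u hu hun
    have hcomm : ∀ w : Subgroup.centralizer ({u} : Set G), Commute u w.1 := fun w =>
      Subgroup.mem_centralizer_iff.1 w.2 u (Set.mem_singleton u)
    have hwM : ∀ w : {w : Subgroup.centralizer ({u} : Set G) // w ^ M = 1},
        w.1.1 ^ M = 1 := fun w => by
      have := congrArg Subtype.val w.2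
      simpa using this
    have F4 : ∀ w : {w : Subgroup.centralizer ({u} : Set G) // w ^ M = 1},
        (u * w.1.1) ^ E = u := fun w => by
      rw [(hcomm w.1).mul_pow, k4 u hu, k6 _ (hwM w), mul_one]
    have F5 : ∀ w : {w : Subgroup.centralizer ({u} : Set G) // w ^ M = 1},
        (u * w.1.1) ^ E' = w.1.1 := fun w => by
      rw [(hcomm w.1).mul_pow, k5 u hu, k7 _ (hwM w), one_mul]
    have F1 : ∀ g : G, g ^ E = u → g ^ E' ∈ Subgroup.centralizer ({u} : Set G) := by
      intro g hg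
      refine Subgroup.mem_centralizer_iff.2 fun h hh => ?_
      rw [Set.mem_singleton_iff.1 hh, ← hg, ← pow_add, ← pow_add, add_comm]
    exact Nat.card_congr
      { toFun := fun g => ⟨⟨g.1 ^ E', F1 g.1 g.2.2⟩, Subtype.ext (k3 g.1)⟩
        invFun := fun w => ⟨u * w.1.1, (k8 _).2 (by rw [F4 w]; exact hun), F4 w⟩
        left_inv := fun g => Subtype.ext (by
          show u * g.1 ^ E' = g.1
          have h := k1 g.1
          rw [g.2.2] at h
          exact h)
        right_inv := fun w => Subtype.ext (Subtype.ext (F5 w)) }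
  have hsum : Nat.card {g : G // n ∣ orderOf g} =
      ∑ u : G, Nat.card {g : G // n ∣ orderOf g ∧ g ^ E = u} :=
    card_subtype_eq_sum_fiber (fun g : G => n ∣ orderOf g) (fun g => g ^ E)
  rw [hsum]
  apply dvd_sum_of_conj_invariant
  · intro h u
    exact card_fiber_conj n E h u
  · intro u
    by_cases hne : Nonempty {g : G // n ∣ orderOf g ∧ g ^ E = u}
    · obtain ⟨g₀, hg₀n, rfl⟩ := hne
      rw [key (g₀ ^ E) (k2 g₀) ((k8 g₀).1 hg₀n)]
      refine dvd_mul_of_gcd_dvd
        (b := Nat.card (Subgroup.centralizer ({g₀ ^ E} : Set G))) ?_ ?_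
      · rw [Subgroup.index_mul_card, ← hAM]; exact dvd_mul_left M A
      · exact frobenius_gcd_dvd M hMpos 1 (one_mem _)
    · rw [not_nonempty_iff] at hne
      rw [Nat.card_of_isEmpty, mul_zero]; exact dvd_zero _

end Cfsg.Agent.Helper21
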