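import Mathlib
import Cfsg.Agent.Helper21.HHAmbient
import Cfsg.Agent.Helper2.CharOrtho

/-!
A refinement of `hh_ambient`: without the degree hypothesis, either the `p`-element centralizes the
normal `p'`-subgroup modulo the kernel, or `K ⟨x⟩` has an irreducible character of degree
at least `p - 1`, at most the degree of the representation, dividing the order of `K ⟨x⟩`.
-/

set_option autoImplicit false

namespace Cfsg.Agent.Helper21

open Cfsg
open scoped Pointwise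

theorem hh_ambient_dvd {G : Type*} [Group G] [Finite G] (p : ℕ) [hp : Fact p.Prime] {n : ℕ}
    (ρ : Representation ℂ G (Fin n → ℂ)) (K : Subgroup G) [hKn : K.Normal]
    (hK : (Nat.card K).Coprime p) (x : G) (a : ℕ) (hx : orderOf x = p ^ (a + 1))
    (hxp : ∀ k ∈ K, x ^ p * k = k * x ^ p) :
    (∀ k ∈ K, ρ (x * k * x⁻¹ * k⁻¹) = 1) ∨
      ∃ d : ℕ, p ≤ d + 1 ∧ d ≤ n ∧ d ∣ Nat.card (K ⊔ Subgroup.zpowers x : Subgroup G) := by
  classical
  obtain ⟨Γ, hΓ⟩ : ∃ Γ : Subgroup G, Γ = K ⊔ Subgroup.zpowers x := ⟨_, rfl⟩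
  have hKΓ : K ≤ Γ := by
    rw [hΓ]
    exact le_sup_left
  have hxΓ : x ∈ Γ := by
    rw [hΓ]
    exact (le_sup_right : Subgroup.zpowers x ≤ _) (Subgroup.mem_zpowers x)
  haveI : Fintype Γ := Fintype.ofFinite Γ
  obtain ⟨K', hK'def⟩ : ∃ K' : Subgroup Γ, K' = K.subgroupOf Γ := ⟨_, rfl⟩
  have hK'mem : ∀ y : Γ, y ∈ K' ↔ (y : G) ∈ K := by
    intro y
    rw [hK'def]
    exact Subgroup.mem_subgroupOf
  haveI hK'n : K'.Normal := by
    rw [hK'def]
    infer_instance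
  obtain ⟨x', hx'def⟩ : ∃ x' : Γ, (x' : G) = x := ⟨⟨x, hxΓ⟩, rfl⟩
  have hK' : (Nat.card K').Coprime p := by
    have : Nat.card K' = Nat.card K := by
      rw [hK'def]
      exact Nat.card_congr (Subgroup.subgroupOfEquivOfLe hKΓ).toEquiv
    rw [this]
    exact hK
  have hx' : orderOf x' = p ^ (a + 1) := by
    rw [← Subgroup.orderOf_coe, hx'def]
    exact hx
  have hxp' : ∀ k' ∈ K', x' ^ p * k' = k' * x' ^ p := by
    intro k' hk'
    apply Subtype.ext
    simp only [Subgroup.coe_mul, Subgroup.coe_pow, hx'def]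
    exact hxp _ ((hK'mem k').1 hk')
  have hgen' : ∀ g : Γ, ∃ k' ∈ K', ∃ i : ℕ, g = k' * x' ^ i := by
    rintro ⟨g, hg⟩
    have hg' : g ∈ (K : Set G) * (Subgroup.zpowers x : Set G) := by
      rw [← Subgroup.normal_mul, ← hΓ]
      exact hg
    obtain ⟨k₁, hk₁, z, hz, rfl⟩ := Set.mem_mul.1 hg'
    obtain ⟨i, rfl⟩ := mem_powers_iff_mem_zpowers.2 hz
    refine ⟨⟨k₁, hKΓ hk₁⟩, (hK'mem _).2 hk₁, i, Subtype.ext ?_⟩
    simp only [Subgroup.coe_mul, Subgroup.coe_pow, hx'def]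
  have hψ : IsCharacter Γ (fun g : Γ => ρ.character g) :=
    Helper24.isCharacter_restrict Γ ⟨n, ρ, rfl⟩
  obtain ⟨l, hl, hsum⟩ := Helper2.IsCharacter.exists_list hψ
  obtain ⟨m, hm, hle⟩ := hh_list_deg l hl
  have hone : ρ.character ((1 : Γ) : G) = (n : ℂ) := by
    rw [Subgroup.coe_one, Representation.char_one]
    simp
  have hmn : m = n := by
    have h1 : (fun g : Γ => ρ.character g) 1 = (n : ℂ) := hone
    rw [hsum, hm] at h1
    exact_mod_cast h1
  by_cases hbig : ∃ φ ∈ l, p ≤ charDegree φ + 1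
  · right
    obtain ⟨φ, hφ, hφp⟩ := hbig
    refine ⟨charDegree φ, hφp, ?_, ?_⟩
    · have := hle φ hφ
      omega
    · have h1 := Helper2.irr_degree_dvd_card (hl φ hφ)
      have hc : Nat.card Γ = Nat.card (K ⊔ Subgroup.zpowers x : Subgroup G) := by rw [hΓ]
      rw [← hc]
      exact h1
  left
  push_neg at hbig
  intro k hk
  obtain ⟨k', hk'def⟩ : ∃ k' : Γ, (k' : G) = k := ⟨⟨k, hKΓ hk⟩, rfl⟩
  have hall : ∀ φ ∈ l, φ (x' * k' * x'⁻¹ * k'⁻¹) = φ 1 := by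
    intro φ hφ
    have hdeg : charDegree φ + 1 < p := hbig φ hφ
    have hnorm := hh_irr p K' hK' x' a hx' hxp' hgen' (hl φ hφ) hdeg
    exact hh_comm_of_norm (hl φ hφ) x' hnorm k'
  have heval := hh_list_eval l (x' * k' * x'⁻¹ * k'⁻¹) 1 hall
  rw [← hsum] at heval
  have h2 : ρ.character (x * k * x⁻¹ * k⁻¹) = (n : ℂ) := by
    have e1 : ((x' * k' * x'⁻¹ * k'⁻¹ : Γ) : G) = x * k * x⁻¹ * k⁻¹ := by
      simp only [Subgroup.coe_mul, Subgroup.coe_inv, hx'def, hk'def]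
    have h3 : ρ.character ((x' * k' * x'⁻¹ * k'⁻¹ : Γ) : G) = ρ.character ((1 : Γ) : G) := heval
    rw [e1, hone] at h3
    exact h3
  exact hh_one_of_char ρ _ h2

end Cfsg.Agent.Helper21
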