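import Mathlib

set_option autoImplicit false

namespace Cfsg.Agent.Helper21

/-- If `R` is a commutative subgroup of `Γ`, `s` normalizes `R` and `Γ = R ∪ R s`, then every element of the
commutator subgroup of `Γ` has the form `s r s⁻¹ r⁻¹` with `r ∈ R`. -/
theorem commutator_index_two {Γ : Type*} [Group Γ] (R : Subgroup Γ)
    (hR : ∀ a ∈ R, ∀ b ∈ R, a * b = b * a) (s : Γ) (hs : ∀ r ∈ R, s * r * s⁻¹ ∈ R)
    (hcov : ∀ g : Γ, g ∈ R ∨ ∃ r ∈ R, g = r * s) :
    ∀ x ∈ commutator Γ, ∃ r ∈ R, x = s * r * s⁻¹ * r⁻¹ := by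
  have hδR : ∀ r ∈ R, s * r * s⁻¹ * r⁻¹ ∈ R := fun r hr => R.mul_mem (hs r hr) (R.inv_mem hr)
  have hδmul : ∀ a ∈ R, ∀ b ∈ R,
      (s * a * s⁻¹ * a⁻¹) * (s * b * s⁻¹ * b⁻¹) = s * (a * b) * s⁻¹ * (a * b)⁻¹ := by
    intro a ha b hb
    have h1 := hR a⁻¹ (R.inv_mem ha) (s * b * s⁻¹) (hs b hb)
    have h2 := hR a⁻¹ (R.inv_mem ha) b⁻¹ (R.inv_mem hb)
    calc (s * a * s⁻¹ * a⁻¹) * (s * b * s⁻¹ * b⁻¹)
        = s * a * s⁻¹ * (a⁻¹ * (s * b * s⁻¹)) * b⁻¹ := by group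
      _ = s * a * s⁻¹ * ((s * b * s⁻¹) * a⁻¹) * b⁻¹ := by rw [h1]
      _ = s * (a * b) * s⁻¹ * (a⁻¹ * b⁻¹) := by group
      _ = s * (a * b) * s⁻¹ * (b⁻¹ * a⁻¹) := by rw [h2]
      _ = s * (a * b) * s⁻¹ * (a * b)⁻¹ := by group
  let T : Subgroup Γ :=
    { carrier := {x | ∃ r ∈ R, x = s * r * s⁻¹ * r⁻¹}
      mul_mem' := by
        rintro x y ⟨a, ha, rfl⟩ ⟨b, hb, rfl⟩
        exact ⟨a * b, R.mul_mem ha hb, hδmul a ha b hb⟩
      one_mem' := ⟨1, R.one_mem, by group⟩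
      inv_mem' := by
        rintro x ⟨a, ha, rfl⟩
        refine ⟨a⁻¹, R.inv_mem ha, ?_⟩
        have h := hδmul a ha a⁻¹ (R.inv_mem ha)
        have h' : s * (a * a⁻¹) * s⁻¹ * (a * a⁻¹)⁻¹ = 1 := by group
        rw [h'] at h
        exact inv_eq_of_mul_eq_one_right h }
  have hTmem : ∀ x, x ∈ T ↔ ∃ r ∈ R, x = s * r * s⁻¹ * r⁻¹ := fun x => Iff.rfl
  have hTR : ∀ x ∈ T, x ∈ R := by
    rintro x ⟨r, hr, rfl⟩
    exact hδR r hr
  have hconj_s : ∀ x ∈ T, s * x * s⁻¹ ∈ T := by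
    rintro x ⟨r, hr, rfl⟩
    refine ⟨s * r * s⁻¹, hs r hr, ?_⟩
    group
  have hconj_R : ∀ x ∈ T, ∀ a ∈ R, a * x * a⁻¹ = x := by
    intro x hx a ha
    rw [hR a ha x (hTR x hx)]
    group
  have hTn : T.Normal := by
    constructor
    intro x hx g
    rcases hcov g with hg | ⟨a, ha, rfl⟩
    · rw [hconj_R x hx g hg]
      exact hx
    · have h1 : a * s * x * (a * s)⁻¹ = a * (s * x * s⁻¹) * a⁻¹ := by group
      rw [h1, hconj_R _ (hconj_s x hx) a ha]
      exact hconj_s x hx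
  have hcomm_sr : ∀ r ∈ R, (QuotientGroup.mk s : Γ ⧸ T) * QuotientGroup.mk r
      = QuotientGroup.mk r * QuotientGroup.mk s := by
    intro r hr
    rw [← QuotientGroup.mk_mul, ← QuotientGroup.mk_mul, QuotientGroup.eq]
    have h1 : (s * r)⁻¹ * (r * s) = s⁻¹ * (s * r⁻¹ * s⁻¹ * (r⁻¹)⁻¹) * (s⁻¹)⁻¹ := by group
    rw [h1]
    exact hTn.conj_mem _ ⟨r⁻¹, R.inv_mem hr, rfl⟩ s⁻¹
  have hcomm_RR : ∀ a ∈ R, ∀ b ∈ R, (QuotientGroup.mk a : Γ ⧸ T) * QuotientGroup.mk b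
      = QuotientGroup.mk b * QuotientGroup.mk a := by
    intro a ha b hb
    rw [← QuotientGroup.mk_mul, ← QuotientGroup.mk_mul, hR a ha b hb]
  have hcomm : ∀ g h : Γ, (QuotientGroup.mk g : Γ ⧸ T) * QuotientGroup.mk h
      = QuotientGroup.mk h * QuotientGroup.mk g := by
    intro g h
    rcases hcov g with hg | ⟨a, ha, rfl⟩ <;> rcases hcov h with hh | ⟨b, hb, rfl⟩
    · exact hcomm_RR g hg h hh
    · rw [QuotientGroup.mk_mul, ← mul_assoc, hcomm_RR g hg b hb, mul_assoc, mul_assoc,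
        hcomm_sr g hg]
    · rw [QuotientGroup.mk_mul, ← mul_assoc, ← hcomm_RR a ha h hh, mul_assoc, mul_assoc,
        hcomm_sr h hh]
    · rw [QuotientGroup.mk_mul, QuotientGroup.mk_mul]
      calc (QuotientGroup.mk a : Γ ⧸ T) * QuotientGroup.mk s * (QuotientGroup.mk b * QuotientGroup.mk s)
          = QuotientGroup.mk a * (QuotientGroup.mk s * QuotientGroup.mk b) * QuotientGroup.mk s := by
            group
        _ = QuotientGroup.mk a * (QuotientGroup.mk b * QuotientGroup.mk s) * QuotientGroup.mk s := by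
            rw [hcomm_sr b hb]
        _ = (QuotientGroup.mk a * QuotientGroup.mk b) * QuotientGroup.mk s * QuotientGroup.mk s := by
            group
        _ = (QuotientGroup.mk b * QuotientGroup.mk a) * QuotientGroup.mk s * QuotientGroup.mk s := by
            rw [hcomm_RR a ha b hb]
        _ = QuotientGroup.mk b * (QuotientGroup.mk a * QuotientGroup.mk s) * QuotientGroup.mk s := by
            group
        _ = QuotientGroup.mk b * (QuotientGroup.mk s * QuotientGroup.mk a) * QuotientGroup.mk s := by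
            rw [hcomm_sr a ha]
        _ = QuotientGroup.mk b * QuotientGroup.mk s * (QuotientGroup.mk a * QuotientGroup.mk s) := by
            group
  have hle : commutator Γ ≤ T := by
    rw [commutator_def, Subgroup.commutator_le]
    intro g _ h _
    rw [← QuotientGroup.eq_one_iff (N := T), commutatorElement_def]
    simp only [QuotientGroup.mk_mul, QuotientGroup.mk_inv]
    rw [hcomm g h]
    group
  intro x hx
  exact (hTmem x).mp (hle hx)

end Cfsg.Agent.Helper21
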