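import Mathlib

/-!
Alternating biadditive maps on a finite field that are invariant under multiplication by nonzero
squares vanish, unless the field has 4 or 9 elements.
-/

set_option autoImplicit false

namespace Cfsg.Agent.Helper21

/-- A monic quadratic over a field has at most two roots. -/
theorem quad_roots_card_le_two {F : Type*} [Field F] [Fintype F] (b c : F)
    [DecidablePred fun x : F => x ^ 2 + b * x + c = 0] :
    (Finset.univ.filter (fun x : F => x ^ 2 + b * x + c = 0)).card ≤ 2 := by
  classical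
  by_cases h : ∃ x₁ : F, x₁ ^ 2 + b * x₁ + c = 0
  · obtain ⟨x₁, hx₁⟩ := h
    have hsub : Finset.univ.filter (fun x : F => x ^ 2 + b * x + c = 0) ⊆ {x₁, -x₁ - b} := by
      intro x hx
      rw [Finset.mem_filter] at hx
      have h1 : (x - x₁) * (x - (-x₁ - b)) = 0 := by
        linear_combination hx.2 - hx₁
      rcases mul_eq_zero.1 h1 with h2 | h2
      · rw [Finset.mem_insert]; left; exact sub_eq_zero.1 h2
      · rw [Finset.mem_insert, Finset.mem_singleton]; right; exact sub_eq_zero.1 h2
    exact (Finset.card_le_card hsub).trans Finset.card_le_two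
  · have h0 : Finset.univ.filter (fun x : F => x ^ 2 + b * x + c = 0) = ∅ := by
      rw [Finset.filter_eq_empty_iff]
      intro x _ hx
      exact h ⟨x, hx⟩
    rw [h0]; simp

/-- An alternating biadditive map on a finite field with values in an abelian group which is
invariant under simultaneous multiplication by nonzero squares vanishes, unless the field has
`4` or `9` elements. -/
theorem invariant_alternating_eq_zero {F : Type*} [Field F] [Fintype F] {A : Type*}
    [AddCommGroup A] (h4 : Fintype.card F ≠ 4) (h9 : Fintype.card F ≠ 9)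
    (c : F → F → A)
    (hadd₁ : ∀ s s' t, c (s + s') t = c s t + c s' t)
    (hadd₂ : ∀ s t t', c s (t + t') = c s t + c s t')
    (halt : ∀ t, c t t = 0)
    (hinv : ∀ a s t, a ≠ 0 → c (a ^ 2 * s) (a ^ 2 * t) = c s t) :
    ∀ s t, c s t = 0 := by
  classical
  have hz₁ : ∀ t, c 0 t = 0 := by
    intro t
    have h := hadd₁ 0 0 t
    rw [add_zero] at h
    simpa using h
  have hz₂ : ∀ s, c s 0 = 0 := by
    intro s
    have h := hadd₂ s 0 0
    rw [add_zero] at h
    simpa using h
  have hneg₁ : ∀ s t, c (-s) t = - c s t := by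
    intro s t
    have h := hadd₁ s (-s) t
    rw [add_neg_cancel, hz₁] at h
    exact eq_neg_of_add_eq_zero_right h.symm
  have hneg₂ : ∀ s t, c s (-t) = - c s t := by
    intro s t
    have h := hadd₂ s t (-t)
    rw [add_neg_cancel, hz₂] at h
    exact eq_neg_of_add_eq_zero_right h.symm
  have hsub₁ : ∀ s s' t, c (s - s') t = c s t - c s' t := by
    intro s s' t
    rw [sub_eq_add_neg, hadd₁, hneg₁, ← sub_eq_add_neg]
  have hsub₂ : ∀ s t t', c s (t - t') = c s t - c s t' := by
    intro s t t'
    rw [sub_eq_add_neg, hadd₂, hneg₂, ← sub_eq_add_neg]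
  have hanti : ∀ s t, c t s = - c s t := by
    intro s t
    have h := halt (s + t)
    rw [hadd₁, hadd₂, hadd₂, halt, halt, zero_add, add_zero] at h
    exact eq_neg_of_add_eq_zero_right h
  have e1 : ∀ (k : ℤ) (u v : F), c (k • u) v = k • c u v := fun k u v =>
    map_zsmul (AddMonoidHom.mk' (fun s => c s v) (fun s s' => hadd₁ s s' v)) k u
  have e2 : ∀ (k : ℤ) (u v : F), c u (k • v) = k • c u v := fun k u v =>
    map_zsmul (AddMonoidHom.mk' (fun t => c u t) (fun t t' => hadd₂ u t t')) k v
  have hprime : (Fintype.card F).Prime → ∀ s t, c s t = 0 := by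
    intro hp s t
    haveI : Fact (Nat.card F).Prime := ⟨by rw [Nat.card_eq_fintype_card]; exact hp⟩
    have htop : AddSubgroup.zmultiples (1 : F) = ⊤ :=
      zmultiples_eq_top_of_prime_card (G := F) rfl one_ne_zero
    obtain ⟨k, hk⟩ := AddSubgroup.mem_zmultiples_iff.1
      (htop ▸ AddSubgroup.mem_top s : s ∈ AddSubgroup.zmultiples (1 : F))
    obtain ⟨l, hl⟩ := AddSubgroup.mem_zmultiples_iff.1
      (htop ▸ AddSubgroup.mem_top t : t ∈ AddSubgroup.zmultiples (1 : F))
    rw [← hk, ← hl, e1, e2, halt, smul_zero, smul_zero]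
  intro s₀ t₀
  by_contra hne
  obtain ⟨P, hP⟩ : ∃ P : F → F → Prop, ∀ x y, P x y ↔ ∀ s t, c (x * s) t = c s (y * t) :=
    ⟨_, fun _ _ => Iff.rfl⟩
  have hP0 : P 0 0 := by
    rw [hP]; intro s t
    rw [zero_mul, zero_mul, hz₁, hz₂]
  have hP1 : P 1 1 := by
    rw [hP]; intro s t
    rw [one_mul, one_mul]
  have hPadd : ∀ x y x' y', P x y → P x' y' → P (x + x') (y + y') := by
    intro x y x' y' h h'
    rw [hP] at h h' ⊢
    intro s t
    rw [add_mul, add_mul, hadd₁, hadd₂, h s t, h' s t]
  have hPsub : ∀ x y x' y', P x y → P x' y' → P (x - x') (y - y') := by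
    intro x y x' y' h h'
    rw [hP] at h h' ⊢
    intro s t
    rw [sub_mul, sub_mul, hsub₁, hsub₂, h s t, h' s t]
  have hPmul : ∀ x y x' y', P x y → P x' y' → P (x * x') (y * y') := by
    intro x y x' y' h h'
    rw [hP] at h h' ⊢
    intro s t
    rw [mul_assoc, h (x' * s) t, h' s (y * t), ← mul_assoc, mul_comm y' y]
  have hsq : ∀ a : F, a ≠ 0 → P (a ^ 2) ((a ^ 2)⁻¹) := by
    intro a ha
    rw [hP]
    intro s t
    have ha2 : a ^ 2 ≠ 0 := pow_ne_zero 2 ha
    have h := hinv a s ((a ^ 2)⁻¹ * t) ha
    rw [mul_inv_cancel_left₀ ha2] at h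
    exact h
  have hsqD : ∀ a : F, ∃ y, P (a ^ 2) y := by
    intro a
    by_cases ha : a = 0
    · exact ⟨0, by rw [ha, zero_pow two_ne_zero]; exact hP0⟩
    · exact ⟨_, hsq a ha⟩
  have hex : ∀ x : F, ∃ y, P x y := by
    intro x
    by_cases h2 : ringChar F = 2
    · obtain ⟨r, hr⟩ := FiniteField.isSquare_of_char_two h2 x
      obtain ⟨y, hy⟩ := hsqD r
      exact ⟨y, by rw [hr, ← sq]; exact hy⟩
    · have h2' : (2 : F) ≠ 0 := Ring.two_ne_zero h2
      obtain ⟨y₁, hy₁⟩ := hsqD ((x + 1) / 2)
      obtain ⟨y₂, hy₂⟩ := hsqD ((x - 1) / 2)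
      have hx : x = ((x + 1) / 2) ^ 2 - ((x - 1) / 2) ^ 2 := by
        field_simp
        ring
      exact ⟨y₁ - y₂, by rw [hx]; exact hPsub _ _ _ _ hy₁ hy₂⟩
  have huniq : ∀ x y y', P x y → P x y' → y = y' := by
    intro x y y' h h'
    by_contra hyy
    have hd : y - y' ≠ 0 := sub_ne_zero.2 hyy
    have h0 := (hP _ _).1 (hPsub _ _ _ _ h h') s₀ ((y - y')⁻¹ * t₀)
    rw [sub_self, zero_mul, hz₁, mul_inv_cancel_left₀ hd] at h0
    exact hne h0.symm
  have hE : ∀ x : F, x ≠ 0 → ∃ e : F, (e = 1 ∨ e = -1) ∧ P x (e * x⁻¹) := by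
    intro x hx
    obtain ⟨y, hy⟩ := hex x
    have h1 : P (x ^ 2) (y ^ 2) := by
      rw [sq, sq]; exact hPmul _ _ _ _ hy hy
    have h2 := huniq _ _ _ h1 (hsq x hx)
    have h3 : (x * y - 1) * (x * y + 1) = 0 := by
      have h4 : (x * y) ^ 2 = 1 := by
        rw [mul_pow, h2, mul_inv_cancel₀ (pow_ne_zero 2 hx)]
      linear_combination h4
    refine ⟨x * y, ?_, ?_⟩
    · rcases mul_eq_zero.1 h3 with h5 | h5
      · left; exact sub_eq_zero.1 h5
      · right; exact eq_neg_of_add_eq_zero_left h5
    · rw [mul_comm x y, mul_inv_cancel_right₀ hx]; exact hy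
  have hquad : ∀ x : F, x ≠ 0 → x + 1 ≠ 0 →
      ∃ e e' : F, (e = 1 ∨ e = -1) ∧ (e' = 1 ∨ e' = -1) ∧
        x ^ 2 + (1 + e - e') * x + e = 0 := by
    intro x hx hx1
    obtain ⟨e, he, hPe⟩ := hE x hx
    obtain ⟨e', he', hPe'⟩ := hE (x + 1) hx1
    have h1 := huniq _ _ _ hPe' (hPadd _ _ _ _ hPe hP1)
    refine ⟨e, e', he, he', ?_⟩
    have h2 : e' * x = (e + x) * (x + 1) := by
      calc e' * x = (e' * (x + 1)⁻¹) * ((x + 1) * x) := by field_simp
        _ = (e * x⁻¹ + 1) * ((x + 1) * x) := by rw [h1]
        _ = (e + x) * (x + 1) := by field_simp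
    linear_combination -h2
  have hq1 : 1 < Fintype.card F := Fintype.one_lt_card
  by_cases h2 : ringChar F = 2
  · haveI : CharP F 2 := by rw [← h2]; exact ringChar.charP F
    have h20 : (2 : F) = 0 := CharTwo.two_eq_zero
    have hsub : (Finset.univ : Finset F) ⊆
        {0, -1} ∪ Finset.univ.filter (fun x : F => x ^ 2 + 1 * x + 1 = 0) := by
      intro x _
      by_cases hx : x = 0
      · simp [hx]
      by_cases hx1 : x + 1 = 0
      · have : x = -1 := eq_neg_of_add_eq_zero_left hx1
        simp [this]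
      obtain ⟨e, e', he, he', h⟩ := hquad x hx hx1
      rw [Finset.mem_union]; right
      rw [Finset.mem_filter]
      refine ⟨Finset.mem_univ _, ?_⟩
      rcases he with rfl | rfl <;> rcases he' with rfl | rfl
      · linear_combination h
      · linear_combination h - x * h20
      · linear_combination h + (x + 1) * h20
      · linear_combination h + h20
    have hcard := Finset.card_le_card hsub
    rw [Finset.card_univ] at hcard
    have hq4 : Fintype.card F ≤ 2 + 2 :=
      hcard.trans ((Finset.card_union_le _ _).trans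
        (add_le_add Finset.card_le_two (quad_roots_card_le_two 1 1)))
    have hp : (Fintype.card F).Prime := by
      have h23 : Fintype.card F = 2 ∨ Fintype.card F = 3 := by omega
      rcases h23 with h | h <;> rw [h] <;> norm_num
    exact hne (hprime hp s₀ t₀)
  · have hodd : Fintype.card F % 2 = 1 := FiniteField.odd_card_of_char_ne_two h2
    have hsub : (Finset.univ : Finset F) ⊆
        {0, -1} ∪ (Finset.univ.filter (fun x : F => x ^ 2 + 1 * x + 1 = 0) ∪
        (Finset.univ.filter (fun x : F => x ^ 2 + 3 * x + 1 = 0) ∪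
        (Finset.univ.filter (fun x : F => x ^ 2 + (-1) * x + (-1) = 0) ∪
         Finset.univ.filter (fun x : F => x ^ 2 + 1 * x + (-1) = 0)))) := by
      intro x _
      by_cases hx : x = 0
      · simp [hx]
      by_cases hx1 : x + 1 = 0
      · have : x = -1 := eq_neg_of_add_eq_zero_left hx1
        simp [this]
      obtain ⟨e, e', he, he', h⟩ := hquad x hx hx1
      rw [Finset.mem_union]; right
      simp only [Finset.mem_union, Finset.mem_filter, Finset.mem_univ, true_and]
      rcases he with rfl | rfl <;> rcases he' with rfl | rfl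
      · left; linear_combination h
      · right; left; linear_combination h
      · right; right; left; linear_combination h
      · right; right; right; linear_combination h
    have hcard := Finset.card_le_card hsub
    rw [Finset.card_univ] at hcard
    have hq10 : Fintype.card F ≤ 2 + (2 + (2 + (2 + 2))) :=
      hcard.trans ((Finset.card_union_le _ _).trans (add_le_add Finset.card_le_two
        ((Finset.card_union_le _ _).trans (add_le_add (quad_roots_card_le_two 1 1)
          ((Finset.card_union_le _ _).trans (add_le_add (quad_roots_card_le_two 3 1)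
            ((Finset.card_union_le _ _).trans (add_le_add (quad_roots_card_le_two (-1) (-1))
              (quad_roots_card_le_two 1 (-1))))))))))
    have hp : (Fintype.card F).Prime := by
      have h357 : Fintype.card F = 3 ∨ Fintype.card F = 5 ∨ Fintype.card F = 7 := by omega
      rcases h357 with h | h | h <;> rw [h] <;> norm_num
    exact hne (hprime hp s₀ t₀)

end Cfsg.Agent.Helper21
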