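import Mathlib
import Cfsg.Agent.Helper21.BlockRank

/-!
[R6c] of the S2582 sprint: assembling alternating "isometry data" for a multiset of Jordan block
sizes in which every odd size occurs an even number of times.
-/

set_option autoImplicit false

namespace Cfsg.Agent.Helper21

open Matrix

/-- block sum of two alternating "isometry data" -/
theorem js21_combine {F : Type*} [Field F] {m n : Type*} [Fintype m] [Fintype n]
    [DecidableEq m] [DecidableEq n] (A₁ M₁ : Matrix m m F) (A₂ M₂ : Matrix n n F)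
    (hM₁ : ∀ v, v ⬝ᵥ M₁ *ᵥ v = 0) (hM₂ : ∀ v, v ⬝ᵥ M₂ *ᵥ v = 0)
    (hd₁ : M₁.det ≠ 0) (hd₂ : M₂.det ≠ 0)
    (hA₁ : A₁ᵀ * M₁ * A₁ = M₁) (hA₂ : A₂ᵀ * M₂ * A₂ = M₂) :
    (∀ v, v ⬝ᵥ (Matrix.fromBlocks M₁ 0 0 M₂) *ᵥ v = 0) ∧
    (Matrix.fromBlocks M₁ 0 0 M₂).det ≠ 0 ∧
    (Matrix.fromBlocks A₁ 0 0 A₂)ᵀ * Matrix.fromBlocks M₁ 0 0 M₂ * Matrix.fromBlocks A₁ 0 0 A₂ =
      Matrix.fromBlocks M₁ 0 0 M₂ ∧
    ∀ k, ((Matrix.fromBlocks A₁ 0 0 A₂ - 1) ^ k).rank =
      ((A₁ - 1) ^ k).rank + ((A₂ - 1) ^ k).rank := by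
  refine ⟨?_, ?_, ?_, ?_⟩
  · intro v
    have hv : v = Sum.elim (v ∘ Sum.inl) (v ∘ Sum.inr) := by
      ext (i | i) <;> rfl
    rw [hv, Matrix.fromBlocks_mulVec, sumElim_dotProduct_sumElim]
    simp [hM₁, hM₂]
  · rw [Matrix.det_fromBlocks_zero₂₁]
    exact mul_ne_zero hd₁ hd₂
  · rw [Matrix.fromBlocks_transpose, Matrix.fromBlocks_multiply, Matrix.fromBlocks_multiply]
    simp [hA₁, hA₂]
  · intro k
    have h1 : Matrix.fromBlocks A₁ 0 0 A₂ - 1 = Matrix.fromBlocks (A₁ - 1) 0 0 (A₂ - 1) := by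
      ext (i | i) (j | j) <;> simp [Matrix.one_apply, Matrix.sub_apply]
    rw [h1, Matrix.fromBlocks_diagonal_pow, br21_rank_fromBlocks]

theorem js21_aux {F : Type*} [Field F]
    (heven : ∀ m, ∃ A M : Matrix (Fin m ⊕ Fin m) (Fin m ⊕ Fin m) F, (∀ v, v ⬝ᵥ M *ᵥ v = 0) ∧
      M.det ≠ 0 ∧ Aᵀ * M * A = M ∧ ∀ k, ((A - 1) ^ k).rank = 2 * m - k)
    (hpair : ∀ d, ∃ A M : Matrix (Fin d ⊕ Fin d) (Fin d ⊕ Fin d) F, (∀ v, v ⬝ᵥ M *ᵥ v = 0) ∧
      M.det ≠ 0 ∧ Aᵀ * M * A = M ∧ ∀ k, ((A - 1) ^ k).rank = (d - k) + (d - k)) :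
    ∀ (n : ℕ) (s : Multiset ℕ), Multiset.card s = n → (∀ j, Odd j → Even (s.count j)) →
      ∃ (κ : Type) (_ : Fintype κ) (_ : DecidableEq κ) (A M : Matrix κ κ F),
        (∀ v, v ⬝ᵥ M *ᵥ v = 0) ∧ M.det ≠ 0 ∧ Aᵀ * M * A = M ∧ Fintype.card κ = s.sum ∧
          ∀ k, ((A - 1) ^ k).rank = (s.map (fun a => a - k)).sum := by
  intro n
  induction n using Nat.strong_induction_on with
  | _ n ih =>
    intro s hn hpar
    by_cases hs : s = 0
    · subst hs
      refine ⟨Fin 0, inferInstance, inferInstance, 1, 1, ?_, ?_, ?_, ?_, ?_⟩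
      · intro v
        simp [dotProduct]
      · rw [Matrix.det_one]
        exact one_ne_zero
      · simp
      · simp
      · intro k
        have h := Matrix.rank_le_card_width ((1 - 1 : Matrix (Fin 0) (Fin 0) F) ^ k)
        rw [Multiset.map_zero, Multiset.sum_zero]
        exact Nat.le_zero.1 (by simpa using h)
    · obtain ⟨a, ha⟩ := Multiset.exists_mem_of_ne_zero hs
      by_cases hae : Even a
      · obtain ⟨s', hs'⟩ := Multiset.exists_cons_of_mem ha
        subst hs'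
        have hpar' : ∀ j, Odd j → Even (s'.count j) := by
          intro j hj
          have h := hpar j hj
          have hne : j ≠ a := by
            rintro rfl
            exact (Nat.not_even_iff_odd.2 hj) hae
          rwa [Multiset.count_cons_of_ne hne] at h
        have hlt : Multiset.card s' < n := by
          rw [← hn, Multiset.card_cons]
          omega
        obtain ⟨κ', fκ, dκ, A', M', h1, h2, h3, h4, h5⟩ := ih _ hlt s' rfl hpar'
        obtain ⟨r, hr⟩ := hae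
        obtain ⟨A₁, M₁, g1, g2, g3, g4⟩ := heven r
        have hc := js21_combine A₁ M₁ A' M' g1 h1 g2 h2 g3 h3
        refine ⟨(Fin r ⊕ Fin r) ⊕ κ', inferInstance, inferInstance, Matrix.fromBlocks A₁ 0 0 A',
          Matrix.fromBlocks M₁ 0 0 M', hc.1, hc.2.1, hc.2.2.1, ?_, ?_⟩
        · rw [Fintype.card_sum, Fintype.card_sum, Fintype.card_fin, h4, Multiset.sum_cons, hr]
        · intro k
          rw [hc.2.2.2 k, g4 k, h5 k, Multiset.map_cons, Multiset.sum_cons]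
          omega
      · have hao : Odd a := Nat.not_even_iff_odd.1 hae
        have hpos : 0 < s.count a := Multiset.count_pos.2 ha
        have hcnt : 2 ≤ s.count a := by
          obtain ⟨r, hr⟩ := hpar a hao
          omega
        obtain ⟨s₁, hs₁⟩ := Multiset.exists_cons_of_mem ha
        subst hs₁
        rw [Multiset.count_cons_self] at hcnt
        have ha₁ : a ∈ s₁ := Multiset.count_pos.1 (by omega)
        obtain ⟨s₂, hs₂⟩ := Multiset.exists_cons_of_mem ha₁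
        subst hs₂
        have hpar₂ : ∀ j, Odd j → Even (s₂.count j) := by
          intro j hj
          have h := hpar j hj
          by_cases hja : j = a
          · subst hja
            rw [Multiset.count_cons_self, Multiset.count_cons_self] at h
            obtain ⟨r, hr⟩ := h
            exact ⟨r - 1, by omega⟩
          · rwa [Multiset.count_cons_of_ne hja, Multiset.count_cons_of_ne hja] at h
        have hlt : Multiset.card s₂ < n := by
          rw [← hn, Multiset.card_cons, Multiset.card_cons]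
          omega
        obtain ⟨κ', fκ, dκ, A', M', h1, h2, h3, h4, h5⟩ := ih _ hlt s₂ rfl hpar₂
        obtain ⟨A₂, M₂, g1, g2, g3, g4⟩ := hpair a
        have hc := js21_combine A₂ M₂ A' M' g1 h1 g2 h2 g3 h3
        refine ⟨(Fin a ⊕ Fin a) ⊕ κ', inferInstance, inferInstance, Matrix.fromBlocks A₂ 0 0 A',
          Matrix.fromBlocks M₂ 0 0 M', hc.1, hc.2.1, hc.2.2.1, ?_, ?_⟩
        · rw [Fintype.card_sum, Fintype.card_sum, Fintype.card_fin, h4, Multiset.sum_cons,
            Multiset.sum_cons]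
          omega
        · intro k
          rw [hc.2.2.2 k, g4 k, h5 k, Multiset.map_cons, Multiset.map_cons, Multiset.sum_cons,
            Multiset.sum_cons]
          omega

theorem exists_of_blocks_alt {F : Type*} [Field F] (s : Multiset ℕ)
    (hpar : ∀ j, Odd j → Even (s.count j))
    (heven : ∀ m, ∃ A M : Matrix (Fin m ⊕ Fin m) (Fin m ⊕ Fin m) F, (∀ v, v ⬝ᵥ M *ᵥ v = 0) ∧
      M.det ≠ 0 ∧ Aᵀ * M * A = M ∧ ∀ k, ((A - 1) ^ k).rank = 2 * m - k)
    (hpair : ∀ d, ∃ A M : Matrix (Fin d ⊕ Fin d) (Fin d ⊕ Fin d) F, (∀ v, v ⬝ᵥ M *ᵥ v = 0) ∧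
      M.det ≠ 0 ∧ Aᵀ * M * A = M ∧ ∀ k, ((A - 1) ^ k).rank = (d - k) + (d - k)) :
    ∃ (κ : Type) (_ : Fintype κ) (_ : DecidableEq κ) (A M : Matrix κ κ F),
      (∀ v, v ⬝ᵥ M *ᵥ v = 0) ∧ M.det ≠ 0 ∧ Aᵀ * M * A = M ∧ Fintype.card κ = s.sum ∧
        ∀ k, ((A - 1) ^ k).rank = (s.map (fun a => a - k)).sum :=
  js21_aux heven hpair (Multiset.card s) s rfl hpar

end Cfsg.Agent.Helper21
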