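import Mathlib
import Cfsg.Agent.Helper21.Nse3C

/-!
Groups of order `p^a q^b` with all elements of order `1`, `p` or `q` and `O_p(G) ≠ 1`: a
Sylow `q`-subgroup is a Frobenius complement of prime order.
-/

set_option autoImplicit false

universe u

open scoped Pointwise

namespace Cfsg.Agent.Helper21

theorem n3_struct {G : Type u} [Group G] [Finite G] {p q : ℕ} (hp : p.Prime) (hq : q.Prime)
    (hpq : p ≠ q)
    (hall : ∀ l : ℕ, l.Prime → l ∣ Nat.card G → l = p ∨ l = q)
    (hqG : q ∣ Nat.card G)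
    (hcp : ∀ g : G, orderOf g ≠ p * q)
    (hp2 : ∀ g : G, orderOf g ≠ p ^ 2) (hq2 : ∀ g : G, orderOf g ≠ q ^ 2)
    (hK : Cfsg.pCore p G ≠ ⊥) :
    ∃ C : Subgroup G, Cfsg.IsFrobeniusComplement C ∧ (Nat.card ↥C).Prime := by
  classical
  haveI : Fact p.Prime := ⟨hp⟩
  haveI : Fact q.Prime := ⟨hq⟩
  have cpq : Nat.Coprime p q := (Nat.coprime_primes hp hq).2 hpq
  -- element orders
  have key : ∀ (l : ℕ), l.Prime → (∀ g : G, orderOf g ≠ l ^ 2) → ∀ g : G,
      (∀ d : ℕ, d.Prime → d ∣ orderOf g → d = l) → orderOf g = 1 ∨ orderOf g = l := by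
    intro l hl hl2 g hd
    have h1 := Nat.eq_prime_pow_of_unique_prime_dvd (orderOf_pos g).ne'
      (fun {d} hd1 hd2 => hd d hd1 hd2)
    exact order_one_or_prime hl hl2 g _ (by rw [← h1]; exact pow_orderOf_eq_one g)
  have hord : ∀ g : G, orderOf g = 1 ∨ orderOf g = p ∨ orderOf g = q := by
    intro g
    by_cases hpg : p ∣ orderOf g
    · by_cases hqg : q ∣ orderOf g
      · exfalso
        have hd : p * q ∣ orderOf g := Nat.Coprime.mul_dvd_of_dvd_of_dvd cpq hpg hqg
        exact hcp _ (orderOf_pow_orderOf_div (orderOf_pos g).ne' hd)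
      · rcases key p hp hp2 g (fun d hd1 hd2 => by
          rcases hall d hd1 (hd2.trans (orderOf_dvd_natCard g)) with h | h
          · exact h
          · exact absurd (h ▸ hd2) hqg) with h | h
        · exact Or.inl h
        · exact Or.inr (Or.inl h)
    · rcases key q hq hq2 g (fun d hd1 hd2 => by
          rcases hall d hd1 (hd2.trans (orderOf_dvd_natCard g)) with h | h
          · exact absurd (h ▸ hd2) hpg
          · exact h) with h | h
      · exact Or.inl h
      · exact Or.inr (Or.inr h)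
  have pelt : ∀ (l l' : ℕ), l.Prime → l'.Prime → l ≠ l' →
      (∀ g : G, orderOf g = 1 ∨ orderOf g = l ∨ orderOf g = l') →
      ∀ (H : Subgroup G), IsPGroup l ↥H → ∀ x ∈ H, x ≠ 1 → orderOf x = l := by
    intro l l' hl hl' hne hord' H hH x hx hx1
    haveI : Fact l.Prime := ⟨hl⟩
    obtain ⟨k, hk⟩ := (IsPGroup.iff_orderOf.1 hH) ⟨x, hx⟩
    rw [Subgroup.orderOf_mk] at hk
    rcases hord' x with h | h | h
    · exact absurd (orderOf_eq_one_iff.1 h) hx1
    · exact h
    · exfalso
      rw [h] at hk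
      have hdvd : l ∣ l' := by
        rcases Nat.eq_zero_or_pos k with rfl | hk0
        · rw [pow_zero] at hk
          exact absurd hk hl'.ne_one
        · rw [hk]
          exact dvd_pow_self l hk0.ne'
      exact hne ((Nat.prime_dvd_prime_iff_eq hl hl').1 hdvd)
  have hordq : ∀ g : G, orderOf g = 1 ∨ orderOf g = q ∨ orderOf g = p :=
    fun g => (hord g).imp_right Or.symm
  have peltp := pelt p q hp hq hpq hord
  have peltq := pelt q p hq hp (Ne.symm hpq) hordq
  -- the abelian normal p-subgroup V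
  have hKn : (Cfsg.pCore p G).Normal := Subgroup.sSup_normal _ (fun _ h => h.1)
  have hKp : IsPGroup p ↥(Cfsg.pCore p G) := Cfsg.Agent.Helper9.pCore_isPGroup p
  haveI := hKn
  haveI : Nontrivial ↥(Cfsg.pCore p G) := (Subgroup.nontrivial_iff_ne_bot _).2 hK
  haveI hZn := hKp.center_nontrivial
  obtain ⟨z0, hz0⟩ := exists_ne (1 : ↥(Subgroup.center ↥(Cfsg.pCore p G)))
  obtain ⟨V, hVdef⟩ : ∃ V : Subgroup G,
      V = Cfsg.pCore p G ⊓ Subgroup.centralizer (Cfsg.pCore p G : Set G) := ⟨_, rfl⟩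
  haveI hVn : V.Normal := by
    rw [hVdef]
    exact Subgroup.normal_inf_normal _ _
  have hVK : V ≤ Cfsg.pCore p G := by
    rw [hVdef]
    exact inf_le_left
  have hVC : V ≤ Subgroup.centralizer (Cfsg.pCore p G : Set G) := by
    rw [hVdef]
    exact inf_le_right
  have hz0V : ((z0 : ↥(Cfsg.pCore p G)) : G) ∈ V := by
    rw [hVdef]
    refine Subgroup.mem_inf.2 ⟨(z0 : ↥(Cfsg.pCore p G)).2, Subgroup.mem_centralizer_iff.2 ?_⟩
    intro k hk
    have h1 := Subgroup.mem_center_iff.1 z0.2 ⟨k, hk⟩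
    exact congrArg Subtype.val h1
  have hVcomm : ∀ u v : ↥V, u * v = v * u := by
    intro u v
    apply Subtype.ext
    exact Subgroup.mem_centralizer_iff.1 (hVC v.2) u.1 (hVK u.2)
  let φ : G →* MulAut ↥V := MulAut.conjNormal
  have hφ : ∀ (g : G) (w : ↥V), V.subtype (φ g w) = g * V.subtype w * g⁻¹ :=
    fun g w => MulAut.conjNormal_apply g w
  letI : CommGroup ↥V := { (inferInstance : Group ↥V) with mul_comm := hVcomm }
  have hVne : ∃ v0 : ↥V, v0 ≠ 1 := by
    refine ⟨⟨_, hz0V⟩, ?_⟩
    intro h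
    apply hz0
    have h1 : ((z0 : ↥(Cfsg.pCore p G)) : G) = 1 := congrArg Subtype.val h
    exact Subtype.ext (Subtype.ext h1)
  have hVord : ∀ v : ↥V, v ≠ 1 → orderOf (v : G) = p := by
    intro v hv
    exact peltp _ hKp v.1 (hVK v.2) (fun h => hv (Subtype.ext h))
  -- elements of order q act without fixed points
  have hfpf : ∀ a : G, orderOf a = q → ∀ v : ↥V, φ a v = v → v = 1 := by
    intro a ha v hv
    by_contra hv1
    have h1 : a * (v : G) * a⁻¹ = (v : G) := (hφ a v).symm.trans (congrArg Subtype.val hv)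
    have hc : Commute a (v : G) := by
      have h2 : a * (v : G) = (v : G) * a := by
        calc a * (v : G) = a * (v : G) * a⁻¹ * a := by group
          _ = (v : G) * a := by rw [h1]
      exact h2
    have ho := hc.orderOf_mul_eq_mul_orderOf_of_coprime
      (by rw [ha, hVord v hv1]; exact cpq.symm)
    rw [ha, hVord v hv1, mul_comm] at ho
    exact hcp _ ho
  have hVq : (∀ v : ↥V, v ^ q = 1) → False := by
    intro h
    obtain ⟨v0, hv0⟩ := hVne
    have h1 : (v0 : G) ^ q = 1 := congrArg Subtype.val (h v0)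
    have h2 : orderOf (v0 : G) ∣ q := orderOf_dvd_of_pow_eq_one h1
    rw [hVord v0 hv0] at h2
    exact hpq ((Nat.prime_dvd_prime_iff_eq hp hq).1 h2)
  -- Sylow q-subgroup
  obtain ⟨Q⟩ : Nonempty (Sylow q G) := inferInstance
  have hQne : (Q : Subgroup G) ≠ ⊥ := Q.ne_bot_of_dvd_card hqG
  have hQord : ∀ x ∈ (Q : Subgroup G), x ≠ 1 → orderOf x = q :=
    fun x hx hx1 => peltq _ Q.isPGroup' x hx hx1
  haveI : Nontrivial ↥(Q : Subgroup G) := (Subgroup.nontrivial_iff_ne_bot _).2 hQne
  haveI := Q.isPGroup'.center_nontrivial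
  obtain ⟨z, hz⟩ := exists_ne (1 : ↥(Subgroup.center ↥(Q : Subgroup G)))
  obtain ⟨y, hydef⟩ : ∃ y : G, y = ((z : ↥(Q : Subgroup G)) : G) := ⟨_, rfl⟩
  have hyQ : y ∈ (Q : Subgroup G) := by
    rw [hydef]
    exact (z : ↥(Q : Subgroup G)).2
  have hy1 : y ≠ 1 := by
    intro h
    rw [hydef] at h
    exact hz (Subtype.ext (Subtype.ext h))
  have hyq : orderOf y = q := hQord y hyQ hy1
  have hyqpow : y ^ q = 1 := by
    have h1 := pow_orderOf_eq_one y
    rwa [hyq] at h1
  have hycent : ∀ u ∈ (Q : Subgroup G), y * u = u * y := by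
    intro u hu
    have h1 := Subgroup.mem_center_iff.1 z.2 ⟨u, hu⟩
    have h' : u * y = y * u := by
      rw [hydef]
      exact congrArg Subtype.val h1
    exact h'.symm
  -- (i) Q = ⟨y⟩
  have hQy : (Q : Subgroup G) = Subgroup.zpowers y := by
    by_contra hne
    have hnle : ¬ (Q : Subgroup G) ≤ Subgroup.zpowers y :=
      fun hle => hne (le_antisymm hle (Subgroup.zpowers_le.2 hyQ))
    obtain ⟨b, hbQ, hb⟩ := SetLike.not_le_iff_exists.1 hnle
    apply hVq
    intro v
    have hψ : ∀ a : ↥(Q : Subgroup G), a ≠ 1 → ∀ w : ↥V,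
        (φ.comp (Q : Subgroup G).subtype) a w = w → w = 1 := by
      intro a ha w hw
      exact hfpf a.1 (hQord a.1 a.2 (fun h => ha (Subtype.ext h))) w hw
    have hbq : b ^ q = 1 := by
      by_cases hb1 : b = 1
      · rw [hb1, one_pow]
      · have h1 := pow_orderOf_eq_one b
        rwa [hQord b hbQ hb1] at h1
    exact Cfsg.Agent.Helper1.fpf_exponent (φ.comp (Q : Subgroup G).subtype) hψ q hq
      ⟨y, hyQ⟩ ⟨b, hbQ⟩
      (Subtype.ext (hycent b hbQ)) (fun h => hy1 (congrArg Subtype.val h))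
      (Subtype.ext hyqpow) (Subtype.ext hbq)
      (fun hmem => hb (by
        obtain ⟨k, hk⟩ := Subgroup.mem_zpowers_iff.1 hmem
        have hk' : y ^ k = b := by
          have h1 := congrArg Subtype.val hk
          simpa using h1
        rw [← hk']
        exact Subgroup.zpow_mem _ (Subgroup.mem_zpowers y) k)) v
  have hQcard : Nat.card ↥(Q : Subgroup G) = q := by rw [hQy, Nat.card_zpowers, hyq]
  -- (ii) N_G(Q) ≤ Q
  have hNQ : Subgroup.normalizer ((Q : Subgroup G) : Set G) ≤ (Q : Subgroup G) := by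
    intro c hc
    by_contra hcQ
    rcases hord c with h1 | h1 | h1
    · exact hcQ (by rw [orderOf_eq_one_iff.1 h1]; exact Subgroup.one_mem _)
    · apply hVq
      intro v
      have hN : ∀ u ∈ Subgroup.zpowers y, c⁻¹ * u * c ∈ Subgroup.zpowers y := by
        intro u hu
        rw [← hQy] at hu ⊢
        have hc' : c⁻¹ ∈ Subgroup.normalizer ((Q : Subgroup G) : Set G) :=
          Subgroup.inv_mem _ hc
        have h2 := (Subgroup.mem_normalizer_iff.1 hc' u).1 hu
        rwa [inv_inv] at h2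
      have hI : ∀ i : ℕ, 0 < i → i < p → ∀ u ∈ Subgroup.zpowers y,
          c ^ i * u = u * c ^ i → u = 1 := by
        intro i hi0 hip u hu hcomm
        by_contra hu1
        rw [← hQy] at hu
        have huq := hQord u hu hu1
        have hcop : Nat.Coprime (orderOf c) i := by
          rw [h1]
          exact (Nat.Prime.coprime_iff_not_dvd hp).2 (Nat.not_dvd_of_pos_of_lt hi0 hip)
        have hci : orderOf (c ^ i) = p := by rw [hcop.orderOf_pow, h1]
        have hc2 : Commute (c ^ i) u := hcomm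
        have ho := hc2.orderOf_mul_eq_mul_orderOf_of_coprime (by rw [hci, huq]; exact cpq)
        rw [hci, huq] at ho
        exact hcp _ ho
      have hT : ∀ (t : ℕ) (w : ↥V),
          ∏ i ∈ Finset.range p, φ ((y ^ t * c * (y ^ t)⁻¹) ^ i) w = 1 := by
        intro t w
        have hh : orderOf (y ^ t * c * (y ^ t)⁻¹) = p := by
          rw [orderOf_conj21]
          exact h1
        have hpg : IsPGroup p
            ↥(Cfsg.pCore p G ⊔ Subgroup.zpowers (y ^ t * c * (y ^ t)⁻¹)) :=
          IsPGroup.to_sup_of_normal_left hKp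
            (IsPGroup.of_card (n := 1) (by rw [Nat.card_zpowers, hh, pow_one]))
        have hmem : (w : G) * (y ^ t * c * (y ^ t)⁻¹) ∈
            Cfsg.pCore p G ⊔ Subgroup.zpowers (y ^ t * c * (y ^ t)⁻¹) :=
          Subgroup.mul_mem _ (Subgroup.mem_sup_left (hVK w.2))
            (Subgroup.mem_sup_right (Subgroup.mem_zpowers _))
        obtain ⟨k, hk⟩ := (IsPGroup.iff_orderOf.1 hpg) ⟨_, hmem⟩
        rw [Subgroup.orderOf_mk] at hk
        have hpow : ((w : G) * (y ^ t * c * (y ^ t)⁻¹)) ^ p = 1 := by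
          rcases order_one_or_prime hp hp2 _ k
            (by rw [← hk]; exact pow_orderOf_eq_one _) with h | h
          · rw [orderOf_eq_one_iff.1 h, one_pow]
          · have h3 := pow_orderOf_eq_one ((w : G) * (y ^ t * c * (y ^ t)⁻¹))
            rwa [h] at h3
        have hid := n3_mul_pow_conj V.subtype φ hφ w (y ^ t * c * (y ^ t)⁻¹) p
        have hhp : (y ^ t * c * (y ^ t)⁻¹) ^ p = 1 := by
          have h3 := pow_orderOf_eq_one (y ^ t * c * (y ^ t)⁻¹)
          rwa [hh] at h3
        rw [hhp, mul_one] at hid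
        have h4 : V.subtype (∏ i ∈ Finset.range p, φ ((y ^ t * c * (y ^ t)⁻¹) ^ i) w) = 1 := by
          rw [← hid]
          exact hpow
        exact Subtype.ext h4
      have h5 := n3_two_frob φ y c p hp.pos hN (hfpf y hyq) hI hT v
      rwa [hyq] at h5
    · exact hcQ (mem_sylow_of_mem_normalizer_of_orderOf Q hc (b := 1) (by rw [h1, pow_one]))
  -- conclusion
  have gen : ∀ w ∈ (Q : Subgroup G), w ≠ 1 → (Q : Subgroup G) = Subgroup.zpowers w := by
    intro w hw hw1
    exact (Subgroup.eq_of_le_of_card_ge (Subgroup.zpowers_le.2 hw)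
      (by rw [Nat.card_zpowers, hQord w hw hw1, hQcard])).symm
  refine ⟨(Q : Subgroup G), ⟨hQne, ?_, ?_⟩, by rw [hQcard]; exact hq⟩
  · intro htop
    obtain ⟨v0, hv0⟩ := hVne
    have h1 := hVord v0 hv0
    have h2 := hQord (v0 : G) (by rw [htop]; exact Subgroup.mem_top _)
      (fun h => hv0 (Subtype.ext h))
    exact hpq (h1.symm.trans h2)
  · intro g hg
    rcases Subgroup.bot_or_exists_ne_one
      ((Q : Subgroup G) ⊓ (MulAut.conj g • (Q : Subgroup G))) with h | ⟨u, hu, hu1⟩
    · exact h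
    · exfalso
      apply hg
      apply hNQ
      obtain ⟨huQ, hu2⟩ := hu
      obtain ⟨u', hu'Q, hu'⟩ :=
        (Subgroup.mem_smul_pointwise_iff_exists u (MulAut.conj g) (Q : Subgroup G)).1 hu2
      have hu'eq : g * u' * g⁻¹ = u := hu'
      have hu'1 : u' ≠ 1 := by
        rintro rfl
        apply hu1
        rw [← hu'eq]
        group
      rw [Subgroup.mem_normalizer_iff]
      intro h
      constructor
      · intro hh
        rw [gen u' hu'Q hu'1] at hh
        obtain ⟨k, rfl⟩ := Subgroup.mem_zpowers_iff.1 hh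
        rw [← conj_zpow, hu'eq]
        exact Subgroup.zpow_mem _ huQ k
      · intro hh
        rw [gen u huQ hu1] at hh
        obtain ⟨k, hk⟩ := Subgroup.mem_zpowers_iff.1 hh
        have e1 : u' = g⁻¹ * u * g⁻¹⁻¹ := by
          rw [← hu'eq]
          group
        have e2 : h = u' ^ k := by
          rw [e1, conj_zpow, hk]
          group
        rw [e2]
        exact Subgroup.zpow_mem _ hu'Q k

end Cfsg.Agent.Helper21
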