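import Mathlib
import Cfsg.Agent.Helper21.Nse3D
import Cfsg.Agent.Helper10.NoThreeStep

/-!
Odd order groups in which the numbers of elements of each occurring order take three values.
-/

set_option autoImplicit false

universe u

open scoped Pointwise

namespace Cfsg.Agent.Helper21

section Nse3

variable {G : Type u} [Group G] [Finite G]

theorem n3_fixed {p : ℕ} [Fact p.Prime] (P : Sylow p G) (m : ℕ)
    (h : ¬ p ∣ ordCount G m) :
    ∃ y : G, orderOf y = m ∧ ∀ k ∈ (P : Subgroup G), k * y * k⁻¹ = y := by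
  letI : MulAction ↥(P : Subgroup G) {g : G // orderOf g = m} :=
    { smul := fun k g => ⟨k.1 * g.1 * k.1⁻¹, by rw [orderOf_conj21]; exact g.2⟩
      one_smul := fun g => Subtype.ext (by
        show (1 : G) * g.1 * (1 : G)⁻¹ = g.1
        simp)
      mul_smul := fun k k' g => Subtype.ext (by
        show (k.1 * k'.1) * g.1 * (k.1 * k'.1)⁻¹ = k.1 * (k'.1 * g.1 * k'.1⁻¹) * k.1⁻¹
        group) }
  have h1 := P.isPGroup'.card_modEq_card_fixedPoints {g : G // orderOf g = m}
  by_contra hne
  push Not at hne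
  haveI : IsEmpty ↥(MulAction.fixedPoints ↥(P : Subgroup G) {g : G // orderOf g = m}) := by
    constructor
    rintro ⟨y, hy⟩
    obtain ⟨k, hk, hky⟩ := hne y.1 y.2
    apply hky
    have h2 := hy ⟨k, hk⟩
    exact congrArg Subtype.val h2
  have h0 : Nat.card ↥(MulAction.fixedPoints ↥(P : Subgroup G) {g : G // orderOf g = m}) = 0 :=
    Nat.card_of_isEmpty
  rw [h0] at h1
  exact h ((Nat.modEq_zero_iff_dvd).1 h1)

theorem n3_pow_inj {p q : ℕ} (hp : p.Prime) (hcop : Nat.Coprime q p) {x x' : G}
    (hx : orderOf x = p) (hx' : orderOf x' = p) (h : x ^ q = x' ^ q) : x = x' := by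
  obtain ⟨m, -, hm⟩ := Nat.exists_mul_mod_eq_one_of_coprime hcop hp.one_lt
  have e1 : x ^ (q * m) = x := by
    rw [← pow_mod_orderOf, hx, hm, pow_one]
  have e2 : x' ^ (q * m) = x' := by
    rw [← pow_mod_orderOf, hx', hm, pow_one]
  rw [← e1, ← e2, pow_mul, pow_mul, h]

theorem n3_count {p q : ℕ} (hp : p.Prime) (hq : q.Prime) (hq3 : 3 ≤ q) (hpq : p ≠ q)
    [Fact p.Prime] (P : Sylow p G) (y : G) (hy : orderOf y = q)
    (hyP : ∀ k ∈ (P : Subgroup G), k * y * k⁻¹ = y) :
    2 * ordCount G p ≤ ordCount G (p * q) := by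
  classical
  have cpq : Nat.Coprime p q := (Nat.coprime_primes hp hq).2 hpq
  have hex : ∀ x : {g : G // orderOf g = p}, ∃ u : G, orderOf u = q ∧ Commute x.1 u := by
    rintro ⟨x, hx⟩
    have hZ : IsPGroup p ↥(Subgroup.zpowers x) :=
      IsPGroup.of_card (n := 1) (by rw [Nat.card_zpowers, hx, pow_one])
    obtain ⟨P', hP'⟩ := hZ.exists_le_sylow
    obtain ⟨g, hg⟩ := MulAction.exists_smul_eq G P P'
    have hxP' : x ∈ (P' : Subgroup G) := hP' (Subgroup.mem_zpowers x)
    rw [← hg, Sylow.smul_def, Sylow.pointwise_smul_def] at hxP'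
    obtain ⟨s, hs, hsx⟩ := (Subgroup.mem_smul_pointwise_iff_exists _ _ _).1 hxP'
    have hsx' : g * s * g⁻¹ = x := hsx
    refine ⟨g * y * g⁻¹, by rw [orderOf_conj21]; exact hy, ?_⟩
    have hsy : s * y = y * s := by
      have h1 := hyP s hs
      calc s * y = s * y * s⁻¹ * s := by group
        _ = y * s := by rw [h1]
    show x * (g * y * g⁻¹) = g * y * g⁻¹ * x
    rw [← hsx']
    calc g * s * g⁻¹ * (g * y * g⁻¹) = g * (s * y) * g⁻¹ := by group
      _ = g * (y * s) * g⁻¹ := by rw [hsy]
      _ = g * y * g⁻¹ * (g * s * g⁻¹) := by group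
  choose u hu1 hu2 using hex
  have hune : ∀ x, (u x)⁻¹ ≠ u x := by
    intro x h
    have h2 : u x ^ 2 = 1 := by
      rw [pow_two]
      nth_rewrite 1 [← h]
      exact inv_mul_cancel _
    have h3 := Nat.le_of_dvd (by norm_num) (orderOf_dvd_of_pow_eq_one h2)
    rw [hu1] at h3
    omega
  have hw : ∀ (x : {g : G // orderOf g = p}) (c : Bool),
      orderOf (x.1 * (if c then u x else (u x)⁻¹)) = p * q := by
    intro x c
    cases c
    · have hc : Commute x.1 (u x)⁻¹ := (hu2 x).inv_right
      have := hc.orderOf_mul_eq_mul_orderOf_of_coprime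
        (by rw [x.2, orderOf_inv, hu1]; exact cpq)
      rw [x.2, orderOf_inv, hu1] at this
      simpa using this
    · have := (hu2 x).orderOf_mul_eq_mul_orderOf_of_coprime (by rw [x.2, hu1]; exact cpq)
      rw [x.2, hu1] at this
      simpa using this
  have hpowq : ∀ (x : {g : G // orderOf g = p}) (c : Bool),
      (x.1 * (if c then u x else (u x)⁻¹)) ^ q = x.1 ^ q := by
    intro x c
    have huq : u x ^ q = 1 := by
      have := pow_orderOf_eq_one (u x)
      rwa [hu1] at this
    cases c
    · have hc : Commute x.1 (u x)⁻¹ := (hu2 x).inv_right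
      simp only [Bool.false_eq_true, if_false]
      rw [hc.mul_pow, inv_pow, huq, inv_one, mul_one]
    · simp only [if_true]
      rw [(hu2 x).mul_pow, huq, mul_one]
  have hinj : Function.Injective (fun xc : {g : G // orderOf g = p} × Bool =>
      (⟨xc.1.1 * (if xc.2 then u xc.1 else (u xc.1)⁻¹), hw xc.1 xc.2⟩ :
        {g : G // orderOf g = p * q})) := by
    rintro ⟨x, c⟩ ⟨x', c'⟩ h
    have h1 : x.1 * (if c then u x else (u x)⁻¹) = x'.1 * (if c' then u x' else (u x')⁻¹) :=
      congrArg Subtype.val h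
    have h2 : x.1 ^ q = x'.1 ^ q := by
      rw [← hpowq x c, ← hpowq x' c', h1]
    have h3 : x = x' := Subtype.ext (n3_pow_inj hp cpq.symm x.2 x'.2 h2)
    subst h3
    have h4 : (if c then u x else (u x)⁻¹) = (if c' then u x else (u x)⁻¹) :=
      mul_left_cancel h1
    have h5 : c = c' := by
      cases c <;> cases c'
      · rfl
      · exfalso
        simp only [Bool.false_eq_true, if_false, if_true] at h4
        exact hune x h4
      · exfalso
        simp only [Bool.false_eq_true, if_false, if_true] at h4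
        exact hune x h4.symm
      · rfl
    rw [h5]
  have h6 := Nat.card_le_card_of_injective _ hinj
  rw [Nat.card_prod, Nat.card_eq_fintype_card (α := Bool), Fintype.card_bool] at h6
  unfold ordCount
  omega

theorem n3_nosq_cp {l l' c c' : ℕ} (hl : l.Prime) (hl' : l'.Prime) (hl3 : 3 ≤ l)
    (hl'3 : 3 ≤ l') (hne : l ≠ l')
    (H' : ∀ m : ℕ, 3 ≤ m → ordCount G m = 0 ∨ ordCount G m = c ∨ ordCount G m = c')
    (sl : ordCount G l = c) (sl' : ordCount G l' = c') (hl'G : l' ∣ Nat.card G)
    (hcp : ∀ g : G, orderOf g ≠ l * l') : ∀ g : G, orderOf g ≠ l ^ 2 := by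
  intro g hg
  haveI : Fact l'.Prime := ⟨hl'⟩
  have h2 : l ^ 2 ∣ Nat.card G := by
    rw [← hg]
    exact orderOf_dvd_natCard g
  have hlG : l ∣ Nat.card G := (dvd_pow_self l (by norm_num)).trans h2
  have f := sq_dvd_count (G := G) hl rfl h2
  rw [sl] at f
  have A := n3_cast (prime_dvd_one_add_ordCount hl hlG)
  rw [sl] at A
  push_cast at A
  have B := n3_cast (prime_dvd_one_add_ordCount hl' hl'G)
  rw [sl'] at B
  push_cast at B
  rcases H' (l ^ 2) (by nlinarith) with h | h | h
  · have := ordCount_pos g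
    rw [hg, h] at this
    omega
  · rw [h] at f
    have E := n3_cast ((dvd_pow_self l (by norm_num : 2 ≠ 0)).trans f)
    push_cast at E
    exact n3_one_ne hl3 (by linear_combination 2 * A - E)
  · by_cases hd : l' ∣ ordCount G (l ^ 2)
    · rw [h] at hd
      have D := n3_cast hd
      exact n3_one_ne hl'3 (by linear_combination B - D)
    · obtain ⟨Q'⟩ : Nonempty (Sylow l' G) := inferInstance
      obtain ⟨g', hg', hcent⟩ := n3_fixed Q' (l ^ 2) hd
      have hQne : (Q' : Subgroup G) ≠ ⊥ := Q'.ne_bot_of_dvd_card hl'G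
      haveI : Nontrivial ↥(Q' : Subgroup G) := (Subgroup.nontrivial_iff_ne_bot _).2 hQne
      have hdvd : l' ∣ Nat.card ↥(Q' : Subgroup G) := by
        rcases Q'.isPGroup'.card_eq_or_dvd with h1 | h1
        · exfalso
          have := (Finite.one_lt_card_iff_nontrivial (α := ↥(Q' : Subgroup G))).2 inferInstance
          omega
        · exact h1
      obtain ⟨u, hu⟩ := exists_prime_orderOf_dvd_card' (G := ↥(Q' : Subgroup G)) l' hdvd
      have h1 := hcent u.1 u.2
      have h3 : (u : G) * g' = g' * u := by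
        calc (u : G) * g' = (u : G) * g' * (u : G)⁻¹ * u := by group
          _ = g' * u := by rw [h1]
      have hc : Commute (g' ^ l) (u : G) := (show Commute g' (u : G) from h3.symm).pow_left l
      have ho1 : orderOf (g' ^ l) = l := by
        rw [orderOf_pow_of_dvd hl.ne_zero (by rw [hg']; exact dvd_pow_self l two_ne_zero), hg',
          pow_two]
        exact Nat.mul_div_cancel l hl.pos
      have ho2 : orderOf (u : G) = l' := by
        rw [Subgroup.orderOf_coe]
        exact hu
      have ho := hc.orderOf_mul_eq_mul_orderOf_of_coprime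
        (by rw [ho1, ho2]; exact (Nat.coprime_primes hl hl').2 hne)
      rw [ho1, ho2] at ho
      exact hcp _ ho

theorem n3_odd_two_core {a b : ℕ}
    (H : ∀ g : G, ordCount G (orderOf g) = 1 ∨ ordCount G (orderOf g) = a ∨
      ordCount G (orderOf g) = b)
    {p q : ℕ} (hp : p.Prime) (hq : q.Prime) (hp3 : 3 ≤ p) (hq3 : 3 ≤ q) (hpq : p ≠ q)
    (hpG : p ∣ Nat.card G) (hqG : q ∣ Nat.card G)
    (sp : ordCount G p = a) (sq : ordCount G q = b) :
    (∀ g : G, orderOf g ≠ p * q) ∧ (∀ g : G, orderOf g ≠ p ^ 2) ∧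
      (∀ g : G, orderOf g ≠ q ^ 2) := by
  haveI : Fact p.Prime := ⟨hp⟩
  haveI : Fact q.Prime := ⟨hq⟩
  have cpq : Nat.Coprime p q := (Nat.coprime_primes hp hq).2 hpq
  have dpq : p * q ∣ Nat.card G := Nat.Coprime.mul_dvd_of_dvd_of_dvd cpq hpG hqG
  have Ap := n3_cast (prime_dvd_one_add_ordCount hp hpG)
  rw [sp] at Ap
  push_cast at Ap
  have Bq := n3_cast (prime_dvd_one_add_ordCount hq hqG)
  rw [sq] at Bq
  push_cast at Bq
  have fpq := n3_frob_pq (G := G) hp hq hpq dpq
  rw [sp, sq] at fpq
  obtain ⟨gp, hgp⟩ := exists_prime_orderOf_dvd_card' (G := G) p hpG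
  obtain ⟨gq, hgq⟩ := exists_prime_orderOf_dvd_card' (G := G) q hqG
  have posa : 0 < a := by
    have := ordCount_pos gp
    rwa [hgp, sp] at this
  have posb : 0 < b := by
    have := ordCount_pos gq
    rwa [hgq, sq] at this
  obtain ⟨P⟩ : Nonempty (Sylow p G) := inferInstance
  obtain ⟨Q⟩ : Nonempty (Sylow q G) := inferInstance
  have hcp0 : ordCount G (p * q) = 0 := by
    rcases n3_T3 H (m := p * q) (by nlinarith) with h | h | h
    · exact h
    · exfalso
      rw [h] at fpq
      have E := n3_cast ((dvd_mul_right p q).trans fpq)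
      push_cast at E
      have Bp : (b : ZMod p) = 1 := by linear_combination E - 2 * Ap
      have hnd : ¬ p ∣ ordCount G q := by
        rw [sq]
        intro hd
        have D := n3_cast hd
        rw [Bp] at D
        exact n3_one_ne hp3 D
      obtain ⟨y, hy, hyP⟩ := n3_fixed P q hnd
      have h1 := n3_count hp hq hq3 hpq P y hy hyP
      rw [sp, h] at h1
      omega
    · exfalso
      rw [h] at fpq
      have E := n3_cast ((dvd_mul_left q p).trans fpq)
      push_cast at E
      have Aq : (a : ZMod q) = 1 := by linear_combination E - 2 * Bq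
      have hnd : ¬ q ∣ ordCount G p := by
        rw [sp]
        intro hd
        have D := n3_cast hd
        rw [Aq] at D
        exact n3_one_ne hq3 D
      obtain ⟨x, hx, hxQ⟩ := n3_fixed Q p hnd
      have h1 := n3_count hq hp hp3 (Ne.symm hpq) Q x hx hxQ
      rw [sq, mul_comm q p, h] at h1
      omega
  have hcp : ∀ g : G, orderOf g ≠ p * q := by
    intro g hg
    have := ordCount_pos g
    rw [hg, hcp0] at this
    omega
  refine ⟨hcp, ?_, ?_⟩
  · exact n3_nosq_cp hp hq hp3 hq3 hpq (fun m hm => n3_T3 H hm) sp sq hqG hcp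
  · exact n3_nosq_cp hq hp hq3 hp3 (Ne.symm hpq)
      (fun m hm => (n3_T3 H hm).imp_right Or.symm) sq sp hpG
      (fun g => by rw [mul_comm]; exact hcp g)

theorem n3_odd_two {a b : ℕ} (hodd : Odd (Nat.card G))
    (H : ∀ g : G, ordCount G (orderOf g) = 1 ∨ ordCount G (orderOf g) = a ∨
      ordCount G (orderOf g) = b)
    {p q : ℕ} (hp : p.Prime) (hq : q.Prime) (hpq : p ≠ q)
    (hpG : p ∣ Nat.card G) (hqG : q ∣ Nat.card G)
    (hall : ∀ l : ℕ, l.Prime → l ∣ Nat.card G → l = p ∨ l = q) :
    (∀ (l : ℕ) [Fact l.Prime] (L : Sylow l G), l ∣ Nat.card G →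
        Monoid.exponent ↥(L : Subgroup G) = l) ∧
      ∃ C : Subgroup G, Cfsg.IsFrobeniusComplement C ∧ (Nat.card ↥C).Prime := by
  have odd3 : ∀ l : ℕ, l.Prime → l ∣ Nat.card G → 3 ≤ l := by
    intro l hl dl
    have h2 := hl.two_le
    have : l ≠ 2 := by
      rintro rfl
      exact hodd.not_two_dvd_nat dl
    omega
  have hp3 := odd3 p hp hpG
  have hq3 := odd3 q hq hqG
  have H' : ∀ g : G, ordCount G (orderOf g) = 1 ∨ ordCount G (orderOf g) = b ∨
      ordCount G (orderOf g) = a := fun g => (H g).imp_right Or.symm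
  have vp := n3_prime_val H hp hp3 hpG
  have vq := n3_prime_val H hq hq3 hqG
  have same : ∀ (a b : ℕ), (∀ g : G, ordCount G (orderOf g) = 1 ∨ ordCount G (orderOf g) = a ∨
      ordCount G (orderOf g) = b) → ordCount G p = a → ordCount G q = a → False := by
    intro a b H sp sq
    apply (n3_odd_core H (dvd_refl _) hodd (le_of_eq n3_total) hp hq hpG hqG hpq sp sq).2
    intro l hl dl
    rcases hall l hl dl with rfl | rfl
    · exact sp
    · exact sq
  have facts : (∀ g : G, orderOf g ≠ p * q) ∧ (∀ g : G, orderOf g ≠ p ^ 2) ∧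
      (∀ g : G, orderOf g ≠ q ^ 2) := by
    rcases vp with vp | vp <;> rcases vq with vq | vq
    · exact (same a b H vp vq).elim
    · exact n3_odd_two_core H hp hq hp3 hq3 hpq hpG hqG vp vq
    · exact n3_odd_two_core H' hp hq hp3 hq3 hpq hpG hqG vp vq
    · exact (same b a H' vp vq).elim
  obtain ⟨hcp, hp2, hq2⟩ := facts
  constructor
  · intro l _ L hlG
    have hl : l.Prime := Fact.out
    have hl2 : ∀ g : G, orderOf g ≠ l ^ 2 := by
      rcases hall l hl hlG with rfl | rfl
      · exact hp2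
      · exact hq2
    have h1 : ∀ g : ↥(L : Subgroup G), g ^ l = 1 := by
      intro g
      obtain ⟨k, hk⟩ := (IsPGroup.iff_orderOf.1 L.isPGroup') g
      have hk' : orderOf (g : G) = l ^ k := by
        rw [Subgroup.orderOf_coe]
        exact hk
      have h3 : (g : G) ^ l = 1 := by
        rcases order_one_or_prime hl hl2 (g : G) k
          (by rw [← hk']; exact pow_orderOf_eq_one _) with h | h
        · rw [orderOf_eq_one_iff.1 h, one_pow]
        · have h4 := pow_orderOf_eq_one (g : G)
          rwa [h] at h4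
      exact Subtype.ext h3
    have h2 := Monoid.exponent_dvd_of_forall_pow_eq_one h1
    rcases (Nat.dvd_prime hl).1 h2 with h | h
    · exfalso
      haveI : Subsingleton ↥(L : Subgroup G) := Monoid.exp_eq_one_iff.1 h
      exact L.ne_bot_of_dvd_card hlG (Subgroup.eq_bot_of_subsingleton _)
    · exact h
  · haveI : Group.IsSolvable G := n3_solv_two_primes hp hq hall
    haveI : Nontrivial G := by
      rw [← Finite.one_lt_card_iff_nontrivial]
      have := Nat.le_of_dvd Nat.card_pos hpG
      omega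
    obtain ⟨r, hr, hrK⟩ := Cfsg.Agent.Helper10.exists_prime_pCore_ne_bot (M := G)
    have hrG : r ∣ Nat.card G := by
      haveI : Fact r.Prime := ⟨hr⟩
      haveI : Nontrivial ↥(Cfsg.pCore r G) := (Subgroup.nontrivial_iff_ne_bot _).2 hrK
      have hKp : IsPGroup r ↥(Cfsg.pCore r G) := Cfsg.Agent.Helper9.pCore_isPGroup r
      rcases hKp.card_eq_or_dvd with h1 | h1
      · exfalso
        have := (Finite.one_lt_card_iff_nontrivial (α := ↥(Cfsg.pCore r G))).2 inferInstance
        omega
      · exact h1.trans (Subgroup.card_subgroup_dvd_card _)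
    rcases hall r hr hrG with rfl | rfl
    · exact n3_struct hr hq hpq hall hqG hcp hp2 hq2 hrK
    · exact n3_struct hr hp (Ne.symm hpq) (fun l hl hlG => (hall l hl hlG).symm) hpG
        (fun g => by rw [mul_comm]; exact hcp g) hq2 hp2 hrK

theorem n3_odd_main {a b : ℕ} (hodd : Odd (Nat.card G))
    (H : ∀ g : G, ordCount G (orderOf g) = 1 ∨ ordCount G (orderOf g) = a ∨
      ordCount G (orderOf g) = b) :
    (Nat.card G).primeFactors.card ≤ 2 ∧
      ((Nat.card G).primeFactors.card = 2 →
        (∀ (p : ℕ) [Fact p.Prime] (P : Sylow p G), p ∣ Nat.card G →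
          Monoid.exponent ↥(P : Subgroup G) = p) ∧
        ∃ C : Subgroup G, Cfsg.IsFrobeniusComplement C ∧ (Nat.card ↥C).Prime) := by
  classical
  have no3 : ∀ p q r : ℕ, p.Prime → q.Prime → r.Prime → p ∣ Nat.card G → q ∣ Nat.card G →
      r ∣ Nat.card G → p ≠ q → p ≠ r → q ≠ r → False :=
    fun p q r hp hq hr hpM hqM hrM hpq hpr hqr =>
      n3_odd H (dvd_refl _) hodd (le_of_eq n3_total) hp hq hr hpM hqM hrM hpq hpr hqr
  constructor
  · obtain ⟨p, q, hp, hq, hall⟩ := n3_two_of_no_three (Nat.card G) no3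
    have hsub : (Nat.card G).primeFactors ⊆ {p, q} := by
      intro l hl
      rw [Nat.mem_primeFactors] at hl
      rcases hall l hl.1 hl.2.1 with h | h <;> simp [h]
    exact (Finset.card_le_card hsub).trans Finset.card_le_two
  · intro h2
    obtain ⟨p, q, hpq, hpf⟩ := Finset.card_eq_two.1 h2
    have hpmem : p ∈ (Nat.card G).primeFactors := by rw [hpf]; simp
    have hqmem : q ∈ (Nat.card G).primeFactors := by rw [hpf]; simp
    obtain ⟨hp, hpG, -⟩ := Nat.mem_primeFactors.1 hpmem
    obtain ⟨hq, hqG, -⟩ := Nat.mem_primeFactors.1 hqmem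
    have hall : ∀ l : ℕ, l.Prime → l ∣ Nat.card G → l = p ∨ l = q := by
      intro l hl hlG
      have h3 : l ∈ (Nat.card G).primeFactors :=
        Nat.mem_primeFactors.2 ⟨hl, hlG, Nat.card_pos.ne'⟩
      rw [hpf] at h3
      simpa using h3
    exact n3_odd_two hodd H hp hq hpq hpG hqG hall

end Nse3

end Cfsg.Agent.Helper21
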