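import Mathlib
import Cfsg.Agent.Helper9.Fitting

set_option autoImplicit false

namespace Cfsg.Agent.Helper21

section Ord4A

variable {G : Type*} [Group G]

/-- For a finite subgroup `W` invariant under conjugation by `t`, on which `t` has no nontrivial
fixed point, every element of `W` has the form `g⁻¹ (t g t⁻¹)`. -/
theorem o4_surj_gen [Finite G] (W : Subgroup G) (t : G)
    (hW : ∀ w ∈ W, t * w * t⁻¹ ∈ W) (hfix : ∀ w ∈ W, t * w = w * t → w = 1) :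
    ∀ h ∈ W, ∃ g ∈ W, g⁻¹ * (t * g * t⁻¹) = h := by
  let f : W → W := fun g => ⟨(g : G)⁻¹ * (t * g * t⁻¹), W.mul_mem (W.inv_mem g.2) (hW g g.2)⟩
  have hinj : Function.Injective f := by
    intro g g' hgg
    have heq : (g : G)⁻¹ * (t * g * t⁻¹) = (g' : G)⁻¹ * (t * g' * t⁻¹) := congrArg Subtype.val hgg
    have hcomm : t * ((g' : G) * (g : G)⁻¹) = ((g' : G) * (g : G)⁻¹) * t := by
      calc t * ((g' : G) * (g : G)⁻¹)
          = (g' : G) * ((g' : G)⁻¹ * (t * g' * t⁻¹)) * ((g : G)⁻¹ * (t * g * t⁻¹))⁻¹ * (g : G)⁻¹ * t := by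
            group
        _ = (g' : G) * ((g : G)⁻¹ * (t * g * t⁻¹)) * ((g : G)⁻¹ * (t * g * t⁻¹))⁻¹ * (g : G)⁻¹ * t := by
            rw [heq]
        _ = (g' : G) * (g : G)⁻¹ * t := by group
    have h1 := hfix _ (W.mul_mem g'.2 (W.inv_mem g.2)) hcomm
    exact Subtype.ext (mul_inv_eq_one.1 h1).symm
  have hsur := Finite.injective_iff_surjective.1 hinj
  intro h hh
  obtain ⟨g, hg⟩ := hsur ⟨h, hh⟩
  exact ⟨g, g.2, congrArg Subtype.val hg⟩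

/-- An involution acting without nontrivial fixed points on a finite subgroup inverts it, and the
subgroup is abelian. -/
theorem o4_inv_lemma [Finite G] (W : Subgroup G) (t : G) (ht : t * t = 1)
    (hW : ∀ w ∈ W, t * w * t⁻¹ ∈ W) (hfix : ∀ w ∈ W, t * w = w * t → w = 1) :
    (∀ w ∈ W, t * w * t⁻¹ = w⁻¹) ∧ ∀ a ∈ W, ∀ b ∈ W, a * b = b * a := by
  have hinv : ∀ w ∈ W, t * w * t⁻¹ = w⁻¹ := by
    intro w hw
    obtain ⟨g, hg, rfl⟩ := o4_surj_gen W t hW hfix w hw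
    calc t * (g⁻¹ * (t * g * t⁻¹)) * t⁻¹ = (t * g * t⁻¹)⁻¹ * ((t * t) * g * (t * t)⁻¹) := by group
      _ = (t * g * t⁻¹)⁻¹ * g := by rw [ht]; group
      _ = (g⁻¹ * (t * g * t⁻¹))⁻¹ := by group
  refine ⟨hinv, ?_⟩
  intro a ha b hb
  have h1 := hinv (a * b) (W.mul_mem ha hb)
  have h2 := hinv a ha
  have h3 := hinv b hb
  have h4 : a⁻¹ * b⁻¹ = b⁻¹ * a⁻¹ := by
    calc a⁻¹ * b⁻¹ = (t * a * t⁻¹) * (t * b * t⁻¹) := by rw [h2, h3]
      _ = t * (a * b) * t⁻¹ := by group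
      _ = (a * b)⁻¹ := h1
      _ = b⁻¹ * a⁻¹ := by group
  have h5 := congrArg (fun z => z⁻¹) h4
  simp only [mul_inv_rev, inv_inv] at h5
  exact h5.symm

theorem o4_F1 [Finite G] (T : Subgroup G) (hTn : T.Normal) (x : G) (hx3 : x ^ 3 = 1)
    (hfix : ∀ t ∈ T, x * t = t * x → t = 1) :
    ∀ t ∈ T, t * (x * t * x⁻¹) * (x * (x * t * x⁻¹) * x⁻¹) = 1 := by
  intro t ht
  obtain ⟨g, hg, rfl⟩ := o4_surj_gen T x (fun w hw => hTn.conj_mem w hw x) hfix t ht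
  have hx3' : x * x * x = 1 := by rw [← pow_three', hx3]
  have h : g⁻¹ * (x * g * x⁻¹) * (x * (g⁻¹ * (x * g * x⁻¹)) * x⁻¹) *
      (x * (x * (g⁻¹ * (x * g * x⁻¹)) * x⁻¹) * x⁻¹) = g⁻¹ * (x * x * x) * g * (x * x * x)⁻¹ := by
    group
  rw [h, hx3']; simp

theorem o4_F1' [Finite G] (T : Subgroup G) (hTn : T.Normal) (x : G) (hx3 : x ^ 3 = 1)
    (hfix : ∀ t ∈ T, x * t = t * x → t = 1) :
    ∀ t ∈ T, (x * (x * t * x⁻¹) * x⁻¹) * (x * t * x⁻¹) * t = 1 := by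
  intro t ht
  have h := o4_F1 T hTn x hx3 hfix t⁻¹ (T.inv_mem ht)
  have h' : (x * (x * t * x⁻¹) * x⁻¹) * (x * t * x⁻¹) * t =
      (t⁻¹ * (x * t⁻¹ * x⁻¹) * (x * (x * t⁻¹ * x⁻¹) * x⁻¹))⁻¹ := by
    simp only [mul_inv_rev, inv_inv, mul_assoc]
  rw [h', h, inv_one]

theorem o4_comm [Finite G] (T : Subgroup G) (hTn : T.Normal) (x : G) (hx3 : x ^ 3 = 1)
    (hfix : ∀ t ∈ T, x * t = t * x → t = 1) :
    ∀ t ∈ T, t * (x * t * x⁻¹) = (x * t * x⁻¹) * t := by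
  intro t ht
  have h1 := o4_F1 T hTn x hx3 hfix t ht
  have h2 := o4_F1' T hTn x hx3 hfix t ht
  rw [mul_assoc] at h2
  exact (eq_inv_of_mul_eq_one_left h1).trans (eq_inv_of_mul_eq_one_right h2).symm

theorem o4_E [Finite G] (T : Subgroup G) (hTn : T.Normal) (x : G) (hx3 : x ^ 3 = 1)
    (hfix : ∀ t ∈ T, x * t = t * x → t = 1) :
    ∀ t ∈ T, ∀ h ∈ T, t * (h * (x * t * x⁻¹) * h⁻¹) = (h * (x * t * x⁻¹) * h⁻¹) * t := by
  intro t ht h hh
  obtain ⟨g, hg, rfl⟩ := o4_surj_gen T x (fun w hw => hTn.conj_mem w hw x) hfix h hh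
  have hc := o4_comm T hTn x hx3 hfix (g * t * g⁻¹) (hTn.conj_mem t ht g)
  calc t * (g⁻¹ * (x * g * x⁻¹) * (x * t * x⁻¹) * (g⁻¹ * (x * g * x⁻¹))⁻¹)
      = g⁻¹ * ((g * t * g⁻¹) * (x * (g * t * g⁻¹) * x⁻¹)) * g := by group
    _ = g⁻¹ * ((x * (g * t * g⁻¹) * x⁻¹) * (g * t * g⁻¹)) * g := by rw [hc]
    _ = (g⁻¹ * (x * g * x⁻¹) * (x * t * x⁻¹) * (g⁻¹ * (x * g * x⁻¹))⁻¹) * t := by group

theorem o4_engel [Finite G] (T : Subgroup G) (hTn : T.Normal) (x : G) (hx3 : x ^ 3 = 1)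
    (hfix : ∀ t ∈ T, x * t = t * x → t = 1) :
    ∀ t ∈ T, ∀ h ∈ T, t * (h * t * h⁻¹) = (h * t * h⁻¹) * t := by
  intro t ht h hh
  have hxi3 : x⁻¹ ^ 3 = 1 := by rw [inv_pow, hx3, inv_one]
  have hfix' : ∀ t ∈ T, x⁻¹ * t = t * x⁻¹ → t = 1 := by
    intro t ht hc
    apply hfix t ht
    calc x * t = x * (t * x⁻¹) * x := by group
      _ = x * (x⁻¹ * t) * x := by rw [hc]
      _ = t * x := by group
  have hA : Commute t (h * (x * t * x⁻¹) * h⁻¹) := o4_E T hTn x hx3 hfix t ht h hh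
  have hB : Commute t (h * (x⁻¹ * t * x⁻¹⁻¹) * h⁻¹) := o4_E T hTn x⁻¹ hxi3 hfix' t ht h hh
  have hF := o4_F1 T hTn x hx3 hfix t ht
  have hxx : x * x = x⁻¹ := by
    have h3 : x * x * x = 1 := by rw [← pow_three', hx3]
    exact eq_inv_of_mul_eq_one_left h3
  have hw : x * (x * t * x⁻¹) * x⁻¹ = x⁻¹ * t * x⁻¹⁻¹ := by
    calc x * (x * t * x⁻¹) * x⁻¹ = (x * x) * t * (x * x)⁻¹ := by group
      _ = x⁻¹ * t * x⁻¹⁻¹ := by rw [hxx]
  rw [hw] at hF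
  have ht' : t = ((x * t * x⁻¹) * (x⁻¹ * t * x⁻¹⁻¹))⁻¹ :=
    eq_inv_of_mul_eq_one_left (by rw [← mul_assoc]; exact hF)
  have key : h * t * h⁻¹ =
      ((h * (x * t * x⁻¹) * h⁻¹) * (h * (x⁻¹ * t * x⁻¹⁻¹) * h⁻¹))⁻¹ := by
    have h5 : h * t * h⁻¹ = h * ((x * t * x⁻¹) * (x⁻¹ * t * x⁻¹⁻¹))⁻¹ * h⁻¹ := by rw [← ht']
    rw [h5]; group
  rw [key]
  exact ((Commute.mul_right hA hB).inv_right).eq

theorem o4_sq_central [Finite G] (T : Subgroup G) (hTn : T.Normal) (x : G) (hx3 : x ^ 3 = 1)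
    (hfix : ∀ t ∈ T, x * t = t * x → t = 1) (h4 : ∀ t ∈ T, t ^ 4 = 1) :
    ∀ a ∈ T, ∀ b ∈ T, a * a * b = b * (a * a) := by
  intro a ha b hb
  obtain ⟨c, hc⟩ : ∃ c, c = a * b * a⁻¹ * b⁻¹ := ⟨_, rfl⟩
  have hcT : c ∈ T := by
    rw [hc]; exact T.mul_mem (T.mul_mem (T.mul_mem ha hb) (T.inv_mem ha)) (T.inv_mem hb)
  have hca : Commute a c := by
    have h1 : Commute a (b * a * b⁻¹) := o4_engel T hTn x hx3 hfix a ha b hb
    have h2 : c = a * (b * a * b⁻¹)⁻¹ := by rw [hc]; group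
    rw [h2]
    exact (Commute.refl a).mul_right h1.inv_right
  have hcb : Commute b c := by
    have h1 : Commute b (a * b * a⁻¹) := o4_engel T hTn x hx3 hfix b hb a ha
    have h2 : c = (a * b * a⁻¹) * b⁻¹ := by rw [hc]
    rw [h2]
    exact h1.mul_right (Commute.refl b).inv_right
  have hab : a * b = c * (b * a) := by rw [hc]; group
  have r1 : ∀ z, a * (c * z) = c * (a * z) := fun z => by rw [← mul_assoc, hca.eq, mul_assoc]
  have r2 : ∀ z, b * (c * z) = c * (b * z) := fun z => by rw [← mul_assoc, hcb.eq, mul_assoc]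
  have r3 : ∀ z, a * (b * z) = c * (b * (a * z)) := fun z => by
    rw [← mul_assoc, hab]; simp only [mul_assoc]
  have ha4 : a * (a * (a * a)) = 1 := by simpa [pow_succ, mul_assoc] using h4 a ha
  have hb4 : b * (b * (b * b)) = 1 := by simpa [pow_succ, mul_assoc] using h4 b hb
  have hc4 : c * (c * (c * c)) = 1 := by simpa [pow_succ, mul_assoc] using h4 c hcT
  have hab4 : a * (b * (a * (b * (a * (b * (a * b)))))) = 1 := by
    simpa [pow_succ, mul_assoc] using h4 (a * b) (T.mul_mem ha hb)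
  have e1 : a * (b * (a * (b * (a * (b * (a * b)))))) =
      c * (c * (c * (c * (c * (c * (c * (c * (c * (c * (b * (b * (b * (b *
        (a * (a * (a * a)))))))))))))))) := by
    simp only [mul_assoc, r1, r2, r3, hca.eq, hcb.eq, hab]
  rw [hab4, ha4, mul_one, hb4, mul_one] at e1
  have hcc : c * c = 1 := by
    have e2 : c * (c * (c * (c * (c * (c * (c * (c * (c * c)))))))) =
        (c * (c * (c * c))) * ((c * (c * (c * c))) * (c * c)) := by group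
    rw [e2, hc4, one_mul, one_mul] at e1
    exact e1.symm
  have e3 : a * a * b = c * (c * (b * (a * a))) := by
    simp only [mul_assoc, r1, r2, r3, hca.eq, hcb.eq, hab]
  rw [e3, ← mul_assoc, hcc, one_mul]

theorem o4_comm_central [Finite G] (T : Subgroup G) (hTn : T.Normal) (x : G) (hx3 : x ^ 3 = 1)
    (hfix : ∀ t ∈ T, x * t = t * x → t = 1) (h4 : ∀ t ∈ T, t ^ 4 = 1) :
    ∀ a ∈ T, ∀ b ∈ T, ∀ d ∈ T, (a * b * a⁻¹ * b⁻¹) * d = d * (a * b * a⁻¹ * b⁻¹) := by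
  intro a ha b hb d hd
  have hsq := o4_sq_central T hTn x hx3 hfix h4
  have h1 : (a * b) * (a * b) * (a⁻¹ * a⁻¹) * (b⁻¹ * b⁻¹) = a * b * a⁻¹ * b⁻¹ := by
    have h0 := hsq a⁻¹ (T.inv_mem ha) b hb
    calc (a * b) * (a * b) * (a⁻¹ * a⁻¹) * (b⁻¹ * b⁻¹)
        = a * b * a * (b * (a⁻¹ * a⁻¹)) * b⁻¹ * b⁻¹ := by group
      _ = a * b * a * (a⁻¹ * a⁻¹ * b) * b⁻¹ * b⁻¹ := by rw [h0]
      _ = a * b * a⁻¹ * b⁻¹ := by group
  have c1 : Commute ((a * b) * (a * b)) d := hsq (a * b) (T.mul_mem ha hb) d hd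
  have c2 : Commute (a⁻¹ * a⁻¹) d := hsq a⁻¹ (T.inv_mem ha) d hd
  have c3 : Commute (b⁻¹ * b⁻¹) d := hsq b⁻¹ (T.inv_mem hb) d hd
  rw [← h1]
  exact ((c1.mul_left c2).mul_left c3).eq

theorem o4_step (t u w β : G) (tuw : t * u * w = 1) (wut : w * u * t = 1)
    (h1 : (β * t) * (β * t) = 1) (h2 : (β * u) * (β * u) = 1) (h3 : (β * w) * (β * w) = 1)
    (hc : β * β * u = u * (β * β)) (h4 : β * β * (β * β) = 1) : β * β = 1 := by
  have ht : t⁻¹ = β * t * β := (mul_eq_one_iff_eq_inv.1 (by simpa [mul_assoc] using h1)).symm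
  have hu : u⁻¹ = β * u * β := (mul_eq_one_iff_eq_inv.1 (by simpa [mul_assoc] using h2)).symm
  have hw : w⁻¹ = β * w * β := (mul_eq_one_iff_eq_inv.1 (by simpa [mul_assoc] using h3)).symm
  have key : (w * u * t)⁻¹ = β * β := by
    calc (w * u * t)⁻¹ = t⁻¹ * u⁻¹ * w⁻¹ := by group
      _ = (β * t * β) * (β * u * β) * (β * w * β) := by rw [← ht, ← hu, ← hw]
      _ = β * t * (β * β * u) * (β * β) * w * β := by group
      _ = β * t * (u * (β * β)) * (β * β) * w * β := by rw [hc]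
      _ = β * (t * u) * (β * β * (β * β)) * w * β := by group
      _ = β * (t * u * w) * β := by rw [h4]; group
      _ = β * β := by rw [tuw]; group
  rw [wut, inv_one] at key
  exact key.symm

end Ord4A

end Cfsg.Agent.Helper21
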