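import Mathlib
import Cfsg.Agent.Helper9.Fitting
import Cfsg.Agent.Helper21.Ord4A

set_option autoImplicit false

namespace Cfsg.Agent.Helper21

section Ord4B

variable {G : Type*} [Group G]

theorem o4_two_three (n : ℕ) (hn : 0 < n) (hp : ∀ p : ℕ, p.Prime → p ∣ n → p = 2 ∨ p = 3) :
    ∃ a b : ℕ, n = 2 ^ a * 3 ^ b := by
  obtain ⟨a, m, hm2, rfl⟩ := Nat.exists_eq_pow_mul_and_not_dvd hn.ne' 2 (by norm_num)
  have hm0 : m ≠ 0 := by
    rintro rfl
    simp at hn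
  obtain ⟨b, m', hm3, rfl⟩ := Nat.exists_eq_pow_mul_and_not_dvd hm0 3 (by norm_num)
  have hm1 : m' = 1 := by
    by_contra hne
    obtain ⟨p, hpp, hpd⟩ := Nat.exists_prime_and_dvd hne
    have hpn : p ∣ 2 ^ a * (3 ^ b * m') :=
      dvd_mul_of_dvd_right (dvd_mul_of_dvd_right hpd _) _
    rcases hp p hpp hpn with rfl | rfl
    · exact hm2 (dvd_mul_of_dvd_right hpd _)
    · exact hm3 hpd
  exact ⟨a, b, by rw [hm1, mul_one]⟩

theorem o4_no6 (hord : ∀ g : G, orderOf g = 1 ∨ orderOf g = 2 ∨ orderOf g = 3 ∨ orderOf g = 4)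
    (a b : G) (ha : orderOf a = 2) (hb : orderOf b = 3) (hab : a * b = b * a) : False := by
  have h := Commute.orderOf_mul_eq_mul_orderOf_of_coprime (show Commute a b from hab)
    (by rw [ha, hb]; norm_num)
  rw [ha, hb] at h
  rcases hord (a * b) with h1 | h1 | h1 | h1 <;> omega

theorem o4_sq_ord (g : G) (hg : orderOf g = 4) : orderOf (g ^ 2) = 2 := by
  rw [orderOf_pow' g (by norm_num : (2 : ℕ) ≠ 0), hg]; norm_num

theorem o4_cent3 (hord : ∀ g : G, orderOf g = 1 ∨ orderOf g = 2 ∨ orderOf g = 3 ∨ orderOf g = 4)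
    (x c : G) (hx : orderOf x = 3) (hc : x * c = c * x) : c ^ 3 = 1 := by
  rcases hord c with h1 | h1 | h1 | h1
  · rw [orderOf_eq_one_iff.1 h1, one_pow]
  · exact (o4_no6 hord c x h1 hx hc.symm).elim
  · rw [← h1]; exact pow_orderOf_eq_one c
  · exfalso
    apply o4_no6 hord (c ^ 2) x (o4_sq_ord c h1) hx
    exact (Commute.pow_left (show Commute c x from hc.symm) 2).eq

theorem o4_fix (hord : ∀ g : G, orderOf g = 1 ∨ orderOf g = 2 ∨ orderOf g = 3 ∨ orderOf g = 4)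
    (T : Subgroup G) (hT2 : IsPGroup 2 T) (x : G) (hx : orderOf x = 3) :
    ∀ t ∈ T, x * t = t * x → t = 1 := by
  intro t ht hc
  have h3 := o4_cent3 hord x t hx hc
  obtain ⟨k, hk⟩ := hT2 ⟨t, ht⟩
  have hk' : t ^ 2 ^ k = 1 := by simpa using congrArg Subtype.val hk
  have hd1 : orderOf t ∣ 3 := orderOf_dvd_of_pow_eq_one h3
  have hd2 : orderOf t ∣ 2 ^ k := orderOf_dvd_of_pow_eq_one hk'
  have hcop : Nat.Coprime 3 (2 ^ k) := Nat.Coprime.pow_right k (by norm_num)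
  have hc1 : Nat.Coprime (orderOf t) (2 ^ k) := Nat.Coprime.coprime_dvd_left hd1 hcop
  exact orderOf_eq_one_iff.1 (Nat.Coprime.eq_one_of_dvd hc1 hd2)

theorem o4_two_elt (hord : ∀ g : G, orderOf g = 1 ∨ orderOf g = 2 ∨ orderOf g = 3 ∨ orderOf g = 4)
    (T : Subgroup G) (hT2 : IsPGroup 2 T) : ∀ t ∈ T, t ^ 4 = 1 := by
  intro t ht
  obtain ⟨k, hk⟩ := hT2 ⟨t, ht⟩
  have hk' : t ^ 2 ^ k = 1 := by simpa using congrArg Subtype.val hk
  have hd : orderOf t ∣ 2 ^ k := orderOf_dvd_of_pow_eq_one hk'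
  rcases hord t with h1 | h1 | h1 | h1
  · rw [orderOf_eq_one_iff.1 h1, one_pow]
  · exact orderOf_dvd_iff_pow_eq_one.1 (by rw [h1]; norm_num)
  · exfalso
    rw [h1] at hd
    have := Nat.prime_three.dvd_of_dvd_pow hd
    omega
  · rw [← h1]; exact pow_orderOf_eq_one t

theorem o4_three_elt (hord : ∀ g : G, orderOf g = 1 ∨ orderOf g = 2 ∨ orderOf g = 3 ∨ orderOf g = 4)
    (W : Subgroup G) (hW3 : IsPGroup 3 W) : ∀ w ∈ W, w ^ 3 = 1 := by
  intro w hw
  obtain ⟨k, hk⟩ := hW3 ⟨w, hw⟩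
  have hk' : w ^ 3 ^ k = 1 := by simpa using congrArg Subtype.val hk
  have hd : orderOf w ∣ 3 ^ k := orderOf_dvd_of_pow_eq_one hk'
  rcases hord w with h1 | h1 | h1 | h1
  · rw [orderOf_eq_one_iff.1 h1, one_pow]
  · exfalso
    rw [h1] at hd
    have := Nat.prime_two.dvd_of_dvd_pow hd
    omega
  · rw [← h1]; exact pow_orderOf_eq_one w
  · exfalso
    rw [h1] at hd
    have h2 : 2 ∣ 3 ^ k := dvd_trans (by norm_num) hd
    have := Nat.prime_two.dvd_of_dvd_pow h2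
    omega

theorem o4_fix2 (hord : ∀ g : G, orderOf g = 1 ∨ orderOf g = 2 ∨ orderOf g = 3 ∨ orderOf g = 4)
    (W : Subgroup G) (hW3 : ∀ w ∈ W, w ^ 3 = 1) (t : G) (ht : orderOf t = 2) :
    ∀ w ∈ W, t * w = w * t → w = 1 := by
  intro w hw hc
  by_contra hw1
  have hd : orderOf w ∣ 3 := orderOf_dvd_of_pow_eq_one (hW3 w hw)
  rcases (Nat.dvd_prime Nat.prime_three).1 hd with h | h
  · exact hw1 (orderOf_eq_one_iff.1 h)
  · exact o4_no6 hord t w ht h hc

theorem o4_prime_dvd (hord : ∀ g : G, orderOf g = 1 ∨ orderOf g = 2 ∨ orderOf g = 3 ∨ orderOf g = 4)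
    (g : G) (q : ℕ) (hq : q.Prime) (h : q ∣ orderOf g) : q = 2 ∨ q = 3 := by
  rcases hord g with h1 | h1 | h1 | h1
  · rw [h1] at h
    exact absurd (Nat.dvd_one.1 h) hq.one_lt.ne'
  · rw [h1] at h
    exact Or.inl ((Nat.prime_dvd_prime_iff_eq hq Nat.prime_two).1 h)
  · rw [h1] at h
    exact Or.inr ((Nat.prime_dvd_prime_iff_eq hq Nat.prime_three).1 h)
  · rw [h1] at h
    have h2 : q ∣ 2 ^ 2 := by simpa using h
    exact Or.inl ((Nat.prime_dvd_prime_iff_eq hq Nat.prime_two).1 (hq.dvd_of_dvd_pow h2))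

theorem o4_pgroup_dvd (q : ℕ) (hq : q.Prime) (W : Subgroup G) (hW : IsPGroup q W) (z : G)
    (hz : z ∈ W) (hz1 : z ≠ 1) : q ∣ orderOf z := by
  obtain ⟨k, hk⟩ := hW ⟨z, hz⟩
  have hk' : z ^ q ^ k = 1 := by simpa using congrArg Subtype.val hk
  obtain ⟨j, -, hj⟩ := (Nat.dvd_prime_pow hq).1 (orderOf_dvd_of_pow_eq_one hk')
  rcases Nat.eq_zero_or_pos j with h0 | h0
  · rw [h0, pow_zero] at hj
    exact absurd (orderOf_eq_one_iff.1 hj) hz1
  · rw [hj]; exact dvd_pow_self q h0.ne'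

/-- No elementary abelian group of order 9 acts freely on a nontrivial 2-group. -/
theorem o4_no_rank_two [Finite G] (T : Subgroup G) (hTn : T.Normal) (hT2 : IsPGroup 2 T)
    (hT : T ≠ ⊥)
    (hF : ∀ g : G, g ≠ 1 → g ^ 3 = 1 →
      ∀ t ∈ T, t * (g * t * g⁻¹) * (g * (g * t * g⁻¹) * g⁻¹) = 1)
    (x y : G) (hx3 : x ^ 3 = 1) (hy3 : y ^ 3 = 1) (hxy : x * y = y * x)
    (hx1 : x ≠ 1) (hy1 : y ≠ 1) (h1 : x * y ≠ 1) (h2 : x * y * y ≠ 1) : False := by
  classical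
  haveI : Nontrivial ↥T := (Subgroup.nontrivial_iff_ne_bot T).2 hT
  haveI : Fact (Nat.Prime 2) := ⟨Nat.prime_two⟩
  haveI := hT2.center_nontrivial
  obtain ⟨v, hv⟩ := exists_ne (1 : ↥(Subgroup.center ↥T))
  have hex : ∀ (g : G) (z : ↥(Subgroup.center ↥T)), ∃ z' : ↥(Subgroup.center ↥T),
      ((z' : ↥T) : G) = g * ((z : ↥T) : G) * g⁻¹ := by
    intro g z
    have hmemT : g * ((z : ↥T) : G) * g⁻¹ ∈ T := hTn.conj_mem _ (z : ↥T).2 g
    refine ⟨⟨⟨_, hmemT⟩, ?_⟩, rfl⟩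
    rw [Subgroup.mem_center_iff]
    intro u
    apply Subtype.ext
    show (u : G) * (g * ((z : ↥T) : G) * g⁻¹) = (g * ((z : ↥T) : G) * g⁻¹) * (u : G)
    have hu' : g⁻¹ * (u : G) * g ∈ T := by
      have := hTn.conj_mem _ u.2 g⁻¹
      simpa using this
    have hz := Subgroup.mem_center_iff.1 z.2 ⟨_, hu'⟩
    have hz' : (g⁻¹ * (u : G) * g) * ((z : ↥T) : G) = ((z : ↥T) : G) * (g⁻¹ * (u : G) * g) :=
      congrArg Subtype.val hz
    calc (u : G) * (g * ((z : ↥T) : G) * g⁻¹)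
        = g * ((g⁻¹ * (u : G) * g) * ((z : ↥T) : G)) * g⁻¹ := by group
      _ = g * (((z : ↥T) : G) * (g⁻¹ * (u : G) * g)) * g⁻¹ := by rw [hz']
      _ = (g * ((z : ↥T) : G) * g⁻¹) * (u : G) := by group
  obtain ⟨e10, h10⟩ := hex x v
  obtain ⟨e20, h20⟩ := hex x e10
  obtain ⟨e11, h11⟩ := hex y e10
  obtain ⟨e12, h12⟩ := hex y e11
  obtain ⟨e21, h21⟩ := hex y e20
  obtain ⟨e22, h22⟩ := hex y e21
  have hlift : ∀ a b c : ↥(Subgroup.center ↥T),
      ((a : ↥T) : G) * ((b : ↥T) : G) * ((c : ↥T) : G) = 1 → a * b * c = 1 := by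
    intro a b c h
    apply Subtype.ext; apply Subtype.ext
    simpa using h
  have hyx : y * x = x * y := hxy.symm
  have hyx' : ∀ z, y * (x * z) = x * (y * z) := fun z => by rw [← mul_assoc, hyx, mul_assoc]
  have hx3' : x * x * x = 1 := by rw [← pow_three', hx3]
  have hy3' : y * y * y = 1 := by rw [← pow_three', hy3]
  have hcxy : Commute x y := hxy
  have hvT : ((v : ↥T) : G) ∈ T := (v : ↥T).2
  obtain ⟨v', hv'⟩ : ∃ v' : G, v' = ((v : ↥T) : G) := ⟨_, rfl⟩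
  rw [← hv'] at h10 hvT
  -- the six relations
  have E1 : v * e10 * e20 = 1 := by
    apply hlift
    rw [h20, h10, ← hv']
    exact hF x hx1 hx3 v' hvT
  have E5b : e10 * e11 * e12 = 1 := by
    apply hlift
    rw [h12, h11]
    exact hF y hy1 hy3 _ (e10 : ↥T).2
  have E5c : e20 * e21 * e22 = 1 := by
    apply hlift
    rw [h22, h21]
    exact hF y hy1 hy3 _ (e20 : ↥T).2
  have E3 : v * e11 * e22 = 1 := by
    apply hlift
    rw [h22, h21, h20, h11, h10, ← hv']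
    have hg3 : (x * y) ^ 3 = 1 := by rw [hcxy.mul_pow, hx3, hy3, one_mul]
    have h := hF (x * y) h1 hg3 v' hvT
    have k1 : (x * y) * v' * (x * y)⁻¹ = y * (x * v' * x⁻¹) * y⁻¹ := by
      rw [hxy]; group
    have hsq : (x * y) * (x * y) = y * y * (x * x) := by
      simp only [mul_assoc, hyx, hyx']
    have k2 : (x * y) * ((x * y) * v' * (x * y)⁻¹) * (x * y)⁻¹ =
        y * (y * (x * (x * v' * x⁻¹) * x⁻¹) * y⁻¹) * y⁻¹ := by
      calc (x * y) * ((x * y) * v' * (x * y)⁻¹) * (x * y)⁻¹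
          = ((x * y) * (x * y)) * v' * ((x * y) * (x * y))⁻¹ := by group
        _ = (y * y * (x * x)) * v' * (y * y * (x * x))⁻¹ := by rw [hsq]
        _ = y * (y * (x * (x * v' * x⁻¹) * x⁻¹) * y⁻¹) * y⁻¹ := by group
    rw [k2, k1] at h
    exact h
  have E4 : v * e12 * e21 = 1 := by
    apply hlift
    rw [h12, h11, h21, h20, h10, ← hv']
    have hg3 : (x * y * y) ^ 3 = 1 := by
      rw [mul_assoc, (hcxy.mul_right hcxy).mul_pow, hx3, one_mul]
      have : (y * y) ^ 3 = (y ^ 3) ^ 2 := by rw [← pow_two, ← pow_mul, ← pow_mul]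
      rw [this, hy3, one_pow]
    have h := hF (x * y * y) h2 hg3 v' hvT
    have hg : x * y * y = y * y * x := by simp only [mul_assoc, hyx, hyx']
    have k1 : (x * y * y) * v' * (x * y * y)⁻¹ = y * (y * (x * v' * x⁻¹) * y⁻¹) * y⁻¹ := by
      rw [hg]; group
    have hsq : (x * y * y) * (x * y * y) = y * (x * x) * (y * y * y) := by
      simp only [mul_assoc, hyx, hyx']
    have k2 : (x * y * y) * ((x * y * y) * v' * (x * y * y)⁻¹) * (x * y * y)⁻¹ =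
        y * (x * (x * v' * x⁻¹) * x⁻¹) * y⁻¹ := by
      calc (x * y * y) * ((x * y * y) * v' * (x * y * y)⁻¹) * (x * y * y)⁻¹
          = ((x * y * y) * (x * y * y)) * v' * ((x * y * y) * (x * y * y))⁻¹ := by group
        _ = (y * (x * x)) * v' * (y * (x * x))⁻¹ := by rw [hsq, hy3', mul_one]
        _ = y * (x * (x * v' * x⁻¹) * x⁻¹) * y⁻¹ := by group
    rw [k2, k1] at h
    exact h
  letI : CommGroup ↥(Subgroup.center ↥T) :=
    { (inferInstance : Group ↥(Subgroup.center ↥T)) with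
      mul_comm := fun a b => Subtype.ext (Subgroup.mem_center_iff.1 b.2 a.1) }
  have big : (v * e10 * e20) * (v * e11 * e22) * (v * e12 * e21) =
      (v * v * v) * ((e10 * e11 * e12) * (e20 * e21 * e22)) := by
    ac_rfl
  rw [E1, E3, E4, E5b, E5c] at big
  have hv3 : v * v * v = 1 := by simpa using big.symm
  have hv3' : (v : ↥T) ^ 3 = 1 := by
    rw [pow_three']
    exact congrArg Subtype.val hv3
  obtain ⟨k, hk⟩ := hT2 (v : ↥T)
  have hd1 : orderOf (v : ↥T) ∣ 3 := orderOf_dvd_of_pow_eq_one hv3'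
  have hd2 : orderOf (v : ↥T) ∣ 2 ^ k := orderOf_dvd_of_pow_eq_one hk
  have hcop : Nat.Coprime 3 (2 ^ k) := Nat.Coprime.pow_right k (by norm_num)
  have hc1 : Nat.Coprime (orderOf (v : ↥T)) (2 ^ k) := Nat.Coprime.coprime_dvd_left hd1 hcop
  have hv1 : (v : ↥T) = 1 := orderOf_eq_one_iff.1 (Nat.Coprime.eq_one_of_dvd hc1 hd2)
  exact hv (Subtype.ext hv1)

end Ord4B

end Cfsg.Agent.Helper21
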