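import Mathlib
import Cfsg.Prelude.Def_Transfer
import Cfsg.Prelude.Def_Solvable
import Cfsg.Agent.Helper9.Fitting
import Cfsg.Agent.Helper1.Quat
import Cfsg.Agent.Helper21.Ord4B

set_option autoImplicit false

namespace Cfsg.Agent.Helper21

section Ord4C

variable {G : Type*} [Group G]

theorem o4_caseB [Finite G]
    (hord : ∀ g : G, orderOf g = 1 ∨ orderOf g = 2 ∨ orderOf g = 3 ∨ orderOf g = 4)
    (t₀ : G) (ht₀ : orderOf t₀ = 2) (g₄ : G) (hg₄ : orderOf g₄ = 4)
    (hV : Cfsg.pCore 3 G ≠ ⊥) :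
    ∃ (N : Subgroup G) (_ : N.Normal), Cfsg.IsElementaryAbelian 3 N ∧
      ((IsCyclic (G ⧸ N) ∧ N.index = 4) ∨ Nonempty (G ⧸ N ≃* QuaternionGroup 2)) := by
  classical
  obtain ⟨V, hVdef⟩ : ∃ V : Subgroup G, V = Cfsg.pCore 3 G := ⟨_, rfl⟩
  rw [← hVdef] at hV
  have hVn : V.Normal := by rw [hVdef]; exact Subgroup.sSup_normal _ (fun _ h => h.1)
  have hV3 : IsPGroup 3 V := by rw [hVdef]; exact Cfsg.Agent.Helper9.pCore_isPGroup 3
  haveI := hVn
  have hVcube : ∀ v ∈ V, v ^ 3 = 1 := o4_three_elt hord V hV3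
  have hinv2 : ∀ t : G, orderOf t = 2 → t * t = 1 := by
    intro t ht
    have := pow_orderOf_eq_one t
    rw [ht, pow_two] at this
    exact this
  have ht₀2 : t₀ * t₀ = 1 := hinv2 t₀ ht₀
  have hinvV : ∀ t : G, orderOf t = 2 →
      (∀ v ∈ V, t * v * t⁻¹ = v⁻¹) ∧ ∀ a ∈ V, ∀ b ∈ V, a * b = b * a := by
    intro t ht
    exact o4_inv_lemma V t (hinv2 t ht) (fun w hw => hVn.conj_mem w hw t)
      (o4_fix2 hord V hVcube t ht)
  have hVab := (hinvV t₀ ht₀).2
  -- no involution centralizes V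
  have hnoinvC : ∀ d : G, orderOf d = 2 → (∀ v ∈ V, v * d = d * v) → False := by
    intro d hd hc
    apply hV
    rw [eq_bot_iff]
    intro v hv
    have h1 := (hinvV d hd).1 v hv
    have h2 : d * v * d⁻¹ = v := by rw [← hc v hv]; group
    have hvv : v * v = 1 := by
      have h3 : v⁻¹ = v := h1.symm.trans h2
      calc v * v = v⁻¹ * v := by rw [h3]
        _ = 1 := inv_mul_cancel v
    have h3 := hVcube v hv
    rw [pow_succ, pow_two, hvv, one_mul] at h3
    exact Subgroup.mem_bot.2 h3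
  -- the centralizer of V is V
  have hCV : ∀ c : G, (∀ v ∈ V, v * c = c * v) → c ∈ V := by
    intro c hc
    have hCn : (Subgroup.centralizer (V : Set G)).Normal := by
      refine ⟨fun c hc g => ?_⟩
      rw [Subgroup.mem_centralizer_iff] at hc ⊢
      intro v hv
      have hv' : g⁻¹ * v * g ∈ V := by
        have := hVn.conj_mem v hv g⁻¹
        simpa using this
      have h1 := hc (g⁻¹ * v * g) hv'
      calc v * (g * c * g⁻¹) = g * (g⁻¹ * v * g * c) * g⁻¹ := by group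
        _ = g * (c * (g⁻¹ * v * g)) * g⁻¹ := by rw [h1]
        _ = g * c * g⁻¹ * v := by group
    have hC3 : IsPGroup 3 (Subgroup.centralizer (V : Set G)) := by
      rintro ⟨d, hd⟩
      rw [Subgroup.mem_centralizer_iff] at hd
      refine ⟨1, Subtype.ext ?_⟩
      show d ^ 3 ^ 1 = 1
      rw [pow_one]
      rcases hord d with h1 | h1 | h1 | h1
      · rw [orderOf_eq_one_iff.1 h1, one_pow]
      · exact (hnoinvC d h1 hd).elim
      · rw [← h1]; exact pow_orderOf_eq_one d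
      · exfalso
        apply hnoinvC (d ^ 2) (o4_sq_ord d h1)
        intro v hv
        exact (Commute.pow_right (show Commute v d from hd v hv) 2).eq
    have hle := Cfsg.Agent.Helper9.le_pCore hCn hC3
    rw [← hVdef] at hle
    exact hle (Subgroup.mem_centralizer_iff.2 hc)
  -- all involutions lie in one coset of V
  have hcoset : ∀ t : G, orderOf t = 2 → t₀⁻¹ * t ∈ V := by
    intro t ht
    apply hCV
    intro v hv
    have h1 := (hinvV t ht).1 v hv
    have h2 := (hinvV t₀ ht₀).1 v hv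
    calc v * (t₀⁻¹ * t) = t₀⁻¹ * (t₀ * v * t₀⁻¹) * t := by group
      _ = t₀⁻¹ * (t * v * t⁻¹) * t := by rw [h2, h1]
      _ = t₀⁻¹ * t * v := by group
  -- the image of t₀ is central in the quotient
  have hcentral : ∀ g : G, (QuotientGroup.mk g : G ⧸ V) * QuotientGroup.mk t₀ =
      QuotientGroup.mk t₀ * QuotientGroup.mk g := by
    intro g
    have ho : orderOf (g * t₀ * g⁻¹) = 2 := by
      have := MulEquiv.orderOf_eq (MulAut.conj g) t₀
      rw [MulAut.conj_apply] at this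
      rw [this, ht₀]
    have h1 : (QuotientGroup.mk t₀ : G ⧸ V) = QuotientGroup.mk (g * t₀ * g⁻¹) :=
      QuotientGroup.eq.2 (hcoset _ ho)
    have h2 : (QuotientGroup.mk (g * t₀ * g⁻¹) : G ⧸ V) =
        QuotientGroup.mk g * QuotientGroup.mk t₀ * (QuotientGroup.mk g)⁻¹ := by
      simp
    rw [h2] at h1
    calc (QuotientGroup.mk g : G ⧸ V) * QuotientGroup.mk t₀
        = (QuotientGroup.mk g * QuotientGroup.mk t₀ * (QuotientGroup.mk g)⁻¹) *
          QuotientGroup.mk g := by group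
      _ = QuotientGroup.mk t₀ * QuotientGroup.mk g := by rw [← h1]
  -- every element with cube 1 lies in V
  have hcubeV : ∀ y : G, y ^ 3 = 1 → y ∈ V := by
    intro y hy
    obtain ⟨W, hWdef⟩ : ∃ W : Subgroup G, W =
        (Subgroup.zpowers (QuotientGroup.mk y : G ⧸ V)).comap (QuotientGroup.mk' V) := ⟨_, rfl⟩
    have hmemW : ∀ w : G, w ∈ W ↔ (QuotientGroup.mk w : G ⧸ V) ∈
        Subgroup.zpowers (QuotientGroup.mk y : G ⧸ V) := by
      intro w; rw [hWdef]; exact Iff.rfl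
    have hyW : y ∈ W := (hmemW y).2 (Subgroup.mem_zpowers _)
    have hVW : V ≤ W := by
      intro v hv
      rw [hmemW, (QuotientGroup.eq_one_iff v).2 hv]
      exact Subgroup.one_mem _
    have hW3 : IsPGroup 3 W := by
      rintro ⟨w, hw⟩
      rw [hmemW] at hw
      obtain ⟨k, hk⟩ := Subgroup.mem_zpowers_iff.1 hw
      have h3 : (QuotientGroup.mk (w ^ 3) : G ⧸ V) = 1 := by
        rw [QuotientGroup.mk_pow, ← hk, ← zpow_natCast, ← zpow_mul, mul_comm, zpow_mul,
          zpow_natCast, ← QuotientGroup.mk_pow, hy]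
        simp
      have h4 : w ^ 3 ∈ V := (QuotientGroup.eq_one_iff _).1 h3
      have h5 := hVcube _ h4
      refine ⟨2, Subtype.ext ?_⟩
      show w ^ 3 ^ 2 = 1
      rw [pow_two, pow_mul]
      exact h5
    have hWcube := o4_three_elt hord W hW3
    have hconjW : ∀ w ∈ W, t₀ * w * t₀⁻¹ ∈ W := by
      intro w hw
      rw [hmemW] at hw ⊢
      have h1 : (QuotientGroup.mk (t₀ * w * t₀⁻¹) : G ⧸ V) = QuotientGroup.mk w := by
        have h2 : (QuotientGroup.mk (t₀ * w * t₀⁻¹) : G ⧸ V) =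
            QuotientGroup.mk t₀ * QuotientGroup.mk w * (QuotientGroup.mk t₀)⁻¹ := by simp
        rw [h2, ← hcentral w]; group
      rw [h1]; exact hw
    have hWab := (o4_inv_lemma W t₀ ht₀2 hconjW (o4_fix2 hord W hWcube t₀ ht₀)).2
    apply hCV
    intro v hv
    exact hWab v (hVW hv) y hyW
  have hq4 : ∀ q : G ⧸ V, q ^ 4 = 1 := by
    intro q
    obtain ⟨g, rfl⟩ := QuotientGroup.mk_surjective q
    rcases hord g with h1 | h1 | h1 | h1
    · rw [orderOf_eq_one_iff.1 h1]; simp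
    · have h2 : g ^ 4 = 1 := orderOf_dvd_iff_pow_eq_one.1 (by rw [h1]; norm_num)
      rw [← QuotientGroup.mk_pow, h2]; rfl
    · have h2 : g ∈ V := hcubeV g (by rw [← h1]; exact pow_orderOf_eq_one g)
      rw [(QuotientGroup.eq_one_iff g).2 h2, one_pow]
    · have h2 : g ^ 4 = 1 := by rw [← h1]; exact pow_orderOf_eq_one g
      rw [← QuotientGroup.mk_pow, h2]; rfl
  have hP2 : IsPGroup 2 (G ⧸ V) := fun q => ⟨2, hq4 q⟩
  have hmk0 : (QuotientGroup.mk t₀ : G ⧸ V) ≠ 1 := by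
    intro h
    have h1 : t₀ ∈ V := (QuotientGroup.eq_one_iff t₀).1 h
    have h2 : orderOf t₀ ∣ 3 := orderOf_dvd_of_pow_eq_one (hVcube t₀ h1)
    rw [ht₀] at h2; omega
  have hmk0o : orderOf (QuotientGroup.mk t₀ : G ⧸ V) = 2 := by
    apply orderOf_eq_prime _ hmk0
    rw [pow_two, ← QuotientGroup.mk_mul, ht₀2]; rfl
  have hinvq : ∀ q : G ⧸ V, q ≠ 1 → q * q = 1 → q = QuotientGroup.mk t₀ := by
    intro q hq1 hq2
    obtain ⟨g, rfl⟩ := QuotientGroup.mk_surjective q
    have hgV : g * g ∈ V := (QuotientGroup.eq_one_iff _).1 (by rw [QuotientGroup.mk_mul]; exact hq2)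
    rcases hord g with h1 | h1 | h1 | h1
    · exfalso; apply hq1; rw [orderOf_eq_one_iff.1 h1]; rfl
    · exact (QuotientGroup.eq.2 (hcoset g h1)).symm
    · exfalso; apply hq1
      exact (QuotientGroup.eq_one_iff g).2 (hcubeV g (by rw [← h1]; exact pow_orderOf_eq_one g))
    · exfalso
      have h2 := o4_sq_ord g h1
      have h3 := hVcube (g * g) hgV
      rw [← pow_two] at h3
      have h5 : orderOf (g ^ 2) ∣ 3 := orderOf_dvd_of_pow_eq_one h3
      rw [h2] at h5; omega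
  have huniq : ∀ H K : Subgroup (G ⧸ V), Nat.card H = 2 → Nat.card K = 2 → H = K := by
    have key : ∀ H : Subgroup (G ⧸ V), Nat.card H = 2 →
        H = Subgroup.zpowers (QuotientGroup.mk t₀ : G ⧸ V) := by
      intro H hH
      haveI : Nontrivial H := Finite.one_lt_card_iff_nontrivial.1 (by rw [hH]; norm_num)
      obtain ⟨⟨q, hqH⟩, hq⟩ := exists_ne (1 : H)
      have hq1 : q ≠ 1 := fun h => hq (Subtype.ext h)
      have hq2 : q * q = 1 := by
        have h1 : (⟨q, hqH⟩ : H) ^ Nat.card H = 1 := pow_card_eq_one'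
        rw [hH] at h1
        have h2 := congrArg Subtype.val h1
        simpa [pow_two] using h2
      have hqt := hinvq q hq1 hq2
      symm
      apply Subgroup.eq_of_le_of_card_ge
      · rw [Subgroup.zpowers_le, ← hqt]; exact hqH
      · rw [hH, Nat.card_zpowers, hmk0o]
    intro H K hH hK
    rw [key H hH, key K hK]
  have hg4q : orderOf (QuotientGroup.mk g₄ : G ⧸ V) = 4 := by
    have h1 : ¬ orderOf (QuotientGroup.mk g₄ : G ⧸ V) ∣ 2 := by
      intro h
      have h' : (QuotientGroup.mk g₄ : G ⧸ V) ^ 2 = 1 := orderOf_dvd_iff_pow_eq_one.1 h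
      have hgV : g₄ ^ 2 ∈ V :=
        (QuotientGroup.eq_one_iff _).1 (by rw [QuotientGroup.mk_pow]; exact h')
      have h2 := o4_sq_ord g₄ hg₄
      have h5 : orderOf (g₄ ^ 2) ∣ 3 := orderOf_dvd_of_pow_eq_one (hVcube _ hgV)
      rw [h2] at h5; omega
    have hd : orderOf (QuotientGroup.mk g₄ : G ⧸ V) ∣ 2 ^ 2 :=
      orderOf_dvd_of_pow_eq_one (hq4 _)
    obtain ⟨k, hk, hm⟩ := (Nat.dvd_prime_pow Nat.prime_two).1 hd
    interval_cases k
    · exfalso; apply h1; rw [hm]; norm_num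
    · exfalso; apply h1; rw [hm]; norm_num
    · rw [hm]; norm_num
  refine ⟨V, hVn, ⟨IsMulCommutative.of_setLike_mul_comm hVab, hVcube⟩, ?_⟩
  have hcard4 : Nat.card (G ⧸ V) = 4 → IsCyclic (G ⧸ V) ∧ V.index = 4 := by
    intro h
    exact ⟨isCyclic_of_orderOf_eq_card _ (hg4q.trans h.symm), by rw [Subgroup.index_eq_card, h]⟩
  rcases Cfsg.Agent.Helper1.two_group_unique_invol hP2 huniq with hc | ⟨n, ⟨e⟩⟩
  · left
    apply hcard4
    obtain ⟨c, hc'⟩ := hc.exists_generator
    have h1 : orderOf c = Nat.card (G ⧸ V) := orderOf_eq_card_of_forall_mem_zpowers hc'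
    have h2 : orderOf c ∣ 4 := orderOf_dvd_of_pow_eq_one (hq4 c)
    have h3 : 4 ∣ Nat.card (G ⧸ V) := by rw [← hg4q]; exact orderOf_dvd_natCard _
    rw [← h1] at h3 ⊢
    exact Nat.dvd_antisymm h2 h3
  · have hord8 : orderOf (e.symm (QuaternionGroup.a 1)) = 2 * 2 ^ n := by
      rw [MulEquiv.orderOf_eq, QuaternionGroup.orderOf_a_one]
    have h2 : 2 * 2 ^ n ∣ 4 := by rw [← hord8]; exact orderOf_dvd_of_pow_eq_one (hq4 _)
    have hn : n ≤ 1 := by
      by_contra hcon
      have hn2 : 2 ≤ n := by omega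
      have h3 : 2 ^ 2 ∣ 2 ^ n := pow_dvd_pow 2 hn2
      have h8 : 2 * 2 ^ 2 ∣ 4 := dvd_trans (Nat.mul_dvd_mul_left 2 h3) h2
      omega
    interval_cases n
    · left
      apply hcard4
      rw [Nat.card_congr e.toEquiv, Nat.card_eq_fintype_card, QuaternionGroup.card]
      norm_num
    · right; exact ⟨e⟩

end Ord4C

end Cfsg.Agent.Helper21
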