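import Mathlib
import Cfsg.Prelude.Def_Transfer
import Cfsg.Prelude.Def_Solvable
import Cfsg.Agent.S0144
import Cfsg.Agent.Helper9.Fitting
import Cfsg.Agent.Helper9.Offender2
import Cfsg.Agent.Helper10.NoThreeStep
import Cfsg.Agent.Helper21.Ord4C

set_option autoImplicit false

namespace Cfsg.Agent.Helper21

section Ord4D

variable {G : Type*} [Group G]

theorem o4_caseA [Finite G]
    (hord : ∀ g : G, orderOf g = 1 ∨ orderOf g = 2 ∨ orderOf g = 3 ∨ orderOf g = 4)
    (t₀ g₄ x₀ : G) (ht₀ : orderOf t₀ = 2) (hg₄ : orderOf g₄ = 4) (hx₀ : orderOf x₀ = 3)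
    (hsol : Group.IsSolvable G) (hV : Cfsg.pCore 3 G = ⊥) :
    ∃ (N : Subgroup G) (_ : N.Normal),
      (IsPGroup 2 ↥N ∧ Monoid.exponent ↥N = 4 ∧ Group.nilpotencyClass ↥N ≤ 2 ∧ N.index = 3) ∨
      (Cfsg.IsElementaryAbelian 2 N ∧ Nonempty (G ⧸ N ≃* Equiv.Perm (Fin 3))) := by
  classical
  obtain ⟨T, hTdef⟩ : ∃ T : Subgroup G, T = Cfsg.pCore 2 G := ⟨_, rfl⟩
  have hTn : T.Normal := by rw [hTdef]; exact Subgroup.sSup_normal _ (fun _ h => h.1)
  have hT2 : IsPGroup 2 T := by rw [hTdef]; exact Cfsg.Agent.Helper9.pCore_isPGroup 2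
  haveI := hTn
  haveI : Nontrivial G := ⟨⟨t₀, 1, fun h => by rw [h, orderOf_one] at ht₀; omega⟩⟩
  have hTne : T ≠ ⊥ := by
    obtain ⟨q, hq, hqne⟩ := Cfsg.Agent.Helper10.exists_prime_pCore_ne_bot (M := G)
    have hq23 : q = 2 ∨ q = 3 := by
      obtain ⟨⟨z, hz⟩, hz1⟩ := Subgroup.ne_bot_iff_exists_ne_one.1 hqne
      have hz1' : z ≠ 1 := fun h => hz1 (Subtype.ext h)
      exact o4_prime_dvd hord z q hq
        (o4_pgroup_dvd q hq _ (Cfsg.Agent.Helper9.pCore_isPGroup q) z hz hz1')
    rcases hq23 with rfl | rfl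
    · rw [hTdef]; exact hqne
    · exact absurd hV hqne
  have hfix : ∀ x : G, orderOf x = 3 → ∀ t ∈ T, x * t = t * x → t = 1 :=
    fun x hx => o4_fix hord T hT2 x hx
  have h4 : ∀ t ∈ T, t ^ 4 = 1 := o4_two_elt hord T hT2
  have hx3 : ∀ x : G, orderOf x = 3 → x ^ 3 = 1 := fun x hx => by
    rw [← hx]; exact pow_orderOf_eq_one x
  have hord3 : ∀ g : G, g ≠ 1 → g ^ 3 = 1 → orderOf g = 3 := by
    intro g hg1 hg3
    rcases (Nat.dvd_prime Nat.prime_three).1 (orderOf_dvd_of_pow_eq_one hg3) with h | h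
    · exact absurd (orderOf_eq_one_iff.1 h) hg1
    · exact h
  have hcent : ∀ x : G, orderOf x = 3 → ∀ y : G, x * y = y * x → y = 1 ∨ y = x ∨ y = x⁻¹ := by
    intro x hx y hxy
    by_contra hcon
    push Not at hcon
    obtain ⟨hy1, hyx, hyxi⟩ := hcon
    have hy3 : y ^ 3 = 1 := o4_cent3 hord x y hx hxy
    apply o4_no_rank_two T hTn hT2 hTne
      (fun g hg1 hg3 => o4_F1 T hTn g hg3 (hfix g (hord3 g hg1 hg3))) x y (hx3 x hx) hy3 hxy
    · intro h; rw [h, orderOf_one] at hx; omega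
    · exact hy1
    · intro h; exact hyxi (eq_inv_of_mul_eq_one_right h)
    · intro h
      apply hyx
      have hyy : y * y = y⁻¹ := eq_inv_of_mul_eq_one_left (by rw [← pow_three', hy3])
      rw [mul_assoc, hyy] at h
      exact (mul_inv_eq_one.1 h).symm
  have h9 : ¬ 9 ∣ Nat.card G := by
    intro h
    haveI : Fact (Nat.Prime 3) := ⟨Nat.prime_three⟩
    obtain ⟨P, hP⟩ := Sylow.exists_subgroup_card_pow_prime 3 (show 3 ^ 2 ∣ Nat.card G from h)
    have hPc : IsMulCommutative P := IsPGroup.isMulCommutative_of_card_eq_prime_sq hP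
    haveI : Nontrivial P := Finite.one_lt_card_iff_nontrivial.1 (by rw [hP]; norm_num)
    obtain ⟨⟨a, haP⟩, ha⟩ := exists_ne (1 : P)
    have ha1 : a ≠ 1 := fun h => ha (Subtype.ext h)
    have ha3 : orderOf a = 3 := by
      have hd : orderOf a ∣ 9 := by
        have h1 := orderOf_dvd_natCard (⟨a, haP⟩ : P)
        rw [hP, ← Subgroup.orderOf_coe] at h1
        simpa using h1
      rcases hord a with h1 | h1 | h1 | h1
      · exact absurd (orderOf_eq_one_iff.1 h1) ha1
      · rw [h1] at hd; omega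
      · exact h1
      · rw [h1] at hd; omega
    have hsub : (P : Set G) ⊆ {1, a, a⁻¹} := by
      intro b hb
      have hcomm : a * b = b * a := by
        have h1 : (⟨a, haP⟩ : P) * ⟨b, hb⟩ = ⟨b, hb⟩ * ⟨a, haP⟩ := mul_comm' _ _
        exact congrArg Subtype.val h1
      rcases hcent a ha3 b hcomm with h | h | h <;> simp [h]
    have h3 : ({1, a, a⁻¹} : Set G).ncard ≤ 3 := by
      refine (Set.ncard_insert_le _ _).trans ?_
      have h5 := Set.ncard_insert_le a ({a⁻¹} : Set G)
      rw [Set.ncard_singleton] at h5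
      omega
    have hle : Nat.card P ≤ 3 := by
      have h5 : Nat.card P = (P : Set G).ncard := Nat.card_coe_set_eq (P : Set G)
      rw [h5]
      exact (Set.ncard_le_ncard hsub (Set.toFinite _)).trans h3
    rw [hP] at hle
    omega
  -- the quotient by T
  have hx₀T : x₀ ∉ T := by
    intro hxT
    have h1 := orderOf_dvd_of_pow_eq_one (h4 x₀ hxT)
    rw [hx₀] at h1; omega
  haveI : Nontrivial (G ⧸ T) :=
    ⟨⟨QuotientGroup.mk x₀, 1, fun h => hx₀T ((QuotientGroup.eq_one_iff x₀).1 h)⟩⟩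
  obtain ⟨q, hq, hqne⟩ := Cfsg.Agent.Helper10.exists_prime_pCore_ne_bot (M := G ⧸ T)
  obtain ⟨D, hDdef⟩ : ∃ D : Subgroup (G ⧸ T), D = Cfsg.pCore q (G ⧸ T) := ⟨_, rfl⟩
  rw [← hDdef] at hqne
  have hDn : D.Normal := by rw [hDdef]; exact Subgroup.sSup_normal _ (fun _ h => h.1)
  have hDq : IsPGroup q D := by rw [hDdef]; exact Cfsg.Agent.Helper9.pCore_isPGroup q
  obtain ⟨⟨d, hdD⟩, hd1⟩ := Subgroup.ne_bot_iff_exists_ne_one.1 hqne
  have hd1' : d ≠ 1 := fun h => hd1 (Subtype.ext h)
  obtain ⟨x, rfl⟩ := QuotientGroup.mk_surjective d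
  have hxT : x ∉ T := fun h => hd1' ((QuotientGroup.eq_one_iff x).2 h)
  have hqx : q ∣ orderOf x :=
    (o4_pgroup_dvd q hq D hDq _ hdD hd1').trans (orderOf_map_dvd (QuotientGroup.mk' T) x)
  have hq3 : q = 3 := by
    rcases o4_prime_dvd hord x q hq hqx with rfl | rfl
    · exfalso
      -- the preimage of D is a normal 2-subgroup
      have hKn : (D.comap (QuotientGroup.mk' T)).Normal := hDn.comap _
      have hK2 : IsPGroup 2 (D.comap (QuotientGroup.mk' T)) := by
        rintro ⟨g, hg⟩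
        obtain ⟨k, hk⟩ := hDq ⟨QuotientGroup.mk g, hg⟩
        have hk' : (QuotientGroup.mk g : G ⧸ T) ^ 2 ^ k = 1 := congrArg Subtype.val hk
        have hgT : g ^ 2 ^ k ∈ T :=
          (QuotientGroup.eq_one_iff _).1 (by rw [QuotientGroup.mk_pow]; exact hk')
        refine ⟨k + 2, Subtype.ext ?_⟩
        show g ^ 2 ^ (k + 2) = 1
        have h5 := h4 _ hgT
        rw [← pow_mul] at h5
        rw [pow_add]
        exact h5
      have hle := Cfsg.Agent.Helper9.le_pCore hKn hK2
      rw [← hTdef] at hle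
      exact hxT (hle hdD)
    · rfl
  subst hq3
  have hx : orderOf x = 3 := by
    rcases hord x with h1 | h1 | h1 | h1
    · rw [h1] at hqx; omega
    · rw [h1] at hqx; omega
    · exact h1
    · rw [h1] at hqx; omega
  have hxx3 : x ^ 3 = 1 := hx3 x hx
  have hfixx := hfix x hx
  have hxi : orderOf x⁻¹ = 3 := by rw [orderOf_inv, hx]
  haveI : Fact (Nat.Prime 3) := ⟨Nat.prime_three⟩
  have hmx1 : (QuotientGroup.mk x : G ⧸ T) ≠ 1 := hd1'
  have hmx3 : orderOf (QuotientGroup.mk x : G ⧸ T) = 3 := by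
    apply orderOf_eq_prime _ hmx1
    rw [← QuotientGroup.mk_pow, hxx3]; rfl
  have hDcard : Nat.card D = 3 := by
    obtain ⟨n, hn⟩ := IsPGroup.iff_card.1 hDq
    have hdvd : 3 ^ n ∣ Nat.card G := by
      rw [← hn]
      exact (Subgroup.card_subgroup_dvd_card D).trans (Subgroup.card_quotient_dvd_card T)
    rcases Nat.lt_or_ge n 2 with h | h
    · interval_cases n
      · exfalso
        rw [pow_zero] at hn
        exact hqne (Subgroup.card_eq_one.1 hn)
      · rw [hn, pow_one]
    · exfalso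
      exact h9 ((pow_dvd_pow 3 h).trans hdvd)
  have hDelts : ∀ e ∈ D, e = 1 ∨ e = QuotientGroup.mk x ∨ e = (QuotientGroup.mk x : G ⧸ T)⁻¹ := by
    have hz : Subgroup.zpowers (QuotientGroup.mk x : G ⧸ T) = D := by
      apply Subgroup.eq_of_le_of_card_ge
      · rw [Subgroup.zpowers_le]; exact hdD
      · rw [Nat.card_zpowers, hmx3, hDcard]
    intro e he
    rw [← hz] at he
    obtain ⟨k, hk, rfl⟩ : ∃ k < 3, (QuotientGroup.mk x : G ⧸ T) ^ k = e := by
      have h1 := mem_zpowers_iff_mem_range_orderOf.1 he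
      rw [hmx3] at h1
      simpa using h1
    interval_cases k
    · left; simp
    · right; left; simp
    · right; right
      have h3 : (QuotientGroup.mk x : G ⧸ T) ^ 3 = 1 := by
        rw [← hmx3]; exact pow_orderOf_eq_one _
      exact eq_inv_of_mul_eq_one_left (by rw [← pow_succ]; exact h3)
  have hdecomp : ∀ g : G, ∃ σ ∈ T,
      (σ * g) * x * (σ * g)⁻¹ = x ∨ (σ * g) * x * (σ * g)⁻¹ = x⁻¹ := by
    intro g
    have hcD : (QuotientGroup.mk (g * x * g⁻¹) : G ⧸ T) ∈ D := by
      have h1 := hDn.conj_mem _ hdD (QuotientGroup.mk g)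
      simpa using h1
    have hc1 : (QuotientGroup.mk (g * x * g⁻¹) : G ⧸ T) ≠ 1 := by
      intro h
      have h1 : g * x * g⁻¹ ∈ T := (QuotientGroup.eq_one_iff _).1 h
      have h2 := hTn.conj_mem _ h1 g⁻¹
      have h3 : g⁻¹ * (g * x * g⁻¹) * g⁻¹⁻¹ = x := by group
      rw [h3] at h2
      exact hxT h2
    rcases hDelts _ hcD with h | h | h
    · exact absurd h hc1
    · have hu : g * x * g⁻¹ * x⁻¹ ∈ T :=
        (QuotientGroup.eq_one_iff _).1 (by rw [QuotientGroup.mk_mul, h]; simp)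
      obtain ⟨σ, hσ, hσu⟩ := o4_surj_gen T x (fun w hw => hTn.conj_mem w hw x) hfixx _ hu
      refine ⟨σ, hσ, Or.inl ?_⟩
      calc σ * g * x * (σ * g)⁻¹ = σ * (g * x * g⁻¹ * x⁻¹) * x * σ⁻¹ := by group
        _ = σ * (σ⁻¹ * (x * σ * x⁻¹)) * x * σ⁻¹ := by rw [hσu]
        _ = x := by group
    · have hu : g * x * g⁻¹ * x⁻¹⁻¹ ∈ T :=
        (QuotientGroup.eq_one_iff _).1 (by rw [QuotientGroup.mk_mul, h]; simp)
      obtain ⟨σ, hσ, hσu⟩ := o4_surj_gen T x⁻¹ (fun w hw => hTn.conj_mem w hw x⁻¹)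
        (hfix x⁻¹ hxi) _ hu
      refine ⟨σ, hσ, Or.inr ?_⟩
      calc σ * g * x * (σ * g)⁻¹ = σ * (g * x * g⁻¹ * x⁻¹⁻¹) * x⁻¹ * σ⁻¹ := by group
        _ = σ * (σ⁻¹ * (x⁻¹ * σ * x⁻¹⁻¹)) * x⁻¹ * σ⁻¹ := by rw [hσu]
        _ = x⁻¹ := by group
  have hmkσ : ∀ σ ∈ T, ∀ g : G, (QuotientGroup.mk (σ * g) : G ⧸ T) = QuotientGroup.mk g := by
    intro σ hσ g
    rw [QuotientGroup.mk_mul, (QuotientGroup.eq_one_iff σ).2 hσ, one_mul]
  have hcentx : ∀ n : G, n * x * n⁻¹ = x → n = 1 ∨ n = x ∨ n = x⁻¹ := by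
    intro n hn
    exact hcent x hx n (mul_inv_eq_iff_eq_mul.1 hn).symm
  refine ⟨T, hTn, ?_⟩
  by_cases hinv : ∃ s : G, s * x * s⁻¹ = x⁻¹
  · -- the quotient is symmetric of degree 3
    right
    obtain ⟨s, hs⟩ := hinv
    have hx3' : x * x * x = 1 := by rw [← pow_three', hxx3]
    have e1 : s * x⁻¹ * s⁻¹ = x := by
      rw [show s * x⁻¹ * s⁻¹ = (s * x * s⁻¹)⁻¹ by group, hs, inv_inv]
    have hxne : x ≠ x⁻¹ := by
      intro h
      have h2 : x * x = 1 := by
        calc x * x = x⁻¹ * x := by rw [← h]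
          _ = 1 := inv_mul_cancel x
      have h3 : orderOf x ∣ 2 := orderOf_dvd_of_pow_eq_one (by rw [pow_two]; exact h2)
      rw [hx] at h3; omega
    have hs2 : orderOf s = 2 := by
      rcases hord s with h1 | h1 | h1 | h1
      · exfalso
        rw [orderOf_eq_one_iff.1 h1] at hs
        apply hxne
        simpa using hs
      · exact h1
      · exfalso
        have h3 : s * s * s = 1 := by
          rw [← pow_three', ← h1]; exact pow_orderOf_eq_one s
        have h5 : (s * s * s) * x * (s * s * s)⁻¹ = x⁻¹ := by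
          calc (s * s * s) * x * (s * s * s)⁻¹ = s * (s * (s * x * s⁻¹) * s⁻¹) * s⁻¹ := by group
            _ = s * (s * x⁻¹ * s⁻¹) * s⁻¹ := by rw [hs]
            _ = s * x * s⁻¹ := by rw [e1]
            _ = x⁻¹ := hs
        rw [h3] at h5
        apply hxne
        simpa using h5
      · exfalso
        apply o4_no6 hord (s ^ 2) x (o4_sq_ord s h1) hx
        have h5 : (s * s) * x * (s * s)⁻¹ = x := by
          calc (s * s) * x * (s * s)⁻¹ = s * (s * x * s⁻¹) * s⁻¹ := by group
            _ = s * x⁻¹ * s⁻¹ := by rw [hs]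
            _ = x := e1
        rw [pow_two]
        exact mul_inv_eq_iff_eq_mul.1 h5
    have hss : s * s = 1 := by
      have := pow_orderOf_eq_one s
      rw [hs2, pow_two] at this
      exact this
    -- inverters are outside T
    have hinvT : ∀ n : G, n * x * n⁻¹ = x⁻¹ → n ∉ T := by
      intro n hn hnT
      have h1 : n * (x * n⁻¹ * x⁻¹) ∈ T := T.mul_mem hnT (hTn.conj_mem _ (T.inv_mem hnT) x)
      have h2 : n * (x * n⁻¹ * x⁻¹) = x⁻¹ * x⁻¹ := by
        calc n * (x * n⁻¹ * x⁻¹) = (n * x * n⁻¹) * x⁻¹ := by group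
          _ = x⁻¹ * x⁻¹ := by rw [hn]
      rw [h2] at h1
      have h3 : (QuotientGroup.mk x : G ⧸ T)⁻¹ * (QuotientGroup.mk x : G ⧸ T)⁻¹ = 1 := by
        have := (QuotientGroup.eq_one_iff _).2 h1
        simpa using this
      have h5 : (QuotientGroup.mk x : G ⧸ T) ^ 3 = 1 := by
        rw [← hmx3]; exact pow_orderOf_eq_one _
      apply hmx1
      have h6 : (QuotientGroup.mk x : G ⧸ T) * (QuotientGroup.mk x : G ⧸ T) = 1 := by
        have := congrArg (fun z => z⁻¹) h3
        simpa using this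
      rw [pow_succ, pow_two, h6, one_mul] at h5
      exact h5
    have hsT : s ∉ T := hinvT s hs
    -- squares of elements outside
    have hsq2 : ∀ σ : G, σ * σ = 1 → σ ∉ T → ∀ τ ∈ T,
        ((σ * τ * σ⁻¹) * τ) * ((σ * τ * σ⁻¹) * τ) = 1 := by
      intro σ hσ hσT τ hτ
      have h44 : (σ * τ) ^ 4 = 1 := by
        rcases hord (σ * τ) with h1 | h1 | h1 | h1
        · rw [orderOf_eq_one_iff.1 h1, one_pow]
        · exact orderOf_dvd_iff_pow_eq_one.1 (by rw [h1]; norm_num)
        · exfalso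
          apply hσT
          have h3 : (σ * τ) ^ 3 = 1 := by rw [← h1]; exact pow_orderOf_eq_one _
          have h5 : (QuotientGroup.mk σ : G ⧸ T) ^ 3 = 1 := by
            have := congrArg (QuotientGroup.mk : G → G ⧸ T) h3
            rw [QuotientGroup.mk_pow, QuotientGroup.mk_mul, (QuotientGroup.eq_one_iff τ).2 hτ,
              mul_one] at this
            exact this
          have h6 : (QuotientGroup.mk σ : G ⧸ T) * (QuotientGroup.mk σ : G ⧸ T) = 1 := by
            rw [← QuotientGroup.mk_mul, hσ]; rfl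
          rw [pow_succ, pow_two, h6, one_mul] at h5
          exact (QuotientGroup.eq_one_iff σ).1 h5
        · rw [← h1]; exact pow_orderOf_eq_one _
      have hσi : σ⁻¹ = σ := inv_eq_of_mul_eq_one_left hσ
      rw [hσi]
      have h7 : σ * τ * σ * τ * (σ * τ * σ * τ) = (σ * τ) ^ 4 := by
        simp [pow_succ, mul_assoc]
      rw [h7]; exact h44
    have hxs : x * s = s * x⁻¹ := (mul_inv_eq_iff_eq_mul.1 e1).symm
    -- exponent two
    have hexp : ∀ β ∈ T, β * β = 1 := by
      intro β hβ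
      obtain ⟨t, ht⟩ : ∃ t : G, t = s⁻¹ * β * s := ⟨_, rfl⟩
      have htT : t ∈ T := by
        rw [ht]
        have := hTn.conj_mem β hβ s⁻¹
        simpa using this
      have hβt : s * t * s⁻¹ = β := by rw [ht]; group
      obtain ⟨u, hu⟩ : ∃ u : G, u = x * t * x⁻¹ := ⟨_, rfl⟩
      obtain ⟨w, hw⟩ : ∃ w : G, w = x * u * x⁻¹ := ⟨_, rfl⟩
      have huT : u ∈ T := by rw [hu]; exact hTn.conj_mem t htT x
      have hwT : w ∈ T := by rw [hw]; exact hTn.conj_mem u huT x
      have tuw : t * u * w = 1 := by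
        rw [hw, hu]; exact o4_F1 T hTn x hxx3 hfixx t htT
      have wut : w * u * t = 1 := by
        rw [hw, hu]; exact o4_F1' T hTn x hxx3 hfixx t htT
      have h1 : (β * t) * (β * t) = 1 := by
        have := hsq2 s hss hsT t htT
        rw [hβt] at this
        exact this
      have h2 : (β * u) * (β * u) = 1 := by
        have hσσ : (s * x * x) * (s * x * x) = 1 := by
          calc (s * x * x) * (s * x * x) = s * x * (x * s) * x * x := by group
            _ = s * x * (s * x⁻¹) * x * x := by rw [hxs]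
            _ = s * (x * s) * x := by group
            _ = s * (s * x⁻¹) * x := by rw [hxs]
            _ = s * s := by group
            _ = 1 := hss
        have hσinv : (s * x * x) * x * (s * x * x)⁻¹ = x⁻¹ := by
          rw [← hs]; group
        have := hsq2 (s * x * x) hσσ (hinvT _ hσinv) u huT
        have hc : (s * x * x) * u * (s * x * x)⁻¹ = β := by
          rw [hu, ← hβt]
          calc (s * x * x) * (x * t * x⁻¹) * (s * x * x)⁻¹
              = s * ((x * x * x) * t * (x * x * x)⁻¹) * s⁻¹ := by group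
            _ = s * t * s⁻¹ := by rw [hx3']; group
        rw [hc] at this
        exact this
      have h3 : (β * w) * (β * w) = 1 := by
        have hσσ : (s * x) * (s * x) = 1 := by
          calc (s * x) * (s * x) = s * (x * s) * x := by group
            _ = s * (s * x⁻¹) * x := by rw [hxs]
            _ = s * s := by group
            _ = 1 := hss
        have hσinv : (s * x) * x * (s * x)⁻¹ = x⁻¹ := by
          rw [← hs]; group
        have := hsq2 (s * x) hσσ (hinvT _ hσinv) w hwT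
        have hc : (s * x) * w * (s * x)⁻¹ = β := by
          rw [hw, hu, ← hβt]
          calc (s * x) * (x * (x * t * x⁻¹) * x⁻¹) * (s * x)⁻¹
              = s * ((x * x * x) * t * (x * x * x)⁻¹) * s⁻¹ := by group
            _ = s * t * s⁻¹ := by rw [hx3']; group
        rw [hc] at this
        exact this
      have hc : β * β * u = u * (β * β) := o4_sq_central T hTn x hxx3 hfixx h4 β hβ u huT
      have h4' : β * β * (β * β) = 1 := by
        have := h4 β hβ
        rw [← this]; simp [pow_succ, mul_assoc]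
      exact o4_step t u w β tuw wut h1 h2 h3 hc h4'
    have hcommT : ∀ a ∈ T, ∀ b ∈ T, a * b = b * a := by
      intro a ha b hb
      have h := hexp (a * b) (T.mul_mem ha hb)
      calc a * b = a * (a * b * (a * b)) * b := by rw [h, mul_one]
        _ = (a * a) * (b * a) * (b * b) := by simp only [mul_assoc]
        _ = b * a := by rw [hexp a ha, hexp b hb, one_mul, mul_one]
    refine ⟨⟨IsMulCommutative.of_setLike_mul_comm hcommT,
      fun a ha => by rw [pow_two]; exact hexp a ha⟩, ?_⟩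
    -- the isomorphism
    have ha2 : (QuotientGroup.mk s : G ⧸ T) * QuotientGroup.mk s = 1 := by
      rw [← QuotientGroup.mk_mul, hss]; rfl
    have hinvq : (QuotientGroup.mk s : G ⧸ T) * QuotientGroup.mk x * (QuotientGroup.mk s)⁻¹ =
        (QuotientGroup.mk x)⁻¹ := by
      have := congrArg (QuotientGroup.mk : G → G ⧸ T) hs
      simpa using this
    obtain ⟨e⟩ := Cfsg.Agent.Helper9.s3_of_inverting9 (QuotientGroup.mk s : G ⧸ T)
      (QuotientGroup.mk x) ha2 hmx3 hinvq
    have hcl : Subgroup.closure ({(QuotientGroup.mk s : G ⧸ T),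
        (QuotientGroup.mk s : G ⧸ T) * QuotientGroup.mk x} : Set (G ⧸ T)) = ⊤ := by
      rw [eq_top_iff]
      intro q _
      obtain ⟨g, rfl⟩ := QuotientGroup.mk_surjective q
      have hsmem : (QuotientGroup.mk s : G ⧸ T) ∈ Subgroup.closure
          ({(QuotientGroup.mk s : G ⧸ T),
            (QuotientGroup.mk s : G ⧸ T) * QuotientGroup.mk x} : Set (G ⧸ T)) :=
        Subgroup.subset_closure (by simp)
      have hsxmem : (QuotientGroup.mk s : G ⧸ T) * QuotientGroup.mk x ∈ Subgroup.closure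
          ({(QuotientGroup.mk s : G ⧸ T),
            (QuotientGroup.mk s : G ⧸ T) * QuotientGroup.mk x} : Set (G ⧸ T)) :=
        Subgroup.subset_closure (by simp)
      have hxmem : (QuotientGroup.mk x : G ⧸ T) ∈ Subgroup.closure
          ({(QuotientGroup.mk s : G ⧸ T),
            (QuotientGroup.mk s : G ⧸ T) * QuotientGroup.mk x} : Set (G ⧸ T)) := by
        have := Subgroup.mul_mem _ (Subgroup.inv_mem _ hsmem) hsxmem
        simpa using this
      have hcase : ∀ m : G, (m = 1 ∨ m = x ∨ m = x⁻¹) →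
          (QuotientGroup.mk m : G ⧸ T) ∈ Subgroup.closure
          ({(QuotientGroup.mk s : G ⧸ T),
            (QuotientGroup.mk s : G ⧸ T) * QuotientGroup.mk x} : Set (G ⧸ T)) := by
        intro m hm
        rcases hm with rfl | rfl | rfl
        · exact Subgroup.one_mem _
        · exact hxmem
        · rw [QuotientGroup.mk_inv]; exact Subgroup.inv_mem _ hxmem
      obtain ⟨σ, hσ, hc⟩ := hdecomp g
      rw [← hmkσ σ hσ g]
      rcases hc with hc | hc
      · exact hcase _ (hcentx _ hc)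
      · have h5 : (s⁻¹ * (σ * g)) * x * (s⁻¹ * (σ * g))⁻¹ = x := by
          calc (s⁻¹ * (σ * g)) * x * (s⁻¹ * (σ * g))⁻¹
              = s⁻¹ * ((σ * g) * x * (σ * g)⁻¹) * s := by group
            _ = s⁻¹ * (s * x * s⁻¹) * s := by rw [hc, hs]
            _ = x := by group
        have h6 := hcase _ (hcentx _ h5)
        have h7 := Subgroup.mul_mem _ hsmem h6
        have h8 : s * (s⁻¹ * (σ * g)) = σ * g := by group
        have h9 : (QuotientGroup.mk (σ * g) : G ⧸ T) =
            QuotientGroup.mk s * QuotientGroup.mk (s⁻¹ * (σ * g)) := by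
          rw [← QuotientGroup.mk_mul, h8]
        rw [h9]
        exact h7
    exact ⟨(Subgroup.topEquiv.symm.trans (MulEquiv.subgroupCongr hcl.symm)).trans e⟩
  · -- index 3
    left
    push Not at hinv
    have hall : ∀ g : G, (QuotientGroup.mk g : G ⧸ T) ∈
        Subgroup.zpowers (QuotientGroup.mk x : G ⧸ T) := by
      intro g
      obtain ⟨σ, hσ, hc⟩ := hdecomp g
      rw [← hmkσ σ hσ g]
      rcases hc with hc | hc
      · rcases hcentx _ hc with h | h | h
        · rw [h]; exact Subgroup.one_mem _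
        · rw [h]; exact Subgroup.mem_zpowers _
        · rw [h, QuotientGroup.mk_inv]; exact Subgroup.inv_mem _ (Subgroup.mem_zpowers _)
      · exact absurd hc (hinv _)
    have hcard : Nat.card (G ⧸ T) = 3 := by
      rw [← hmx3]
      symm
      apply orderOf_eq_card_of_forall_mem_zpowers
      intro q
      obtain ⟨g, rfl⟩ := QuotientGroup.mk_surjective q
      exact hall g
    have hg₄T : g₄ ∈ T := by
      have h3 : (QuotientGroup.mk g₄ : G ⧸ T) ^ 3 = 1 := by
        have := pow_card_eq_one' (G := G ⧸ T) (x := QuotientGroup.mk g₄)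
        rwa [hcard] at this
      have h44 : (QuotientGroup.mk g₄ : G ⧸ T) ^ 4 = 1 := by
        rw [← QuotientGroup.mk_pow, ← hg₄, pow_orderOf_eq_one]; rfl
      rw [pow_succ, h3, one_mul] at h44
      exact (QuotientGroup.eq_one_iff g₄).1 h44
    refine ⟨hT2, ?_, ?_, by rw [Subgroup.index_eq_card, hcard]⟩
    · apply Nat.dvd_antisymm
      · apply Monoid.exponent_dvd_of_forall_pow_eq_one
        intro t
        apply Subtype.ext
        simpa using h4 t t.2
      · have h5 : orderOf (⟨g₄, hg₄T⟩ : T) = 4 := by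
          rw [← Subgroup.orderOf_coe]; exact hg₄
        rw [← h5]
        exact Monoid.order_dvd_exponent _
    · haveI : Fact (Nat.Prime 2) := ⟨Nat.prime_two⟩
      haveI : Group.IsNilpotent ↥T := hT2.isNilpotent
      rw [← Subgroup.lowerCentralSeries_eq_bot_iff_nilpotencyClass_le]
      have hcenter : ⁅(⊤ : Subgroup ↥T), ⊤⁆ ≤ Subgroup.center ↥T := by
        rw [Subgroup.commutator_le]
        intro a _ b _
        rw [Subgroup.mem_center_iff]
        intro d
        apply Subtype.ext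
        have h5 := o4_comm_central T hTn x hxx3 hfixx h4 a a.2 b b.2 d d.2
        simp only [Subgroup.coe_mul, commutatorElement_def, Subgroup.coe_inv]
        exact h5.symm
      rw [eq_bot_iff]
      show ⁅⁅(⊤ : Subgroup ↥T), ⊤⁆, ⊤⁆ ≤ ⊥
      rw [Subgroup.commutator_le]
      intro c hc d _
      have hcc := Subgroup.mem_center_iff.1 (hcenter hc) d
      rw [Subgroup.mem_bot, commutatorElement_def, ← hcc]
      group

theorem o4_main [Finite G] (h : Set.range (orderOf : G → ℕ) = {k : ℕ | 1 ≤ k ∧ k ≤ 4}) :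
    ∃ (N : Subgroup G) (_ : N.Normal),
      (IsPGroup 2 ↥N ∧ Monoid.exponent ↥N = 4 ∧ Group.nilpotencyClass ↥N ≤ 2 ∧ N.index = 3) ∨
      (Cfsg.IsElementaryAbelian 2 N ∧ Nonempty (G ⧸ N ≃* Equiv.Perm (Fin 3))) ∨
      (Cfsg.IsElementaryAbelian 3 N ∧
        ((IsCyclic (G ⧸ N) ∧ N.index = 4) ∨ Nonempty (G ⧸ N ≃* QuaternionGroup 2))) := by
  have hord : ∀ g : G, orderOf g = 1 ∨ orderOf g = 2 ∨ orderOf g = 3 ∨ orderOf g = 4 := by
    intro g
    have h1 : orderOf g ∈ Set.range (orderOf : G → ℕ) := ⟨g, rfl⟩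
    rw [h] at h1
    obtain ⟨h2, h3⟩ := h1
    omega
  obtain ⟨t₀, ht₀⟩ : ∃ t : G, orderOf t = 2 := by
    have h1 : (2 : ℕ) ∈ Set.range (orderOf : G → ℕ) := by
      rw [h]; exact ⟨by norm_num, by norm_num⟩
    exact h1
  obtain ⟨x₀, hx₀⟩ : ∃ t : G, orderOf t = 3 := by
    have h1 : (3 : ℕ) ∈ Set.range (orderOf : G → ℕ) := by
      rw [h]; exact ⟨by norm_num, by norm_num⟩
    exact h1
  obtain ⟨g₄, hg₄⟩ : ∃ t : G, orderOf t = 4 := by
    have h1 : (4 : ℕ) ∈ Set.range (orderOf : G → ℕ) := by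
      rw [h]; exact ⟨by norm_num, by norm_num⟩
    exact h1
  by_cases hV : Cfsg.pCore 3 G = ⊥
  · have hsol : Group.IsSolvable G := by
      obtain ⟨a, b, hab⟩ := o4_two_three (Nat.card G) Nat.card_pos (fun p hp hpd => by
        haveI : Fact p.Prime := ⟨hp⟩
        obtain ⟨z, hz⟩ := exists_prime_orderOf_dvd_card' p hpd
        rcases hord z with h1 | h1 | h1 | h1
        · rw [h1] at hz; rw [← hz] at hp; exact absurd hp (by norm_num)
        · left; omega
        · right; omega
        · rw [h1] at hz; rw [← hz] at hp; exact absurd hp (by norm_num))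
      exact Cfsg.Agent.S0144.result 2 3 a b Nat.prime_two Nat.prime_three hab
    obtain ⟨N, hN, hcase⟩ := o4_caseA hord t₀ g₄ x₀ ht₀ hg₄ hx₀ hsol hV
    refine ⟨N, hN, ?_⟩
    rcases hcase with h1 | h1
    · exact Or.inl h1
    · exact Or.inr (Or.inl h1)
  · obtain ⟨N, hN, hcase⟩ := o4_caseB hord t₀ ht₀ g₄ hg₄ hV
    exact ⟨N, hN, Or.inr (Or.inr hcase)⟩

end Ord4D

end Cfsg.Agent.Helper21
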