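import Cfsg.Agent.Helper21.OrderType
import Cfsg.Agent.Helper4.SSHall
import Cfsg.Agent.Helper4.Supersolvable
import Mathlib

set_option autoImplicit false

namespace Cfsg.Agent.Helper21

open Cfsg

universe u v

/-- Order of the image of `x` in the quotient by a normal Sylow `p`-subgroup. -/
theorem orderOf_mk_eq_iff {X : Type*} [Group X] [Finite X] {p : ℕ} [hp : Fact p.Prime]
    (P : Sylow p X) [hn : (P : Subgroup X).Normal] (x : X) (m : ℕ) :
    orderOf (QuotientGroup.mk x : X ⧸ (P : Subgroup X)) = m ↔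
      (¬ p ∣ m ∧ ∃ a, orderOf x = m * p ^ a) := by
  have hcop : ∀ y : X ⧸ (P : Subgroup X), (orderOf y).Coprime p := by
    intro y
    have h1 : orderOf y ∣ (P : Subgroup X).index := by
      rw [Subgroup.index_eq_card]
      exact orderOf_dvd_natCard y
    have h2 : ¬ p ∣ (P : Subgroup X).index := P.not_dvd_index
    exact ((Nat.Prime.coprime_iff_not_dvd hp.out).2 (fun h => h2 (dvd_trans h h1))).symm
  have hPpow : ∀ z : X, z ∈ (P : Subgroup X) → z ^ Nat.card (P : Subgroup X) = 1 := by
    intro z hz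
    have h := pow_card_eq_one' (G := ↥(P : Subgroup X)) (x := ⟨z, hz⟩)
    simpa only [SubgroupClass.coe_pow, OneMemClass.coe_one] using congrArg Subtype.val h
  obtain ⟨b, hb⟩ : ∃ b, Nat.card (P : Subgroup X) = p ^ b := ⟨_, P.card_eq_multiplicity⟩
  have hmk : ∀ k : ℕ, (QuotientGroup.mk x : X ⧸ (P : Subgroup X)) ^ k = 1 ↔
      x ^ k ∈ (P : Subgroup X) := by
    intro k
    rw [← QuotientGroup.mk_pow, QuotientGroup.eq_one_iff]
  constructor
  · intro h
    have hm : ¬ p ∣ m := by
      rw [← h]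
      exact fun hd => (Nat.Prime.coprime_iff_not_dvd hp.out).1 (hcop _).symm hd
    refine ⟨hm, ?_⟩
    have hmpos : 0 < m := by
      rw [← h]
      exact orderOf_pos _
    have h1 : m ∣ orderOf x := by
      rw [← h]
      exact orderOf_map_dvd (QuotientGroup.mk' (P : Subgroup X)) x
    have h2 : x ^ m ∈ (P : Subgroup X) := (hmk m).1 (by rw [← h]; exact pow_orderOf_eq_one _)
    have h3 : orderOf x ∣ m * p ^ b := by
      apply orderOf_dvd_of_pow_eq_one
      rw [pow_mul, ← hb]
      exact hPpow _ h2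
    obtain ⟨d, hd⟩ := h1
    rw [hd] at h3
    have h4 : d ∣ p ^ b := Nat.dvd_of_mul_dvd_mul_left hmpos h3
    obtain ⟨a, -, ha⟩ := (Nat.dvd_prime_pow hp.out).1 h4
    exact ⟨a, by rw [hd, ha]⟩
  · rintro ⟨hm, a, ha⟩
    have h1 : orderOf (QuotientGroup.mk x : X ⧸ (P : Subgroup X)) ∣ m * p ^ a := by
      rw [← ha]
      exact orderOf_map_dvd (QuotientGroup.mk' (P : Subgroup X)) x
    have h2 : orderOf (QuotientGroup.mk x : X ⧸ (P : Subgroup X)) ∣ m :=
      Nat.Coprime.dvd_of_dvd_mul_right (Nat.Coprime.pow_right a (hcop _)) h1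
    have h3 : x ^ orderOf (QuotientGroup.mk x : X ⧸ (P : Subgroup X)) ∈ (P : Subgroup X) :=
      (hmk _).1 (pow_orderOf_eq_one _)
    have h4 : m * p ^ a ∣ orderOf (QuotientGroup.mk x : X ⧸ (P : Subgroup X)) * p ^ b := by
      rw [← ha]
      apply orderOf_dvd_of_pow_eq_one
      rw [pow_mul, ← hb]
      exact hPpow _ h3
    have h5 : m ∣ orderOf (QuotientGroup.mk x : X ⧸ (P : Subgroup X)) * p ^ b :=
      dvd_trans (dvd_mul_right m _) h4
    have h6 : m ∣ orderOf (QuotientGroup.mk x : X ⧸ (P : Subgroup X)) :=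
      Nat.Coprime.dvd_of_dvd_mul_right
        (Nat.Coprime.pow_right b ((Nat.Prime.coprime_iff_not_dvd hp.out).2 hm).symm) h5
    exact Nat.dvd_antisymm h2 h6

/-- Counting elements of given order in the quotient by a normal Sylow `p`-subgroup. -/
theorem card_mul_card_orderOf_quot {X : Type*} [Group X] [Finite X] {p : ℕ} [hp : Fact p.Prime]
    (P : Sylow p X) [hn : (P : Subgroup X).Normal] (m : ℕ) :
    Nat.card (P : Subgroup X) * Nat.card {y : X ⧸ (P : Subgroup X) // orderOf y = m} =
      {x : X | ¬ p ∣ m ∧ ∃ a, orderOf x = m * p ^ a}.ncard := by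
  have h := QuotientGroup.card_preimage_mk (P : Subgroup X)
    {y : X ⧸ (P : Subgroup X) | orderOf y = m}
  have hset : (QuotientGroup.mk ⁻¹' {y : X ⧸ (P : Subgroup X) | orderOf y = m} : Set X) =
      {x : X | ¬ p ∣ m ∧ ∃ a, orderOf x = m * p ^ a} := by
    ext x
    exact orderOf_mk_eq_iff P x m
  rw [hset] at h
  rw [← Nat.card_coe_set_eq, h]
  rfl

/-- If a finite group `G` with a normal Sylow `p`-subgroup has the same order type as `H`, then
`H` has a normal Sylow `p`-subgroup, of the same order, and the quotients have the same order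
type. -/
theorem orderType_quot_normal_sylow {G : Type u} [Group G] [Finite G] {H : Type v} [Group H]
    [Finite H]
    (hT : ∀ m : ℕ, Nat.card {g : G // orderOf g = m} = Nat.card {h : H // orderOf h = m})
    {p : ℕ} [hp : Fact p.Prime] (PG : Sylow p G) [hPGn : (PG : Subgroup G).Normal] :
    ∃ (Q : Sylow p H) (_ : (Q : Subgroup H).Normal),
      ∀ m : ℕ, Nat.card {x : G ⧸ (PG : Subgroup G) // orderOf x = m} =
        Nat.card {y : H ⧸ (Q : Subgroup H) // orderOf y = m} := by
  classical
  have hcard : Nat.card G = Nat.card H := card_eq_of_orderType hT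
  have hGp := normal_sylow_coe_eq PG
  have hpel : {g : G | ∃ k, orderOf g = p ^ k}.ncard = {h : H | ∃ k, orderOf h = p ^ k}.ncard :=
    ncard_orderOf_pred_eq hT (fun n => ∃ k, n = p ^ k)
  have hHp : ∀ Q : Sylow p H, ((Q : Subgroup H) : Set H) =
      {h : H | ∃ k, orderOf h = p ^ k} := by
    intro Q
    refine Set.eq_of_subset_of_ncard_le ?_ ?_ (Set.toFinite _)
    · intro h hh
      exact exists_orderOf_eq_pow_of_mem_sylow Q hh
    · rw [← hpel, ← hGp]
      have h1 : ((Q : Subgroup H) : Set H).ncard = p ^ (Nat.card H).factorization p :=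
        (Nat.card_coe_set_eq _).symm.trans Q.card_eq_multiplicity
      have h2 : ((PG : Subgroup G) : Set G).ncard = p ^ (Nat.card G).factorization p :=
        (Nat.card_coe_set_eq _).symm.trans PG.card_eq_multiplicity
      rw [h1, h2, hcard]
  haveI : Subsingleton (Sylow p H) :=
    ⟨fun Q Q' => Sylow.ext (SetLike.coe_injective ((hHp Q).trans (hHp Q').symm))⟩
  let Q : Sylow p H := default
  haveI hQn : (Q : Subgroup H).Normal := Sylow.normal_of_subsingleton Q
  have hPQ : Nat.card (PG : Subgroup G) = Nat.card (Q : Subgroup H) := by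
    rw [PG.card_eq_multiplicity, Q.card_eq_multiplicity, hcard]
  refine ⟨Q, hQn, fun m => ?_⟩
  have e1 := card_mul_card_orderOf_quot PG m
  have e2 := card_mul_card_orderOf_quot Q m
  have e3 : {g : G | ¬ p ∣ m ∧ ∃ a, orderOf g = m * p ^ a}.ncard =
      {h : H | ¬ p ∣ m ∧ ∃ a, orderOf h = m * p ^ a}.ncard :=
    ncard_orderOf_pred_eq hT (fun n => ¬ p ∣ m ∧ ∃ a, n = m * p ^ a)
  rw [← e1, ← e2, hPQ] at e3
  exact Nat.eq_of_mul_eq_mul_left Nat.card_pos e3

/-- A finite group with the order type of a supersolvable group is solvable. -/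
theorem solvable_of_orderType_aux : ∀ (c : ℕ) (G : Type u) [Group G] [Finite G] (H : Type v)
    [Group H] [Finite H], Nat.card G = c →
    (∀ m : ℕ, Nat.card {g : G // orderOf g = m} = Nat.card {h : H // orderOf h = m}) →
    Cfsg.IsSupersolvable G → Group.IsSolvable H := by
  intro c
  induction c using Nat.strong_induction_on with
  | _ c ih =>
    intro G _ _ H _ _ hc hT hG
    have hcard : Nat.card G = Nat.card H := card_eq_of_orderType hT
    rcases Nat.lt_or_ge 1 (Nat.card G) with h1 | h1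
    swap
    · have h2 : Nat.card H ≤ 1 := hcard ▸ h1
      haveI : Subsingleton H := Finite.card_le_one_iff_subsingleton.1 h2
      exact Group.isSolvable_of_top_eq_bot H (Subsingleton.elim _ _)
    have hne : (Nat.card G).primeFactors.Nonempty := Nat.nonempty_primeFactors.2 h1
    obtain ⟨p, hpm, hpmax⟩ := Finset.exists_max_image (Nat.card G).primeFactors id hne
    have hp : p.Prime := Nat.prime_of_mem_primeFactors hpm
    have hpd : p ∣ Nat.card G := Nat.dvd_of_mem_primeFactors hpm
    haveI : Fact p.Prime := ⟨hp⟩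
    have hmax : ∀ q : ℕ, q.Prime → q ∣ Nat.card (⊤ : Subgroup G) → q ≤ p := by
      intro q hq hqd
      rw [Subgroup.card_top] at hqd
      exact hpmax q (Nat.mem_primeFactors.2 ⟨hq, hqd, Nat.card_pos.ne'⟩)
    obtain ⟨P, H₀, -, -, hPn, -, hPc, -, -, -⟩ := Helper4.ss_sylow_split (⊤ : Subgroup G)
      (Helper4.isSupersolvable_subgroup ⊤ hG) p hmax
    rw [Subgroup.card_top] at hPc
    haveI hPnorm : P.Normal := Subgroup.normalizer_eq_top_iff.1 (top_le_iff.1 hPn)
    obtain ⟨PG, hPG⟩ : ∃ PG : Sylow p G, (PG : Subgroup G) = P := ⟨Sylow.ofCard P hPc, rfl⟩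
    haveI hPGn : (PG : Subgroup G).Normal := by rw [hPG]; exact hPnorm
    obtain ⟨Q, hQn, hT'⟩ := orderType_quot_normal_sylow hT PG
    have hlt : Nat.card (G ⧸ (PG : Subgroup G)) < c := by
      rw [← hc, Subgroup.card_eq_card_quotient_mul_card_subgroup (PG : Subgroup G)]
      have h2 : 1 < Nat.card (PG : Subgroup G) := by
        rw [PG.card_eq_multiplicity]
        exact Nat.one_lt_pow (Nat.Prime.factorization_pos_of_dvd hp Nat.card_pos.ne' hpd).ne'
          hp.one_lt
      have h3 : 0 < Nat.card (G ⧸ (PG : Subgroup G)) := Nat.card_pos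
      nlinarith
    haveI hsq : Group.IsSolvable (H ⧸ (Q : Subgroup H)) :=
      ih _ hlt (G ⧸ (PG : Subgroup G)) (H ⧸ (Q : Subgroup H)) rfl hT'
        (Helper4.isSupersolvable_quotient _ hG)
    haveI hsQ : Group.IsSolvable ↥(Q : Subgroup H) := by
      haveI := Q.isPGroup'.isNilpotent
      exact IsNilpotent.to_isSolvable
    exact (Group.isSolvable_iff_subgroup_quotient (Q : Subgroup H)).2 ⟨hsQ, hsq⟩

end Cfsg.Agent.Helper21
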