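import Mathlib

set_option autoImplicit false

namespace Cfsg.Agent.Helper21

open scoped Classical
open scoped commutatorElement

noncomputable section

variable {G : Type*} [Group G]

/-- total extension of `Abelianization.of` on the commutator subgroup -/
def pitPhi (G : Type*) [Group G] (x : G) : Abelianization (commutator G) :=
  if h : x ∈ commutator G then Abelianization.of ⟨x, h⟩ else 1

theorem pitPhi_mul {x y : G} (hx : x ∈ commutator G) (hy : y ∈ commutator G) :
    pitPhi G (x * y) = pitPhi G x * pitPhi G y := by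
  unfold pitPhi
  rw [dif_pos hx, dif_pos hy, dif_pos (mul_mem hx hy), ← map_mul]
  rfl

theorem pit_mem_commutator_iff (x : G) : x ∈ commutator G ↔ Abelianization.of x = 1 := by
  rw [← Abelianization.ker_of G, MonoidHom.mem_ker]

/-- the module of functions on the abelianization -/
abbrev PitX (G : Type*) [Group G] : Type _ :=
  Abelianization G → Additive (Abelianization (commutator G)) × ℤ

/-- translation action -/
def pitTau (G : Type*) [Group G] : Abelianization G →* Module.End ℤ (PitX G) where
  toFun h := LinearMap.funLeft ℤ _ (fun q => h⁻¹ * q)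
  map_one' := by
    refine LinearMap.ext fun f => funext fun q => ?_
    simp [LinearMap.funLeft_apply]
  map_mul' a b := by
    refine LinearMap.ext fun f => funext fun q => ?_
    simp [LinearMap.funLeft_apply, mul_assoc, mul_comm]

theorem pitTau_apply (h : Abelianization G) (f : PitX G) (q : Abelianization G) :
    pitTau G h f q = f (h⁻¹ * q) := rfl

/-- the ring action of the integral group ring -/
def pitRho (G : Type*) [Group G] :
    MonoidAlgebra ℤ (Abelianization G) →ₐ[ℤ] Module.End ℤ (PitX G) :=
  MonoidAlgebra.lift ℤ (Module.End ℤ (PitX G)) (Abelianization G) (pitTau G)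

theorem pitRho_of (h : Abelianization G) :
    pitRho G (MonoidAlgebra.of ℤ (Abelianization G) h) = pitTau G h :=
  MonoidAlgebra.lift_of _ _

/-- augmentation -/
def pitAug (G : Type*) [Group G] : MonoidAlgebra ℤ (Abelianization G) →ₐ[ℤ] ℤ :=
  MonoidAlgebra.lift ℤ ℤ (Abelianization G) 1

theorem pitAug_of (h : Abelianization G) :
    pitAug G (MonoidAlgebra.of ℤ (Abelianization G) h) = 1 :=
  MonoidAlgebra.lift_of _ _

/-- the crossed homomorphism -/
def pitD (s : Abelianization G → G) (g : G) : PitX G := fun q =>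
  (Additive.ofMul (pitPhi G ((s q)⁻¹ * g * s ((Abelianization.of g)⁻¹ * q))),
   (if q = Abelianization.of g then (1:ℤ) else 0) - (if q = 1 then 1 else 0))

theorem pitD_mul (s : Abelianization G → G) (hs : ∀ q, Abelianization.of (s q) = q) (g g' : G) :
    pitD s (g * g') = pitD s g + pitTau G (Abelianization.of g) (pitD s g') := by
  funext q
  rw [Pi.add_apply, pitTau_apply]
  unfold pitD
  refine Prod.ext ?_ ?_
  · simp only [Prod.fst_add]
    rw [← ofMul_mul, ← pitPhi_mul]
    · congr 2
      rw [map_mul, mul_inv_rev]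
      simp only [mul_assoc]
      rw [mul_inv_cancel_left]
    · rw [pit_mem_commutator_iff]
      simp [hs]
    · rw [pit_mem_commutator_iff]
      simp [hs]
  · simp only [Prod.snd_add, map_mul]
    have h1 : ((Abelianization.of g)⁻¹ * q = Abelianization.of g') ↔
        q = Abelianization.of g * Abelianization.of g' := inv_mul_eq_iff_eq_mul
    have h2 : ((Abelianization.of g)⁻¹ * q = 1) ↔ q = Abelianization.of g := by
      rw [inv_mul_eq_iff_eq_mul, mul_one]
    simp only [h1, h2]
    ring


section crossed

variable (s : Abelianization G → G) (hs : ∀ q, Abelianization.of (s q) = q)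
include hs

theorem pitD_one : pitD s 1 = 0 := by
  have h := pitD_mul s hs 1 1
  rw [mul_one, map_one, map_one, Module.End.one_apply] at h
  simpa using h

theorem pitD_inv (g : G) :
    pitD s g⁻¹ = - pitTau G (Abelianization.of g)⁻¹ (pitD s g) := by
  have h := pitD_mul s hs g⁻¹ g
  rw [inv_mul_cancel, pitD_one s hs, map_inv] at h
  exact eq_neg_of_add_eq_zero_left h.symm

theorem pitD_pow (g : G) (k : ℕ) :
    pitD s (g ^ k) = pitRho G (∑ j ∈ Finset.range k,
      (MonoidAlgebra.of ℤ (Abelianization G) (Abelianization.of g)) ^ j) (pitD s g) := by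
  induction k with
  | zero => simp [pitD_one s hs]
  | succ k ih =>
    rw [pow_succ, pitD_mul s hs, ih, Finset.sum_range_succ]
    simp only [map_pow, map_add, pitRho_of, LinearMap.add_apply]

theorem pitD_commutator (a b : G) :
    pitD s ⁅a, b⁆ =
      pitRho G (1 - MonoidAlgebra.of ℤ (Abelianization G) (Abelianization.of b)) (pitD s a)
      + pitRho G (MonoidAlgebra.of ℤ (Abelianization G) (Abelianization.of a) - 1) (pitD s b) := by
  have h1 : ⁅a, b⁆ * (b * a) = a * b := by simp [commutatorElement_def, mul_assoc]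
  have h2 := pitD_mul s hs ⁅a, b⁆ (b * a)
  have h3 : Abelianization.of ⁅a, b⁆ = 1 := by
    rw [map_commutatorElement]
    exact commutatorElement_eq_one_iff_commute.mpr (Commute.all _ _)
  rw [h1, h3, map_one, pitD_mul s hs a b, pitD_mul s hs b a, Module.End.one_apply] at h2
  simp only [map_sub, map_one, pitRho_of, LinearMap.sub_apply, Module.End.one_apply]
  have h4 : pitD s ⁅a, b⁆ = pitD s a + pitTau G (Abelianization.of a) (pitD s b)
      - (pitD s b + pitTau G (Abelianization.of b) (pitD s a)) := eq_sub_of_add_eq h2.symm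
  rw [h4]
  abel

end crossed

theorem pit_sum_ite {κ : Type*} [Fintype κ] [DecidableEq κ] (w : κ → PitX G) (a : κ)
    (x : MonoidAlgebra ℤ (Abelianization G)) :
    ∑ k, pitRho G (if k = a then x else 0) (w k) = pitRho G x (w a) := by
  rw [Finset.sum_eq_single a]
  · rw [if_pos rfl]
  · intro b _ hb
    rw [if_neg hb, map_zero, LinearMap.zero_apply]
  · intro h
    exact absurd (Finset.mem_univ a) h

theorem pit_det_apply {κ : Type*} [Fintype κ] [DecidableEq κ]
    (M : Matrix κ κ (MonoidAlgebra ℤ (Abelianization G)))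
    (w : κ → PitX G) (hM : ∀ r, ∑ k, pitRho G (M r k) (w k) = 0) (k : κ) :
    pitRho G M.det (w k) = 0 := by
  have h1 : ∑ j, pitRho G ((M.adjugate * M) k j) (w j) = 0 := by
    simp only [Matrix.mul_apply, map_sum, LinearMap.sum_apply, map_mul, Module.End.mul_apply]
    rw [Finset.sum_comm]
    refine Finset.sum_eq_zero fun r _ => ?_
    rw [← map_sum, hM r, map_zero]
  rw [Matrix.adjugate_mul] at h1
  rw [Finset.sum_eq_single k] at h1
  · simpa using h1
  · intro b _ hb
    simp [Ne.symm hb]
  · intro h
    exact absurd (Finset.mem_univ k) h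

theorem pitRho_apply [Fintype (Abelianization G)] (d : MonoidAlgebra ℤ (Abelianization G))
    (f : PitX G) (q : Abelianization G) :
    pitRho G d f q = ∑ h, d.coeff h • f (h⁻¹ * q) := by
  unfold pitRho
  rw [MonoidAlgebra.lift_apply,
    Finsupp.sum_fintype d.coeff (fun a b => b • pitTau G a) (fun a => zero_smul _ _)]
  simp only [LinearMap.sum_apply, Finset.sum_apply, LinearMap.smul_apply, Pi.smul_apply]
  rfl

theorem pitAug_apply [Fintype (Abelianization G)] (d : MonoidAlgebra ℤ (Abelianization G)) :
    pitAug G d = ∑ h, d.coeff h := by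
  unfold pitAug
  rw [MonoidAlgebra.lift_apply,
    Finsupp.sum_fintype d.coeff (fun a b => b • (1 : Abelianization G →* ℤ) a)
      (fun a => zero_smul _ _)]
  simp


section gens

variable {ι : Type} [Fintype ι] [Fintype ↥(commutator G)]

/-- generator elements -/
def pitGenElt (gen : ι → G) : ι ⊕ ↥(commutator G) → G := Sum.elim gen (fun n => (n : G))

variable (s : Abelianization G → G) (hs : ∀ q, Abelianization.of (s q) = q)
include hs

theorem pit_span (gen : ι → G)
    (hgen : ∀ K : Subgroup G, commutator G ≤ K → (∀ i, gen i ∈ K) → K = ⊤) (a : G) :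
    ∃ c : ι ⊕ ↥(commutator G) → MonoidAlgebra ℤ (Abelianization G),
      pitD s a = ∑ k, pitRho G (c k) (pitD s (pitGenElt gen k)) := by
  let K : Subgroup G :=
    { carrier := {a | ∃ c : ι ⊕ ↥(commutator G) → MonoidAlgebra ℤ (Abelianization G),
        pitD s a = ∑ k, pitRho G (c k) (pitD s (pitGenElt gen k))}
      mul_mem' := by
        rintro a b ⟨ca, ha⟩ ⟨cb, hb⟩
        refine ⟨fun k => ca k + MonoidAlgebra.of ℤ _ (Abelianization.of a) * cb k, ?_⟩
        rw [pitD_mul s hs, ha, hb, ← pitRho_of, map_sum, ← Finset.sum_add_distrib]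
        refine Finset.sum_congr rfl fun k _ => ?_
        rw [map_add, map_mul, LinearMap.add_apply, Module.End.mul_apply]
      one_mem' := ⟨0, by simp [pitD_one s hs]⟩
      inv_mem' := by
        rintro a ⟨ca, ha⟩
        refine ⟨fun k => - (MonoidAlgebra.of ℤ _ (Abelianization.of a)⁻¹ * ca k), ?_⟩
        rw [pitD_inv s hs, ha, ← pitRho_of, map_sum, ← Finset.sum_neg_distrib]
        refine Finset.sum_congr rfl fun k _ => ?_
        rw [map_neg, map_mul, LinearMap.neg_apply, Module.End.mul_apply] }
  have hK : K = ⊤ := by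
    refine hgen K ?_ ?_
    · intro n hn
      refine ⟨fun k => if k = Sum.inr ⟨n, hn⟩ then 1 else 0, ?_⟩
      simp only [pit_sum_ite, map_one, Module.End.one_apply, pitGenElt, Sum.elim_inr]
    · intro i
      refine ⟨fun k => if k = Sum.inl i then 1 else 0, ?_⟩
      simp only [pit_sum_ite, map_one, Module.End.one_apply, pitGenElt, Sum.elim_inl]
  have : a ∈ K := hK ▸ Subgroup.mem_top a
  exact this

theorem pit_span_aug (gen : ι → G)
    (hgen : ∀ K : Subgroup G, commutator G ≤ K → (∀ i, gen i ∈ K) → K = ⊤)
    (n : G) (hn : n ∈ commutator G) :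
    ∃ c : ι ⊕ ↥(commutator G) → MonoidAlgebra ℤ (Abelianization G),
      (∀ k, pitAug G (c k) = 0) ∧
      pitD s n = ∑ k, pitRho G (c k) (pitD s (pitGenElt gen k)) := by
  rw [commutator_eq_closure] at hn
  induction hn using Subgroup.closure_induction with
  | mem x hx =>
    obtain ⟨a, b, rfl⟩ := hx
    obtain ⟨ca, ha⟩ := pit_span s hs gen hgen a
    obtain ⟨cb, hb⟩ := pit_span s hs gen hgen b
    refine ⟨fun k => (1 - MonoidAlgebra.of ℤ _ (Abelianization.of b)) * ca k
      + (MonoidAlgebra.of ℤ _ (Abelianization.of a) - 1) * cb k, fun k => ?_, ?_⟩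
    · simp only [map_add, map_mul, map_sub, map_one, pitAug_of, sub_self, zero_mul, add_zero]
    · rw [pitD_commutator s hs, ha, hb, map_sum, map_sum, ← Finset.sum_add_distrib]
      refine Finset.sum_congr rfl fun k _ => ?_
      rw [map_add, map_mul, map_mul, LinearMap.add_apply, Module.End.mul_apply,
        Module.End.mul_apply]
  | one => exact ⟨0, fun k => by simp, by simp [pitD_one s hs]⟩
  | mul x y hx hy ihx ihy =>
    obtain ⟨cx, hx0, hx1⟩ := ihx
    obtain ⟨cy, hy0, hy1⟩ := ihy
    refine ⟨fun k => cx k + cy k, fun k => by simp [hx0, hy0], ?_⟩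
    have hx' : Abelianization.of x = 1 := by
      rw [← pit_mem_commutator_iff, commutator_eq_closure]
      exact hx
    rw [pitD_mul s hs, hx', map_one, Module.End.one_apply, hx1, hy1, ← Finset.sum_add_distrib]
    refine Finset.sum_congr rfl fun k _ => ?_
    rw [map_add, LinearMap.add_apply]
  | inv x hx ihx =>
    obtain ⟨cx, hx0, hx1⟩ := ihx
    refine ⟨fun k => - cx k, fun k => by simp [hx0], ?_⟩
    have hx' : Abelianization.of x = 1 := by
      rw [← pit_mem_commutator_iff, commutator_eq_closure]
      exact hx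
    rw [pitD_inv s hs, hx', inv_one, map_one, Module.End.one_apply, hx1,
      ← Finset.sum_neg_distrib]
    refine Finset.sum_congr rfl fun k _ => ?_
    rw [map_neg, LinearMap.neg_apply]

omit hs in
/-- the relation matrix -/
def pitMat (gen : ι → G) (e : ι → ℕ) (u : ι → ↥(commutator G))
    (c : ↥(commutator G) → ι ⊕ ↥(commutator G) → MonoidAlgebra ℤ (Abelianization G)) :
    Matrix (ι ⊕ ↥(commutator G)) (ι ⊕ ↥(commutator G)) (MonoidAlgebra ℤ (Abelianization G)) :=
  Matrix.of fun r k => Sum.elim
    (fun i => (if k = Sum.inl i then ∑ j ∈ Finset.range (e i),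
        (MonoidAlgebra.of ℤ (Abelianization G) (Abelianization.of (gen i))) ^ j else 0)
        - (if k = Sum.inr (u i) then 1 else 0))
    (fun n => (if k = Sum.inr n then 1 else 0) - c n k) r

theorem pitMat_rows (gen : ι → G) (e : ι → ℕ) (u : ι → ↥(commutator G))
    (c : ↥(commutator G) → ι ⊕ ↥(commutator G) → MonoidAlgebra ℤ (Abelianization G))
    (hu : ∀ i, (u i : G) = gen i ^ e i)
    (hc : ∀ n : ↥(commutator G),
      pitD s (n : G) = ∑ k, pitRho G (c n k) (pitD s (pitGenElt gen k)))
    (r : ι ⊕ ↥(commutator G)) :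
    ∑ k, pitRho G (pitMat gen e u c r k) (pitD s (pitGenElt gen k)) = 0 := by
  rcases r with i | n
  · simp only [pitMat, Matrix.of_apply, Sum.elim_inl, map_sub, LinearMap.sub_apply,
      Finset.sum_sub_distrib]
    rw [pit_sum_ite, pit_sum_ite, map_one, Module.End.one_apply]
    simp only [pitGenElt, Sum.elim_inl, Sum.elim_inr]
    rw [hu i, pitD_pow s hs, sub_self]
  · simp only [pitMat, Matrix.of_apply, Sum.elim_inr, map_sub, LinearMap.sub_apply,
      Finset.sum_sub_distrib]
    rw [pit_sum_ite, map_one, Module.End.one_apply, ← hc n]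
    simp only [pitGenElt, Sum.elim_inr, sub_self]

omit hs in
theorem pitMat_det_aug (gen : ι → G) (e : ι → ℕ) (u : ι → ↥(commutator G))
    (c : ↥(commutator G) → ι ⊕ ↥(commutator G) → MonoidAlgebra ℤ (Abelianization G))
    (hc0 : ∀ n k, pitAug G (c n k) = 0) :
    pitAug G (pitMat gen e u c).det = ∏ i, (e i : ℤ) := by
  have h1 : pitAug G (pitMat gen e u c).det
      = (((pitAug G : MonoidAlgebra ℤ (Abelianization G) →+* ℤ)).mapMatrix
          (pitMat gen e u c)).det :=
    RingHom.map_det _ _
  have h2 : ((pitAug G : MonoidAlgebra ℤ (Abelianization G) →+* ℤ)).mapMatrix (pitMat gen e u c) =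
      Matrix.fromBlocks (Matrix.diagonal fun i => (e i : ℤ))
        (Matrix.of fun i m => pitAug G (pitMat gen e u c (Sum.inl i) (Sum.inr m))) 0 1 := by
    ext (i | n) (j | m)
    · show pitAug G (pitMat gen e u c (Sum.inl i) (Sum.inl j))
        = Matrix.diagonal (fun i => (e i : ℤ)) i j
      simp only [pitMat, Matrix.of_apply, Sum.elim_inl, Sum.inl.injEq, reduceCtorEq, if_false,
        sub_zero, Matrix.diagonal_apply]
      by_cases hij : j = i
      · subst hij
        simp only [if_true, map_sum, map_pow, pitAug_of, one_pow, Finset.sum_const,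
          Finset.card_range, nsmul_eq_mul, mul_one]
      · rw [if_neg hij, if_neg (fun h => hij h.symm), map_zero]
    · rfl
    · show pitAug G (pitMat gen e u c (Sum.inr n) (Sum.inl j)) = 0
      simp only [pitMat, Matrix.of_apply, Sum.elim_inr, reduceCtorEq, if_false, zero_sub,
        map_neg, hc0, neg_zero]
    · show pitAug G (pitMat gen e u c (Sum.inr n) (Sum.inr m)) = (1 : Matrix _ _ ℤ) n m
      simp only [pitMat, Matrix.of_apply, Sum.elim_inr, Sum.inr.injEq, map_sub, hc0, sub_zero,
        Matrix.one_apply]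
      by_cases hnm : m = n
      · subst hnm
        simp only [if_true, map_one]
      · rw [if_neg hnm, if_neg (fun h => hnm h.symm), map_zero]
  rw [h1, h2, Matrix.det_fromBlocks_zero₂₁, Matrix.det_diagonal, Matrix.det_one, mul_one]

end gens

theorem pit_structure (H : Type*) [CommGroup H] [Finite H] :
    ∃ (ι : Type) (_ : Fintype ι) (e : ι → ℕ) (σ : ι → H),
      (∀ i, σ i ^ e i = 1) ∧ Subgroup.closure (Set.range σ) = ⊤ ∧ ∏ i, e i = Nat.card H := by
  obtain ⟨ι, hι, n, hn, ⟨φ⟩⟩ := CommGroup.equiv_prod_multiplicative_zmod_of_finite H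
  have hne : ∀ i, NeZero (n i) := fun i => ⟨by have := hn i; omega⟩
  refine ⟨ι, hι, n, fun i => φ.symm (Pi.mulSingle i (Multiplicative.ofAdd 1)), fun i => ?_, ?_, ?_⟩
  · rw [← map_pow, ← Pi.mulSingle_pow, ← ofAdd_nsmul]
    have h0 : (n i) • (1 : ZMod (n i)) = 0 := by simp
    rw [h0, ofAdd_zero, Pi.mulSingle_one, map_one]
  · rw [eq_top_iff]
    intro x _
    have hx : φ x = ∏ i, Pi.mulSingle i (φ x i) := (Finset.univ_prod_mulSingle (φ x)).symm
    have hx2 : x = ∏ i, φ.symm (Pi.mulSingle i (φ x i)) := by
      rw [← map_prod, ← hx, MulEquiv.symm_apply_apply]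
    rw [hx2]
    refine Subgroup.prod_mem _ fun i _ => ?_
    have hz : φ x i = (Multiplicative.ofAdd (1 : ZMod (n i))) ^ (Multiplicative.toAdd (φ x i)).val := by
      have := hne i
      rw [← ofAdd_nsmul, nsmul_eq_mul, mul_one, ZMod.natCast_zmod_val]
      rfl
    rw [hz, Pi.mulSingle_pow, map_pow]
    exact Subgroup.pow_mem _ (Subgroup.subset_closure (Set.mem_range_self i)) _
  · rw [Nat.card_congr φ.toEquiv, Nat.card_pi]
    refine Finset.prod_congr rfl fun i _ => ?_
    rw [Nat.card_congr Multiplicative.toAdd, Nat.card_zmod]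


theorem pit_core [Fintype (Abelianization G)] [Fintype ↥(commutator G)]
    (s : Abelianization G → G) (hs : ∀ q, Abelianization.of (s q) = q)
    (ι : Type) [Fintype ι] (e : ι → ℕ) (σ : ι → Abelianization G)
    (hσ : ∀ i, σ i ^ e i = 1) (hcl : Subgroup.closure (Set.range σ) = ⊤)
    (hcard : ∏ i, e i = Nat.card (Abelianization G)) (g : G) :
    ∑ q, (pitD s g q).1 = 0 := by
  have hsurj : Function.Surjective (Abelianization.of : G → Abelianization G) :=
    QuotientGroup.mk_surjective
  choose gen hgen_eq using fun i => hsurj (σ i)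
  have hgen : ∀ K : Subgroup G, commutator G ≤ K → (∀ i, gen i ∈ K) → K = ⊤ := by
    intro K hN hK
    rw [eq_top_iff]
    intro a _
    have hmap : K.map (Abelianization.of) = ⊤ := by
      rw [eq_top_iff, ← hcl, Subgroup.closure_le]
      rintro _ ⟨i, rfl⟩
      exact ⟨gen i, hK i, hgen_eq i⟩
    have ha : Abelianization.of a ∈ K.map (Abelianization.of) := by
      rw [hmap]
      trivial
    obtain ⟨b, hb, hba⟩ := ha
    have h1 : b⁻¹ * a ∈ commutator G := by
      rw [pit_mem_commutator_iff, map_mul, map_inv, hba, inv_mul_cancel]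
    have h2 := K.mul_mem hb (hN h1)
    simpa using h2
  have hu : ∀ i, gen i ^ e i ∈ commutator G := by
    intro i
    rw [pit_mem_commutator_iff, map_pow, hgen_eq, hσ]
  let u : ι → ↥(commutator G) := fun i => ⟨gen i ^ e i, hu i⟩
  choose c hc0 hc using fun n : ↥(commutator G) => pit_span_aug s hs gen hgen (n : G) n.2
  have hdet : ∀ k, pitRho G (pitMat gen e u c).det (pitD s (pitGenElt gen k)) = 0 :=
    pit_det_apply (pitMat gen e u c) _
      (pitMat_rows s hs gen e u c (fun i => rfl) hc)
  have hcomm : ∀ (h : Abelianization G) (x : PitX G),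
      pitRho G (pitMat gen e u c).det (pitTau G h x)
        = pitTau G h (pitRho G (pitMat gen e u c).det x) := by
    intro h x
    rw [← pitRho_of, ← Module.End.mul_apply, ← Module.End.mul_apply, ← map_mul, ← map_mul,
      mul_comm]
  have hall : ∀ a : G, pitRho G (pitMat gen e u c).det (pitD s a) = 0 := by
    let K : Subgroup G :=
      { carrier := {a | pitRho G (pitMat gen e u c).det (pitD s a) = 0}
        mul_mem' := by
          intro a b ha hb
          show pitRho G (pitMat gen e u c).det (pitD s (a * b)) = 0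
          rw [pitD_mul s hs, map_add, hcomm, ha, hb, map_zero, add_zero]
        one_mem' := by
          show pitRho G (pitMat gen e u c).det (pitD s 1) = 0
          rw [pitD_one s hs, map_zero]
        inv_mem' := by
          intro a ha
          show pitRho G (pitMat gen e u c).det (pitD s a⁻¹) = 0
          rw [pitD_inv s hs, map_neg, hcomm, ha, map_zero, neg_zero] }
    have hK : K = ⊤ := by
      refine hgen K ?_ ?_
      · intro n hn
        exact hdet (Sum.inr ⟨n, hn⟩)
      · intro i
        exact hdet (Sum.inl i)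
    intro a
    have : a ∈ K := hK ▸ Subgroup.mem_top a
    exact this
  have hconst : ∀ h : Abelianization G,
      (pitMat gen e u c).det.coeff h = (pitMat gen e u c).det.coeff 1 := by
    intro h
    obtain ⟨a, rfl⟩ := hsurj h
    have h1 := congrFun (hall a) (Abelianization.of a)
    rw [pitRho_apply] at h1
    have h2 := congrArg Prod.snd h1
    simp only [Prod.snd_sum, Prod.smul_snd, Pi.zero_apply, Prod.snd_zero] at h2
    have h3 : ∀ x : Abelianization G, (pitD s a (x⁻¹ * Abelianization.of a)).2
        = (if x = 1 then (1:ℤ) else 0) - (if x = Abelianization.of a then 1 else 0) := by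
      intro x
      have e1 : (x⁻¹ * Abelianization.of a = Abelianization.of a) ↔ x = 1 := by
        rw [inv_mul_eq_iff_eq_mul]
        constructor
        · intro h
          exact (mul_eq_right.mp h.symm)
        · intro h
          rw [h, one_mul]
      have e2 : (x⁻¹ * Abelianization.of a = 1) ↔ x = Abelianization.of a := by
        rw [inv_mul_eq_iff_eq_mul, mul_one, eq_comm]
      simp only [pitD, e1, e2]
    simp only [h3, smul_eq_mul, mul_sub, mul_ite, mul_one, mul_zero, Finset.sum_sub_distrib,
      Finset.sum_ite_eq', Finset.mem_univ, if_true] at h2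
    linarith
  have hc1 : (pitMat gen e u c).det.coeff 1 = 1 := by
    have h1 : pitAug G (pitMat gen e u c).det = ∏ i, (e i : ℤ) := pitMat_det_aug gen e u c hc0
    rw [pitAug_apply, Finset.sum_congr rfl (fun h _ => hconst h), Finset.sum_const,
      Finset.card_univ, ← Nat.cast_prod, hcard, Nat.card_eq_fintype_card, nsmul_eq_mul] at h1
    have hpos : (0:ℤ) < Fintype.card (Abelianization G) := by exact_mod_cast Fintype.card_pos
    exact mul_left_cancel₀ hpos.ne' (h1.trans (mul_one _).symm)
  have h1 := congrFun (hall g) 1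
  rw [pitRho_apply] at h1
  have h2 := congrArg Prod.fst h1
  simp only [Prod.fst_sum, Prod.smul_fst, Pi.zero_apply, Prod.fst_zero] at h2
  rw [Finset.sum_congr rfl (fun h _ => by rw [hconst h, hc1, one_smul])] at h2
  rw [← h2]
  exact (Fintype.sum_equiv (Equiv.inv (Abelianization G)) _ _ (fun h => by simp)).symm

theorem pit_main {G : Type*} [Group G] [Finite G] :
    MonoidHom.transfer (Abelianization.of : ↥(commutator G) →* Abelianization ↥(commutator G)) =
      (1 : G →* Abelianization ↥(commutator G)) := by
  ext g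
  rw [MonoidHom.one_apply]
  let T : (commutator G).LeftTransversal := default
  let s : Abelianization G → G := fun q => (T.2.leftQuotientEquiv q : G)
  have hs : ∀ q, Abelianization.of (s q) = q := fun q => T.2.quotientGroupMk_leftQuotientEquiv q
  obtain ⟨ι, hι, e, σ, hσ, hcl, hcard⟩ := pit_structure (Abelianization G)
  letI : Fintype (Abelianization G) := (commutator G).fintypeQuotientOfFiniteIndex
  letI : Fintype ↥(commutator G) := Fintype.ofFinite _
  have key := pit_core s hs ι e σ hσ hcl hcard g
  have hphi : ∀ (x : G) (hx : x ∈ commutator G),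
      (Abelianization.of ⟨x, hx⟩ : Abelianization (commutator G)) = pitPhi G x :=
    fun x hx => by
      unfold pitPhi
      rw [dif_pos hx]
  have key2 : ∏ q : Abelianization G,
      pitPhi G ((s q)⁻¹ * g * s ((Abelianization.of g)⁻¹ * q)) = 1 := by
    have h : ∑ q : Abelianization G, Additive.ofMul
        (pitPhi G ((s q)⁻¹ * g * s ((Abelianization.of g)⁻¹ * q))) = 0 := key
    rw [← ofMul_prod] at h
    exact h
  rw [MonoidHom.transfer_def _ T g]
  unfold Subgroup.leftTransversals.diff
  rw [← key2]
  refine Finset.prod_congr rfl (fun q _ => ?_)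
  rw [hphi]
  congr 1
  rw [Subgroup.smul_apply_eq_smul_apply_inv_smul, smul_eq_mul, mul_assoc]
  congr 2

end

end Cfsg.Agent.Helper21
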