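import Mathlib
import Cfsg.Agent.Helper21.HHAmbient2
import Cfsg.Agent.Helper21.FSNormalA
import Cfsg.Agent.Helper20.HallHigman
import Cfsg.Agent.Helper20.PSolvHall
import Cfsg.Agent.Helper9.PComp
import Cfsg.Agent.Helper9.Fitting

/-!
`p`-solvable linear groups of degree at most `p - 1` (S4468): structure lemmas.
-/

set_option autoImplicit false

namespace Cfsg.Agent.Helper21

open Cfsg
open scoped Pointwise

universe u

/-- In a `p`-solvable group with abelian Sylow `p`-subgroups, `O_{p'}(G) P` is normal. -/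
theorem ps_normal_sup {G : Type u} [Group G] [Finite G] (p : ℕ) [Fact p.Prime]
    (hsol : Cfsg.IsPSolvable p G) (P : Sylow p G)
    (hab : ∀ a ∈ (P : Subgroup G), ∀ b ∈ (P : Subgroup G), a * b = b * a) :
    (Cfsg.pPrimeCore p G ⊔ (P : Subgroup G)).Normal := by
  have hq : Cfsg.IsPSolvable p (G ⧸ Cfsg.pPrimeCore p G) :=
    Helper20.isPSolvable_quotient p hsol (Cfsg.pPrimeCore p G)
  have hO : Cfsg.pPrimeCore p (G ⧸ Cfsg.pPrimeCore p G) = ⊥ :=
    Helper9.pPrimeCore_quotient_eq_bot p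
  have hC := Helper20.PLen.centralizer_pCore_le_of_psolvable p hq hO
  have hsurj : Function.Surjective (QuotientGroup.mk' (Cfsg.pPrimeCore p G)) :=
    QuotientGroup.mk'_surjective _
  obtain ⟨Pb, hPb⟩ : ∃ Pb : Sylow p (G ⧸ Cfsg.pPrimeCore p G), Pb = P.mapSurjective hsurj :=
    ⟨_, rfl⟩
  have hPbc : (Pb : Subgroup (G ⧸ Cfsg.pPrimeCore p G))
      = (P : Subgroup G).map (QuotientGroup.mk' (Cfsg.pPrimeCore p G)) := by
    rw [hPb, Sylow.coe_mapSurjective]
  have hU : Cfsg.pCore p (G ⧸ Cfsg.pPrimeCore p G) ≤ Pb :=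
    (Helper9.pCore_isPGroup p).le_sylow_of_normal Pb
  have hPbU : (Pb : Subgroup (G ⧸ Cfsg.pPrimeCore p G))
      ≤ Cfsg.pCore p (G ⧸ Cfsg.pPrimeCore p G) := by
    refine le_trans ?_ hC
    intro y hy
    rw [Subgroup.mem_centralizer_iff]
    intro u hu
    have hu' := hU hu
    rw [hPbc] at hu' hy
    obtain ⟨a, ha, rfl⟩ := hu'
    obtain ⟨b, hb, rfl⟩ := hy
    rw [← map_mul, ← map_mul, hab a ha b hb]
  have heq : (Pb : Subgroup (G ⧸ Cfsg.pPrimeCore p G))
      = Cfsg.pCore p (G ⧸ Cfsg.pPrimeCore p G) := le_antisymm hPbU hU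
  have hnorm : ((P : Subgroup G).map (QuotientGroup.mk' (Cfsg.pPrimeCore p G))).Normal := by
    rw [← hPbc, heq]
    infer_instance
  have hcomap := hnorm.comap (QuotientGroup.mk' (Cfsg.pPrimeCore p G))
  rw [Subgroup.comap_map_eq, QuotientGroup.ker_mk', sup_comm] at hcomap
  exact hcomap

/-- In a `p`-solvable group with abelian non-normal Sylow `p`-subgroup `P`, some element of `P`
fails to centralize `O_{p'}(G)` while its `p`-th power does. -/
theorem ps_struct {G : Type u} [Group G] [Finite G] (p : ℕ) [Fact p.Prime]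
    (hsol : Cfsg.IsPSolvable p G) (P : Sylow p G)
    (hab : ∀ a ∈ (P : Subgroup G), ∀ b ∈ (P : Subgroup G), a * b = b * a)
    (hP : ¬ (P : Subgroup G).Normal) :
    ∃ x ∈ (P : Subgroup G), ∃ a : ℕ, orderOf x = p ^ (a + 1) ∧
      (∀ k ∈ Cfsg.pPrimeCore p G, x ^ p * k = k * x ^ p) ∧
      ∃ k ∈ Cfsg.pPrimeCore p G, x * k ≠ k * x := by
  classical
  by_contra hS
  apply hP
  have hWn := ps_normal_sup p hsol P hab
  obtain ⟨K, hK⟩ : ∃ K : Subgroup G, K = Cfsg.pPrimeCore p G := ⟨_, rfl⟩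
  rw [← hK] at hS hWn
  have hcent : ∀ y ∈ (P : Subgroup G), ∀ k ∈ K, y * k = k * y := by
    by_contra hcent
    push_neg at hcent
    obtain ⟨y, hy, k, hk, hyk⟩ := hcent
    obtain ⟨C, hC⟩ : ∃ C : Subgroup G, C = Subgroup.centralizer (K : Set G) := ⟨_, rfl⟩
    have hyC : y ∉ C := by
      intro h
      rw [hC, Subgroup.mem_centralizer_iff] at h
      exact hyk (h k hk).symm
    have hex : ∃ j : ℕ, y ^ p ^ j ∈ C := by
      obtain ⟨j, hj⟩ := P.isPGroup' ⟨y, hy⟩
      refine ⟨j, ?_⟩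
      have h0 : y ^ p ^ j = 1 := by
        have := congrArg (fun t : (P : Subgroup G) => (t : G)) hj
        simpa using this
      rw [h0]
      exact Subgroup.one_mem _
    obtain ⟨j₀, hj₀⟩ : ∃ j₀, j₀ = Nat.find hex := ⟨_, rfl⟩
    have hj₀spec : y ^ p ^ j₀ ∈ C := by rw [hj₀]; exact Nat.find_spec hex
    have hj₀pos : j₀ ≠ 0 := by
      intro h0
      rw [h0, pow_zero, pow_one] at hj₀spec
      exact hyC hj₀spec
    obtain ⟨i, hi⟩ : ∃ i, j₀ = i + 1 := Nat.exists_eq_succ_of_ne_zero hj₀pos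
    obtain ⟨x, hx⟩ : ∃ x : G, x = y ^ p ^ i := ⟨_, rfl⟩
    have hxC : x ∉ C := by
      rw [hx]
      exact Nat.find_min hex (by rw [← hj₀, hi]; exact Nat.lt_succ_self i)
    have hxpC : x ^ p ∈ C := by
      rw [hx, ← pow_mul, ← pow_succ, ← hi]
      exact hj₀spec
    have hxP : x ∈ (P : Subgroup G) := by rw [hx]; exact Subgroup.pow_mem _ hy _
    obtain ⟨b, hb⟩ := (IsPGroup.iff_orderOf.1 P.isPGroup') ⟨x, hxP⟩
    rw [Subgroup.orderOf_mk] at hb
    have hb0 : b ≠ 0 := by
      intro h0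
      rw [h0, pow_zero, orderOf_eq_one_iff] at hb
      rw [hb] at hxC
      exact hxC (Subgroup.one_mem _)
    obtain ⟨a, ha⟩ : ∃ a, b = a + 1 := Nat.exists_eq_succ_of_ne_zero hb0
    rw [ha] at hb
    have hxp : ∀ k ∈ K, x ^ p * k = k * x ^ p := by
      intro k hk
      rw [hC, Subgroup.mem_centralizer_iff] at hxpC
      exact (hxpC k hk).symm
    apply hS
    refine ⟨x, hxP, a, hb, hxp, ?_⟩
    by_contra hno
    push_neg at hno
    apply hxC
    rw [hC, Subgroup.mem_centralizer_iff]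
    intro k hk
    exact (hno k hk).symm
  have hPW : (P : Subgroup G) ≤ K ⊔ (P : Subgroup G) := le_sup_right
  have hWle : K ⊔ (P : Subgroup G) ≤ Subgroup.normalizer ((P : Subgroup G) : Set G) := by
    refine sup_le ?_ Subgroup.le_normalizer
    refine le_trans ?_ (Subgroup.centralizer_le_normalizer _)
    intro k hk
    rw [Subgroup.mem_centralizer_iff]
    intro y hy
    exact hcent y hy k hk
  have hn1 : ((P.subtype hPW : Sylow p (K ⊔ (P : Subgroup G) : Subgroup G)) :
      Subgroup (K ⊔ (P : Subgroup G) : Subgroup G)).Normal := by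
    rw [Sylow.coe_subtype]
    exact (Subgroup.normal_subgroupOf_iff_le_normalizer hPW).2 hWle
  haveI := Sylow.characteristic_of_normal (P.subtype hPW) hn1
  haveI := hWn
  have hn2 : (((P.subtype hPW : Sylow p (K ⊔ (P : Subgroup G) : Subgroup G)) :
      Subgroup (K ⊔ (P : Subgroup G) : Subgroup G)).map
        (K ⊔ (P : Subgroup G)).subtype).Normal := inferInstance
  rw [Sylow.coe_subtype, Subgroup.subgroupOf_map_subtype, inf_of_le_left hPW] at hn2
  exact hn2

/-- A `p`-element acting nontrivially on a normal `p'`-subgroup `K` normalizes, but does not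
centralize, some `q`-subgroup of `K`. -/
theorem ps_invariant_sylow {G : Type*} [Group G] [Finite G] (p : ℕ) [hp : Fact p.Prime]
    (K : Subgroup G) [hKn : K.Normal] (hK : (Nat.card K).Coprime p) (x : G) (b : ℕ)
    (hx : orderOf x = p ^ b) (hnc : ∃ k ∈ K, x * k ≠ k * x) :
    ∃ q : ℕ, q.Prime ∧ ∃ Q : Subgroup G, Q ≤ K ∧ IsPGroup q Q ∧
      x ∈ Subgroup.normalizer (Q : Set G) ∧ ∃ y ∈ Q, x * y ≠ y * x := by
  classical
  by_contra hcon
  push_neg at hcon
  obtain ⟨C, hC⟩ : ∃ C : Subgroup G, C = K ⊓ Subgroup.centralizer ({x} : Set G) := ⟨_, rfl⟩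
  have hCK : C ≤ K := by rw [hC]; exact inf_le_left
  obtain ⟨σ, hσ⟩ : ∃ σ : MulAut K, σ = MulAut.conjNormal x := ⟨_, rfl⟩
  have hσpow : σ ^ p ^ b = 1 := by
    rw [hσ, ← map_pow, ← hx, pow_orderOf_eq_one, map_one]
  have hT : IsPGroup p (Subgroup.zpowers σ) := by
    have hdvd : orderOf σ ∣ p ^ b := orderOf_dvd_of_pow_eq_one hσpow
    obtain ⟨j, _, hj⟩ := (Nat.dvd_prime_pow hp.out).1 hdvd
    exact IsPGroup.of_card (n := j) (by rw [Nat.card_zpowers, hj])
  have hdvd : Nat.card K ∣ Nat.card C := by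
    rw [← Nat.factorization_prime_le_iff_dvd Nat.card_pos.ne' Nat.card_pos.ne']
    intro q hq
    haveI : Fact q.Prime := ⟨hq⟩
    have hnd : ¬ p ∣ Nat.card (Sylow q K) := by
      obtain ⟨S₀⟩ : Nonempty (Sylow q K) := inferInstance
      intro hpd
      have h1 : p ∣ Nat.card K :=
        hpd.trans ((Sylow.card_dvd_index S₀).trans (Subgroup.index_dvd_card _))
      exact (Nat.Prime.coprime_iff_not_dvd hp.out).1 hK.symm h1
    obtain ⟨S, hS⟩ := hT.nonempty_fixed_point_of_prime_not_dvd_card (Sylow q K) hnd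
    have hσS : σ • S = S := hS ⟨σ, Subgroup.mem_zpowers σ⟩
    have hmem : ∀ s : K, σ s ∈ (S : Subgroup K) ↔ s ∈ (S : Subgroup K) := by
      intro s
      have h1 : σ • s ∈ σ • (S : Subgroup K) ↔ s ∈ (S : Subgroup K) :=
        Subgroup.smul_mem_pointwise_smul_iff
      have h2 : σ • (S : Subgroup K) = ((σ • S : Sylow q K) : Subgroup K) := rfl
      rw [h2, hσS] at h1
      exact h1
    obtain ⟨Q, hQ⟩ : ∃ Q : Subgroup G, Q = (S : Subgroup K).map K.subtype := ⟨_, rfl⟩
    have hQK : Q ≤ K := by rw [hQ]; exact Subgroup.map_subtype_le _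
    have hQq : IsPGroup q Q := by rw [hQ]; exact S.isPGroup'.map _
    have hQmem : ∀ s : K, (s : G) ∈ Q ↔ s ∈ (S : Subgroup K) := by
      intro s
      rw [hQ]
      constructor
      · rintro ⟨s', hs', e⟩
        have e' : s' = s := Subtype.ext e
        rw [← e']
        exact hs'
      · intro hs
        exact ⟨s, hs, rfl⟩
    have hxN : x ∈ Subgroup.normalizer (Q : Set G) := by
      rw [Subgroup.mem_normalizer_iff]
      intro y
      constructor
      · intro hy
        have hyK := hQK hy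
        have h1 := (hQmem ⟨y, hyK⟩).1 hy
        have h2 := (hmem ⟨y, hyK⟩).2 h1
        have h3 := (hQmem (σ ⟨y, hyK⟩)).2 h2
        rw [hσ] at h3
        simpa using h3
      · intro hy
        have hyK : y ∈ K := by
          have h0 := hKn.conj_mem _ (hQK hy) x⁻¹
          have e : x⁻¹ * (x * y * x⁻¹) * x⁻¹⁻¹ = y := by group
          rw [e] at h0
          exact h0
        have h3 : ((σ ⟨y, hyK⟩ : K) : G) ∈ Q := by
          rw [hσ]
          simpa using hy
        have h2 := (hQmem _).1 h3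
        have h1 := (hmem ⟨y, hyK⟩).1 h2
        exact (hQmem ⟨y, hyK⟩).2 h1
    have hcen := hcon q hq Q hQK hQq hxN
    have hQC : Q ≤ C := by
      intro y hy
      rw [hC]
      refine Subgroup.mem_inf.2 ⟨hQK hy, ?_⟩
      rw [Subgroup.mem_centralizer_iff]
      intro h hh
      rw [Set.mem_singleton_iff] at hh
      rw [hh]
      exact hcen y hy
    have hcardQ : Nat.card Q = q ^ (Nat.card K).factorization q := by
      rw [hQ, Subgroup.card_map_of_injective K.subtype_injective]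
      exact S.card_eq_multiplicity
    have h5 : q ^ (Nat.card K).factorization q ∣ Nat.card C := by
      rw [← hcardQ]
      exact Subgroup.card_dvd_of_le hQC
    exact (Nat.Prime.pow_dvd_iff_le_factorization hq Nat.card_pos.ne').1 h5
  have hCeq : C = K := Subgroup.eq_of_le_of_card_ge hCK (Nat.le_of_dvd Nat.card_pos hdvd)
  obtain ⟨k, hk, hxk⟩ := hnc
  apply hxk
  have hkC : k ∈ C := by rw [hCeq]; exact hk
  rw [hC] at hkC
  have h6 := (Subgroup.mem_inf.1 hkC).2
  rw [Subgroup.mem_centralizer_iff] at h6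
  exact h6 x rfl

end Cfsg.Agent.Helper21
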