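import Mathlib
import Cfsg.Agent.Helper21.PSolvLinear

/-!
`p`-solvable linear groups of degree at most `p - 1` with a non-normal Sylow `p`-subgroup
(S4468): the degree is `p - 1`, a power of `2`, and the character is irreducible.
-/

set_option autoImplicit false

namespace Cfsg.Agent.Helper21

open Cfsg
open scoped Pointwise

universe u

theorem ps_small_degree {G : Type u} [Group G] [Finite G] (χ : G → ℂ) (hχ : IsCharacter G χ)
    (hfaith : ∀ g : G, χ g = χ 1 → g = 1) (n : ℕ) (hn : charDegree χ = n) (p : ℕ)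
    [hp : Fact p.Prime] (hsolv : IsPSolvable p G) (hnp : n + 1 ≤ p) (P : Sylow p G)
    (hP : ¬ (P : Subgroup G).Normal) :
    n + 1 = p ∧ (∃ k : ℕ, n = 2 ^ k) ∧ IsIrrCharacter G χ := by
  classical
  obtain ⟨m, ρ, rfl⟩ := hχ
  have hone : ρ.character 1 = (m : ℂ) := by
    rw [Representation.char_one]
    simp
  have hmn : m = n := by
    have hd := Helper24.charDegree_spec (⟨m, ρ, rfl⟩ : IsCharacter G ρ.character)
    rw [hone, hn] at hd
    exact_mod_cast hd
  subst hmn
  have hchar_one : ∀ g : G, ρ g = 1 → ρ.character g = ρ.character 1 := by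
    intro g hg
    unfold Representation.character
    rw [hg, map_one ρ]
  have hρ : Function.Injective ρ := by
    intro g h hgh
    have h1 : ρ (g * h⁻¹) = 1 := by rw [map_mul, hgh, ← map_mul, mul_inv_cancel, map_one]
    exact mul_inv_eq_one.1 (hfaith _ (hchar_one _ h1))
  have hab := fs_pgroup_comm p ρ hρ (by omega) (P : Subgroup G) P.isPGroup'
  obtain ⟨x, hxP, a, hx, hxp, k₀, hk₀, hxk₀⟩ := ps_struct p hsolv P hab hP
  have hKcop : (Nat.card (Cfsg.pPrimeCore p G)).Coprime p := Helper9.pPrimeCore_coprime p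
  have hcomm_of : ∀ y : G, x * y * x⁻¹ * y⁻¹ = 1 → x * y = y * x := by
    intro y h4
    calc x * y = (x * y * x⁻¹ * y⁻¹) * (y * x) := by group
      _ = y * x := by rw [h4, one_mul]
  have hnp' : m + 1 = p := by
    by_contra hne
    have hlt : m + 1 < p := by omega
    have h1 := hh_ambient p ρ hlt (Cfsg.pPrimeCore p G) hKcop x a hx hxp k₀ hk₀
    exact hxk₀ (hcomm_of k₀ (hρ (by rw [h1, map_one])))
  have hirr : IsIrrCharacter G ρ.character := by
    obtain ⟨l, hl, hsum⟩ :=
      Helper2.IsCharacter.exists_list (⟨m, ρ, rfl⟩ : IsCharacter G ρ.character)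
    by_contra hirr
    have hdeg : ∀ φ ∈ l, charDegree φ + 1 < p := by
      intro φ hφ
      have hperm := List.perm_cons_erase hφ
      have hs : l.sum = φ + (l.erase φ).sum := by rw [hperm.sum_eq, List.sum_cons]
      have hl' : ∀ ψ ∈ l.erase φ, IsIrrCharacter G ψ :=
        fun ψ hψ => hl ψ (List.mem_of_mem_erase hψ)
      obtain ⟨m', hm', hle'⟩ := hh_list_deg (l.erase φ) hl'
      have hm'pos : 1 ≤ m' := by
        cases hne : l.erase φ with
        | nil =>
          exfalso
          apply hirr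
          rw [hsum, hs, hne, List.sum_nil, add_zero]
          exact hl φ hφ
        | cons ψ t =>
          have hψ : ψ ∈ l.erase φ := by rw [hne]; exact List.mem_cons_self ..
          have h1 := hle' ψ hψ
          have h2 := Helper24.irr_degree_pos (hl' ψ hψ)
          omega
      have hφd := Helper24.charDegree_spec (Helper24.isCharacter_of_irr (hl φ hφ))
      have h1 : ρ.character 1 = φ 1 + (l.erase φ).sum 1 := by
        rw [hsum, hs]
        rfl
      rw [hone, hφd, hm'] at h1
      have h2 : m = charDegree φ + m' := by exact_mod_cast h1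
      omega
    have hall : ∀ φ ∈ l, φ (x * k₀ * x⁻¹ * k₀⁻¹) = φ 1 := by
      intro φ hφ
      obtain ⟨d, σ, hσ, hσφ⟩ := hl φ hφ
      have hd : charDegree φ = d := by
        have hd := Helper24.charDegree_spec (⟨d, σ, hσφ⟩ : IsCharacter G φ)
        have h1 : φ 1 = (d : ℂ) := by
          rw [← hσφ, Representation.char_one]
          simp
        rw [h1] at hd
        exact_mod_cast hd.symm
      have h2 := hh_ambient p σ (by have := hdeg φ hφ; omega) (Cfsg.pPrimeCore p G) hKcop x a
        hx hxp k₀ hk₀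
      rw [← hσφ]
      unfold Representation.character
      rw [h2, map_one σ]
    have heval := hh_list_eval l _ _ hall
    rw [← hsum] at heval
    exact hxk₀ (hcomm_of k₀ (hfaith _ heval))
  refine ⟨hnp', ?_, hirr⟩
  obtain ⟨q, hq, Q, hQK, hQq, hxN, y, hyQ, hxy⟩ :=
    ps_invariant_sylow p (Cfsg.pPrimeCore p G) hKcop x (a + 1) hx ⟨k₀, hk₀, hxk₀⟩
  haveI : Fact q.Prime := ⟨hq⟩
  have hQle : Q ≤ Subgroup.normalizer (Q : Set G) := Subgroup.le_normalizer
  obtain ⟨x', hx'def⟩ : ∃ x' : Subgroup.normalizer (Q : Set G), (x' : G) = x :=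
    ⟨⟨x, hxN⟩, rfl⟩
  have hx' : orderOf x' = p ^ (a + 1) := by
    rw [← Subgroup.orderOf_coe, hx'def]
    exact hx
  have hcardQ' : Nat.card (Q.subgroupOf (Subgroup.normalizer (Q : Set G))) = Nat.card Q :=
    Nat.card_congr (Subgroup.subgroupOfEquivOfLe hQle).toEquiv
  have hcop' : (Nat.card (Q.subgroupOf (Subgroup.normalizer (Q : Set G)))).Coprime p := by
    rw [hcardQ']
    exact Nat.Coprime.coprime_dvd_left (Subgroup.card_dvd_of_le hQK) hKcop
  have hxp' : ∀ k' ∈ Q.subgroupOf (Subgroup.normalizer (Q : Set G)),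
      x' ^ p * k' = k' * x' ^ p := by
    intro k' hk'
    apply Subtype.ext
    simp only [Subgroup.coe_mul, Subgroup.coe_pow, hx'def]
    exact hxp _ (hQK (Subgroup.mem_subgroupOf.1 hk'))
  rcases hh_ambient_dvd p (ρ.comp (Subgroup.normalizer (Q : Set G)).subtype)
    (Q.subgroupOf (Subgroup.normalizer (Q : Set G))) hcop' x' a hx' hxp' with
    hleft | ⟨d, hd1, hd2, hd3⟩
  · exfalso
    have h1 := hleft ⟨y, hQle hyQ⟩ (Subgroup.mem_subgroupOf.2 hyQ)
    have h2 : ρ (x * y * x⁻¹ * y⁻¹) = 1 := by
      have e : ((x' * ⟨y, hQle hyQ⟩ * x'⁻¹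
          * (⟨y, hQle hyQ⟩ : Subgroup.normalizer (Q : Set G))⁻¹ :
            Subgroup.normalizer (Q : Set G)) : G) = x * y * x⁻¹ * y⁻¹ := by
        simp [hx'def]
      rw [← e]
      exact h1
    exact hxy (hcomm_of y (hρ (by rw [h2, map_one])))
  · have hdm : d = m := by omega
    rw [sup_comm] at hd3
    have hd4 := hd3.trans (Helper9.card_sup_dvd (Subgroup.zpowers x')
      (Q.subgroupOf (Subgroup.normalizer (Q : Set G))))
    obtain ⟨j, hj⟩ := IsPGroup.iff_card.1 hQq
    rw [Nat.card_zpowers, hx', hcardQ', hj, hdm] at hd4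
    have hcop1 : Nat.Coprime m p := by
      rw [← hnp']
      simp
    have hcop2 : Nat.Coprime m (p ^ (a + 1)) := Nat.Coprime.pow_right _ hcop1
    have hd5 : m ∣ q ^ j := Nat.Coprime.dvd_of_dvd_mul_left hcop2 hd4
    obtain ⟨i, _, hi⟩ := (Nat.dvd_prime_pow hq).1 hd5
    rcases Nat.eq_zero_or_pos i with h0 | h0
    · exact ⟨0, by rw [hi, h0, pow_zero, pow_zero]⟩
    · have hq2 : q = 2 := by
        have hp2 : p ≠ 2 := by
          intro h2
          have hm1 : m = 1 := by omega
          have h3 : q ^ i = 1 := by rw [← hi, hm1]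
          have hq1 : q = 1 := by
            rcases Nat.pow_eq_one.1 h3 with h | h
            · exact h
            · omega
          exact hq.one_lt.ne' hq1
        have hodd : Odd p := hp.out.odd_of_ne_two hp2
        have heven : 2 ∣ m := by
          obtain ⟨t, ht⟩ := hodd
          omega
        rw [hi] at heven
        have h4 := Nat.Prime.dvd_of_dvd_pow Nat.prime_two heven
        exact ((Nat.prime_dvd_prime_iff_eq Nat.prime_two hq).1 h4).symm
      exact ⟨i, by rw [hi, hq2]⟩

end Cfsg.Agent.Helper21
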