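import Mathlib
import Cfsg.Prelude.Def_KGroupFacts
import Cfsg.Agent.Helper21.CentralImage
import Cfsg.Agent.Helper21.UniversalExists

/-!
Projective representations and Schur covers: lifting of homomorphisms `Q → PGL n ℂ` along a
Schur cover, and the converse via monomial representations.
-/

set_option autoImplicit false

namespace Cfsg.Agent.Helper21

universe u v w

open scoped IsMulCommutative commutatorElement

/-- Transport of a stem extension along an isomorphism of the source. -/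
theorem stem_comp_mulEquiv {X X' Q : Type*} [Group X] [Group X'] [Group Q] (φ : X →* Q)
    (hφ : Cfsg.IsStemExtension φ) (e : X' ≃* X) :
    Cfsg.IsStemExtension (φ.comp e.toMonoidHom) := by
  refine ⟨hφ.1.comp e.surjective, ?_, ?_⟩
  · intro x hx
    have h1 : e x ∈ Subgroup.center X := hφ.2.1 (MonoidHom.mem_ker.2 (MonoidHom.mem_ker.1 hx))
    rw [Subgroup.mem_center_iff] at h1 ⊢
    intro g
    apply e.injective
    rw [map_mul, map_mul]
    exact h1 (e g)
  · intro x hx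
    have h1 : e x ∈ commutator X := hφ.2.2 (MonoidHom.mem_ker.2 (MonoidHom.mem_ker.1 hx))
    have h2 := map_mem_commutator e.symm.toMonoidHom h1
    simpa using h2

/-- A character of a subgroup `C` which is trivial on `C ⊓ [E, E]` extends to `E`. -/
theorem exists_hom_extend {E : Type*} [Group E] [Finite E] (C : Subgroup E) (θ : ↥C →* ℂˣ)
    (hθ : ∀ k : ↥C, (k : E) ∈ commutator E → θ k = 1) :
    ∃ ψ : E →* ℂˣ, ∀ k : ↥C, ψ (k : E) = θ k := by
  classical
  haveI : NeZero (Monoid.exponent (Abelianization E)) := ⟨Monoid.exponent_ne_zero_of_finite⟩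
  let ab : E →* Abelianization E := Abelianization.of
  let q : ↥C →* ↥(C.map ab) := ab.subgroupMap C
  have hq : Function.Surjective q := ab.subgroupMap_surjective C
  have hker : q.ker ≤ θ.ker := by
    intro k hk
    rw [MonoidHom.mem_ker] at hk ⊢
    have h1 : ab (k : E) = 1 := congrArg Subtype.val hk
    have h2 : (k : E) ∈ commutator E := by
      rw [← Abelianization.ker_of]; exact MonoidHom.mem_ker.2 h1
    exact hθ k h2
  let gbar : ↥(C.map ab) →* ℂˣ := q.liftOfSurjective hq ⟨θ, hker⟩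
  have hgbar : ∀ k : ↥C, gbar (q k) = θ k := fun k =>
    MonoidHom.liftOfRightInverse_comp_apply _ _ _ ⟨θ, hker⟩ k
  obtain ⟨g, hg⟩ := (MonoidHom.domRestrict_surjective (G := Abelianization E) ℂ (C.map ab)) gbar
  refine ⟨g.comp ab, fun k => ?_⟩
  have h1 : gbar (q k) = g (ab (k : E)) := by rw [← hg]; rfl
  rw [← hgbar k, h1]; rfl

/-- Two homomorphisms into `G` that agree modulo the centre agree on the commutator subgroup. -/
theorem eq_on_commutator_of_mk_eq {P G : Type*} [Group P] [Group G] (f₁ f₂ : P →* G)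
    (h : ∀ t : P, (QuotientGroup.mk' (Subgroup.center G)) (f₁ t)
      = (QuotientGroup.mk' (Subgroup.center G)) (f₂ t))
    {t : P} (ht : t ∈ commutator P) : f₁ t = f₂ t := by
  have hle : commutator P ≤ f₁.eqLocus f₂ := by
    rw [commutator_eq_closure, Subgroup.closure_le]
    rintro _ ⟨a, b, rfl⟩
    show f₁ ⁅a, b⁆ = f₂ ⁅a, b⁆
    rw [commutatorElement_def]
    simp only [map_mul, map_inv]
    exact commutator_eq_of_map_eq (QuotientGroup.mk' (Subgroup.center G))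
      (le_of_eq (QuotientGroup.ker_mk' _)) _ _ _ _ (h a) (h b)
  exact hle ht

theorem scalar_injective_fin (n : ℕ) [NeZero n] :
    Function.Injective (Matrix.GeneralLinearGroup.scalar (Fin n) : ℂˣ → GL (Fin n) ℂ) := by
  intro a b hab
  have h1 : Matrix.scalar (Fin n) (a : ℂ) = Matrix.scalar (Fin n) (b : ℂ) :=
    congrArg Units.val hab
  exact Units.ext (Matrix.scalar_inj.1 h1)

/-- A monomial representation in which a central subgroup acts by a given character. -/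
theorem exists_monomial_rep {Δ : Type*} {Q : Type*} [Group Δ] [Group Q] [Finite Q] (τ : Δ →* Q)
    (hτ : Function.Surjective τ) (hc : τ.ker ≤ Subgroup.center Δ)
    (χ : ↥(Subgroup.center Δ) →* ℂˣ) :
    ∃ (n : ℕ) (_ : 0 < n) (R : Δ →* GL (Fin n) ℂ),
      ∀ (z : Δ) (hz : z ∈ τ.ker),
        R z = Matrix.GeneralLinearGroup.scalar (Fin n) (χ ⟨z, hc hz⟩) := by
  classical
  obtain ⟨n, hndef⟩ : ∃ n : ℕ, n = Nat.card Q := ⟨_, rfl⟩
  have hn : 0 < n := by rw [hndef]; exact Nat.card_pos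
  have e : Q ≃ Fin n := by rw [hndef]; exact Finite.equivFin Q
  choose s' hs' using hτ
  let s : Fin n → Δ := fun i => s' (e.symm i)
  have hs : ∀ i, τ (s i) = e.symm i := fun i => hs' _
  let act : Δ → Fin n → Fin n := fun δ i => e (e.symm i * τ δ)
  have hact1 : ∀ i, act 1 i = i := by
    intro i
    show e (e.symm i * τ 1) = i
    rw [map_one, mul_one, Equiv.apply_symm_apply]
  have hactmul : ∀ δ δ' i, act (δ * δ') i = act δ' (act δ i) := by
    intro δ δ' i
    show e (e.symm i * τ (δ * δ')) = e (e.symm (e (e.symm i * τ δ)) * τ δ')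
    rw [Equiv.symm_apply_apply, map_mul τ, mul_assoc]
  let k : Fin n → Δ → Δ := fun i δ => s i * δ * (s (act δ i))⁻¹
  have hk : ∀ i δ, k i δ ∈ τ.ker := by
    intro i δ
    rw [MonoidHom.mem_ker]
    show τ (s i * δ * (s (act δ i))⁻¹) = 1
    rw [map_mul, map_mul, map_inv, hs, hs]
    show e.symm i * τ δ * (e.symm (e (e.symm i * τ δ)))⁻¹ = 1
    rw [Equiv.symm_apply_apply, mul_inv_cancel]
  let kz : Fin n → Δ → ↥(Subgroup.center Δ) := fun i δ => ⟨k i δ, hc (hk i δ)⟩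
  have hkzmul : ∀ i δ δ', kz i (δ * δ') = kz i δ * kz (act δ i) δ' := by
    intro i δ δ'
    apply Subtype.ext
    show s i * (δ * δ') * (s (act (δ * δ') i))⁻¹
      = (s i * δ * (s (act δ i))⁻¹) * (s (act δ i) * δ' * (s (act δ' (act δ i)))⁻¹)
    rw [hactmul]; group
  have hkz1 : ∀ i, kz i 1 = 1 := by
    intro i
    apply Subtype.ext
    show s i * 1 * (s (act 1 i))⁻¹ = 1
    rw [hact1, mul_one, mul_inv_cancel]
  let M : Δ → Matrix (Fin n) (Fin n) ℂ := fun δ =>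
    Matrix.of fun i j => if j = act δ i then ((χ (kz i δ) : ℂˣ) : ℂ) else 0
  have hMapp : ∀ δ i j, M δ i j = if j = act δ i then ((χ (kz i δ) : ℂˣ) : ℂ) else 0 :=
    fun _ _ _ => rfl
  have hM1 : M 1 = 1 := by
    ext i j
    rw [hMapp, hact1, hkz1, map_one, Units.val_one, Matrix.one_apply]
    by_cases h : i = j
    · rw [if_pos h, if_pos h.symm]
    · rw [if_neg h, if_neg (fun h' => h h'.symm)]
  have hMmul : ∀ δ δ', M (δ * δ') = M δ * M δ' := by
    intro δ δ'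
    ext i l
    rw [Matrix.mul_apply, Finset.sum_eq_single (act δ i)]
    · rw [hMapp, hMapp, hMapp, if_pos (rfl : act δ i = act δ i), hactmul, hkzmul, map_mul,
        Units.val_mul]
      by_cases h : l = act δ' (act δ i)
      · rw [if_pos h, if_pos h]
      · rw [if_neg h, if_neg h, mul_zero]
    · intro j _ hj
      rw [hMapp, if_neg hj, zero_mul]
    · intro h; exact absurd (Finset.mem_univ _) h
  let R₀ : Δ →* Matrix (Fin n) (Fin n) ℂ :=
    { toFun := M, map_one' := hM1, map_mul' := hMmul }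
  refine ⟨n, hn, R₀.toHomUnits, ?_⟩
  intro z hz
  apply Units.ext
  show M z = Matrix.scalar (Fin n) ((χ ⟨z, hc hz⟩ : ℂˣ) : ℂ)
  have hactz : ∀ i, act z i = i := by
    intro i
    show e (e.symm i * τ z) = i
    rw [MonoidHom.mem_ker.1 hz, mul_one, Equiv.apply_symm_apply]
  have hkzz : ∀ i, kz i z = ⟨z, hc hz⟩ := by
    intro i
    apply Subtype.ext
    show s i * z * (s (act z i))⁻¹ = z
    rw [hactz, Subgroup.mem_center_iff.1 (hc hz) (s i), mul_inv_cancel_right]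
  ext i j
  rw [hMapp, hactz, hkzz, Matrix.scalar_apply, Matrix.diagonal_apply]
  by_cases h : i = j
  · rw [if_pos h, if_pos h.symm]
  · rw [if_neg h, if_neg (fun h' => h h'.symm)]

/-- If projective representations of `Q` lift along `σ`, then in any commutative square over a
finite central extension `τ`, elements of `ker p₁ ⊓ [P, P]` die under `p₂`. -/
theorem snd_eq_one_of_lift {Q : Type*} {Γ : Type*} {Δ : Type*} {P : Type*} [Group Q] [Finite Q]
    [Group Γ] [Group Δ] [Finite Δ] [Group P]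
    (σ : Γ →* Q) (τ : Δ →* Q) (hτ : Function.Surjective τ) (hτc : τ.ker ≤ Subgroup.center Δ)
    (hlift : ∀ (n : ℕ) (γ : Q →* (GL (Fin n) ℂ ⧸ Subgroup.center (GL (Fin n) ℂ))),
      ∃ ρ : Γ →* GL (Fin n) ℂ,
        (QuotientGroup.mk' (Subgroup.center (GL (Fin n) ℂ))).comp ρ = γ.comp σ)
    (p₁ : P →* Γ) (p₂ : P →* Δ) (hsq : ∀ t : P, σ (p₁ t) = τ (p₂ t))
    {t : P} (ht1 : p₁ t = 1) (ht2 : t ∈ commutator P) : p₂ t = 1 := by
  classical
  by_contra hne
  have hkK : p₂ t ∈ τ.ker := by rw [MonoidHom.mem_ker, ← hsq, ht1, map_one]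
  haveI : NeZero (Monoid.exponent ↥(Subgroup.center Δ)) := ⟨Monoid.exponent_ne_zero_of_finite⟩
  obtain ⟨χ, hχ⟩ := CommGroup.exists_apply_ne_one_of_hasEnoughRootsOfUnity
    ↥(Subgroup.center Δ) ℂ (a := ⟨p₂ t, hτc hkK⟩) (fun h => hne (congrArg Subtype.val h))
  obtain ⟨n, hn, R, hR⟩ := exists_monomial_rep τ hτ hτc χ
  haveI : NeZero n := ⟨hn.ne'⟩
  let mk := QuotientGroup.mk' (Subgroup.center (GL (Fin n) ℂ))
  have hkerR : τ.ker ≤ (mk.comp R).ker := by
    intro z hz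
    rw [MonoidHom.mem_ker]
    show mk (R z) = 1
    rw [hR z hz, ← MonoidHom.mem_ker, QuotientGroup.ker_mk',
      Matrix.GeneralLinearGroup.center_eq_range_scalar]
    exact ⟨_, rfl⟩
  let γ : Q →* (GL (Fin n) ℂ ⧸ Subgroup.center (GL (Fin n) ℂ)) :=
    τ.liftOfSurjective hτ ⟨mk.comp R, hkerR⟩
  have hγ : ∀ δ : Δ, γ (τ δ) = mk (R δ) := fun δ =>
    MonoidHom.liftOfRightInverse_comp_apply _ _ _ ⟨mk.comp R, hkerR⟩ δ
  obtain ⟨ρ, hρ⟩ := hlift n γ
  have hρ' : ∀ x : Γ, mk (ρ x) = γ (σ x) := fun x => DFunLike.congr_fun hρ x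
  have hagree : ∀ s : P, mk ((ρ.comp p₁) s) = mk ((R.comp p₂) s) := by
    intro s
    show mk (ρ (p₁ s)) = mk (R (p₂ s))
    rw [hρ', hsq, hγ]
  have h1 : ρ (p₁ t) = R (p₂ t) :=
    eq_on_commutator_of_mk_eq (ρ.comp p₁) (R.comp p₂) hagree ht2
  have h2 : R (p₂ t) = 1 := by rw [← h1, ht1, map_one]
  rw [hR _ hkK] at h2
  exact hχ (scalar_injective_fin n (h2.trans (map_one _).symm))

set_option maxHeartbeats 1600000 in
/-- Lifting projective representations along a Schur cover (source in the universe of `Q`). -/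
theorem exists_lift_projective_aux {Q : Type u} [Group Q] {A : Type v} [CommGroup A]
    (hA : Cfsg.HasSchurMultiplier Q A) {Γ : Type u} [Group Γ] [Finite Γ] (σ : Γ →* Q)
    (hσ : Cfsg.IsStemExtension σ) (hk : Nat.card A ≤ Nat.card σ.ker) (n : ℕ)
    (γ : Q →* (GL (Fin n) ℂ ⧸ Subgroup.center (GL (Fin n) ℂ))) :
    ∃ ρ : Γ →* GL (Fin n) ℂ,
      (QuotientGroup.mk' (Subgroup.center (GL (Fin n) ℂ))).comp ρ = γ.comp σ := by
  classical
  rcases Nat.eq_zero_or_pos n with hn0 | hn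
  · subst hn0
    refine ⟨1, MonoidHom.ext fun x => ?_⟩
    obtain ⟨g, hg⟩ := QuotientGroup.mk'_surjective (Subgroup.center (GL (Fin 0) ℂ)) (γ (σ x))
    show (QuotientGroup.mk' (Subgroup.center (GL (Fin 0) ℂ))) (1 : GL (Fin 0) ℂ) = γ (σ x)
    rw [← hg]
    congr 1
    exact Units.ext (Subsingleton.elim _ _)
  haveI : NeZero n := ⟨hn.ne'⟩
  let mk := QuotientGroup.mk' (Subgroup.center (GL (Fin n) ℂ))
  let dt : GL (Fin n) ℂ →* ℂˣ := Matrix.GeneralLinearGroup.det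
  let sc : ℂˣ →* GL (Fin n) ℂ := Matrix.GeneralLinearGroup.scalar (Fin n)
  have hscal : ∀ c : ℂˣ, mk (sc c) = 1 := by
    intro c
    rw [← MonoidHom.mem_ker, QuotientGroup.ker_mk',
      Matrix.GeneralLinearGroup.center_eq_range_scalar]
    exact ⟨c, rfl⟩
  have hcenter : ∀ g : GL (Fin n) ℂ, mk g = 1 → ∃ c : ℂˣ, sc c = g := by
    intro g hg
    have h1 : g ∈ Subgroup.center (GL (Fin n) ℂ) := by
      rw [← QuotientGroup.ker_mk' (Subgroup.center (GL (Fin n) ℂ))]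
      exact MonoidHom.mem_ker.2 hg
    rw [Matrix.GeneralLinearGroup.center_eq_range_scalar] at h1
    exact h1
  have hinj : Function.Injective sc := scalar_injective_fin n
  have hsccomm : ∀ (c : ℂˣ) (g : GL (Fin n) ℂ), sc c * g = g * sc c :=
    fun c g => Matrix.GeneralLinearGroup.scalar_commute c g
  have hscdet : ∀ c : ℂˣ, dt (sc c) = c ^ n := by
    intro c
    show Matrix.GeneralLinearGroup.det (Matrix.GeneralLinearGroup.scalar (Fin n) c) = c ^ n
    rw [Matrix.GeneralLinearGroup.det_scalar, Fintype.card_fin]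
  -- the group E₁
  let E₁ : Subgroup (Γ × GL (Fin n) ℂ) :=
    (((γ.comp σ).comp (MonoidHom.fst Γ (GL (Fin n) ℂ))).eqLocus
        (mk.comp (MonoidHom.snd Γ (GL (Fin n) ℂ))))
      ⊓ (dt.comp (MonoidHom.snd Γ (GL (Fin n) ℂ))).ker
  let ε : ↥E₁ →* Γ := (MonoidHom.fst Γ (GL (Fin n) ℂ)).comp E₁.subtype
  let pg : ↥E₁ →* GL (Fin n) ℂ := (MonoidHom.snd Γ (GL (Fin n) ℂ)).comp E₁.subtype
  have hmem1 : ∀ y : ↥E₁, γ (σ (ε y)) = mk (pg y) := fun y => (Subgroup.mem_inf.1 y.2).1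
  have hmem2 : ∀ y : ↥E₁, dt (pg y) = 1 := fun y => (Subgroup.mem_inf.1 y.2).2
  have hlift : ∀ x : Γ, ∃ g : GL (Fin n) ℂ, γ (σ x) = mk g ∧ dt g = 1 := by
    intro x
    obtain ⟨g₀, hg₀⟩ := QuotientGroup.mk'_surjective (Subgroup.center (GL (Fin n) ℂ)) (γ (σ x))
    obtain ⟨c, hc⟩ := exists_units_pow_eq n hn (dt g₀)⁻¹
    refine ⟨sc c * g₀, ?_, ?_⟩
    · rw [map_mul, hscal, one_mul]; exact hg₀.symm
    · rw [map_mul, hscdet, hc, inv_mul_cancel]
  choose gl hgl1 hgl2 using hlift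
  have hε : Function.Surjective ε := fun x =>
    ⟨⟨(x, gl x), Subgroup.mem_inf.2 ⟨hgl1 x, hgl2 x⟩⟩, rfl⟩
  -- finiteness
  have hfib : ∀ y : ↥E₁, ∃ c : ℂˣ, sc c = pg y * (gl (ε y))⁻¹ := by
    intro y
    apply hcenter
    rw [map_mul, map_inv, ← hgl1, ← hmem1, mul_inv_cancel]
  choose cf hcf using hfib
  haveI : Finite ↥E₁ := by
    have hcfn : ∀ y : ↥E₁, cf y ∈ rootsOfUnity n ℂ := by
      intro y
      rw [mem_rootsOfUnity]
      have h1 := congrArg dt (hcf y)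
      rw [map_mul, map_inv, hgl2, hmem2, inv_one, mul_one, hscdet] at h1
      exact h1
    let f : ↥E₁ → Γ × rootsOfUnity n ℂ := fun y => (ε y, ⟨cf y, hcfn y⟩)
    have hf : Function.Injective f := by
      intro y z hyz
      have h1 : ε y = ε z := congrArg (fun t : Γ × rootsOfUnity n ℂ => t.1) hyz
      have h2 : cf y = cf z := congrArg (fun t : Γ × rootsOfUnity n ℂ => (t.2 : ℂˣ)) hyz
      have h3 := hcf y
      rw [h2, hcf z, h1] at h3
      exact Subtype.ext (Prod.ext h1 (mul_right_cancel h3).symm)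
    exact Finite.of_injective f hf
  have hcen : (σ.comp ε).ker ≤ Subgroup.center ↥E₁ := by
    intro y hy
    have h1 : σ (ε y) = 1 := MonoidHom.mem_ker.1 hy
    have h3 : ε y ∈ Subgroup.center Γ := hσ.2.1 (MonoidHom.mem_ker.2 h1)
    have h4 : pg y ∈ Subgroup.center (GL (Fin n) ℂ) := by
      rw [← QuotientGroup.ker_mk' (Subgroup.center (GL (Fin n) ℂ)), MonoidHom.mem_ker]
      show mk (pg y) = 1
      rw [← hmem1, h1, map_one]
    rw [Subgroup.mem_center_iff]
    intro g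
    apply Subtype.ext
    apply Prod.ext
    · exact Subgroup.mem_center_iff.1 h3 (ε g)
    · exact Subgroup.mem_center_iff.1 h4 (pg g)
  have hL := ker_inf_commutator_eq_bot hA σ hσ hk ε hε hcen
  -- the character on ker ε
  have hsc : ∀ y : ↥ε.ker, ∃ c : ℂˣ, sc c = pg (y : ↥E₁) := by
    intro y
    apply hcenter
    have h1 : ε (y : ↥E₁) = 1 := MonoidHom.mem_ker.1 y.2
    rw [← hmem1, h1, map_one, map_one]
  choose cθ hcθ using hsc
  let θ : ↥ε.ker →* ℂˣ :=
    { toFun := cθ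
      map_one' := hinj (by rw [hcθ, map_one]; rfl)
      map_mul' := fun a b => hinj (by rw [hcθ, map_mul, hcθ, hcθ]; rfl) }
  have hθ : ∀ k : ↥ε.ker, (k : ↥E₁) ∈ commutator ↥E₁ → θ k = 1 := by
    intro k hk'
    have h1 : (k : ↥E₁) ∈ (⊥ : Subgroup ↥E₁) := by
      rw [← hL]; exact Subgroup.mem_inf.2 ⟨k.2, hk'⟩
    have h2 : k = 1 := Subtype.ext (Subgroup.mem_bot.1 h1)
    rw [h2, map_one]
  obtain ⟨ψ, hψ⟩ := exists_hom_extend ε.ker θ hθ
  -- the representation
  let ρ' : ↥E₁ →* GL (Fin n) ℂ :=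
    { toFun := fun y => sc (ψ y)⁻¹ * pg y
      map_one' := by
        show sc (ψ 1)⁻¹ * pg 1 = 1
        rw [map_one, inv_one, map_one, map_one, one_mul]
      map_mul' := fun y z => by
        show sc (ψ (y * z))⁻¹ * pg (y * z) = sc (ψ y)⁻¹ * pg y * (sc (ψ z)⁻¹ * pg z)
        rw [map_mul, mul_inv, map_mul, map_mul]
        calc sc (ψ y)⁻¹ * sc (ψ z)⁻¹ * (pg y * pg z)
            = sc (ψ y)⁻¹ * (sc (ψ z)⁻¹ * pg y) * pg z := by simp only [mul_assoc]
          _ = sc (ψ y)⁻¹ * (pg y * sc (ψ z)⁻¹) * pg z := by rw [hsccomm (ψ z)⁻¹ (pg y)]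
          _ = sc (ψ y)⁻¹ * pg y * (sc (ψ z)⁻¹ * pg z) := by simp only [mul_assoc] }
  have hkerρ' : ε.ker ≤ ρ'.ker := by
    intro y hy
    rw [MonoidHom.mem_ker]
    show sc (ψ y)⁻¹ * pg y = 1
    have h1 : ψ y = θ ⟨y, hy⟩ := hψ ⟨y, hy⟩
    have h2 : sc (θ ⟨y, hy⟩) = pg y := hcθ ⟨y, hy⟩
    rw [h1, map_inv, h2, inv_mul_cancel]
  let ρ : Γ →* GL (Fin n) ℂ := ε.liftOfSurjective hε ⟨ρ', hkerρ'⟩
  have hρ : ∀ y : ↥E₁, ρ (ε y) = ρ' y := fun y =>
    MonoidHom.liftOfRightInverse_comp_apply _ _ _ ⟨ρ', hkerρ'⟩ y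
  refine ⟨ρ, MonoidHom.ext fun x => ?_⟩
  obtain ⟨y, rfl⟩ := hε x
  show mk (ρ (ε y)) = γ (σ (ε y))
  rw [hρ, hmem1]
  show mk (sc (ψ y)⁻¹ * pg y) = mk (pg y)
  rw [map_mul, hscal, one_mul]

/-- Lifting projective representations along a Schur cover. -/
theorem exists_lift_projective {Q : Type u} [Group Q] {A : Type v} [CommGroup A]
    (hA : Cfsg.HasSchurMultiplier Q A) {Γ : Type w} [Group Γ] [Finite Γ] (σ : Γ →* Q)
    (hσ : Cfsg.IsStemExtension σ) (hk : Nat.card A ≤ Nat.card σ.ker) (n : ℕ)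
    (γ : Q →* (GL (Fin n) ℂ ⧸ Subgroup.center (GL (Fin n) ℂ))) :
    ∃ ρ : Γ →* GL (Fin n) ℂ,
      (QuotientGroup.mk' (Subgroup.center (GL (Fin n) ℂ))).comp ρ = γ.comp σ := by
  obtain ⟨Γ', _, _, ⟨e⟩⟩ := exists_mulEquiv_univ.{u, w} Γ
  have hσ' := stem_comp_mulEquiv σ hσ e
  have hk' : Nat.card A ≤ Nat.card (σ.comp e.toMonoidHom).ker := by
    have h2 : Nat.card (σ.comp e.toMonoidHom).ker = Nat.card σ.ker := by
      apply Nat.card_congr
      exact Equiv.subtypeEquiv e.toEquiv (fun x => by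
        rw [MonoidHom.mem_ker, MonoidHom.mem_ker]; rfl)
    rw [h2]; exact hk
  obtain ⟨ρ', hρ'⟩ := exists_lift_projective_aux hA (σ.comp e.toMonoidHom) hσ' hk' n γ
  refine ⟨ρ'.comp e.symm.toMonoidHom, MonoidHom.ext fun x => ?_⟩
  have h1 : (QuotientGroup.mk' (Subgroup.center (GL (Fin n) ℂ))) (ρ' (e.symm x))
      = γ (σ (e (e.symm x))) := DFunLike.congr_fun hρ' (e.symm x)
  show (QuotientGroup.mk' (Subgroup.center (GL (Fin n) ℂ))) (ρ' (e.symm x)) = γ (σ x)
  rw [h1, MulEquiv.apply_symm_apply]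

end Cfsg.Agent.Helper21
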