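import Mathlib
import Cfsg.Prelude.Def_KGroupFacts

set_option autoImplicit false

namespace Cfsg.Agent.Helper21

open scoped commutatorElement

/-- The reduction map `ZMod (2 n) → ZMod n`. -/
noncomputable def redHom (n : ℕ) : ZMod (2 * n) →+* ZMod n :=
  ZMod.castHom (Dvd.intro_left 2 rfl) (ZMod n)

theorem redHom_natCast (n : ℕ) (k : ℕ) : redHom n (k : ZMod (2 * n)) = (k : ZMod n) :=
  map_natCast (redHom n) k

theorem redHom_n (n : ℕ) : redHom n (n : ZMod (2 * n)) = 0 := by
  rw [redHom_natCast, ZMod.natCast_self]

/-- The canonical map from the dicyclic group of order `4 n` onto the dihedral group of order `2 n`. -/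
noncomputable def quatToDihedral (n : ℕ) : QuaternionGroup n →* DihedralGroup n where
  toFun
    | QuaternionGroup.a i => DihedralGroup.r (redHom n i)
    | QuaternionGroup.xa i => DihedralGroup.sr (redHom n i)
  map_one' := by
    show DihedralGroup.r (redHom n 0) = 1
    rw [map_zero]
    rfl
  map_mul' := by
    rintro (i | i) (j | j)
    · show DihedralGroup.r (redHom n (i + j)) = DihedralGroup.r (redHom n i) * DihedralGroup.r (redHom n j)
      rw [map_add]; rfl
    · show DihedralGroup.sr (redHom n (j - i)) = DihedralGroup.r (redHom n i) * DihedralGroup.sr (redHom n j)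
      rw [map_sub]; rfl
    · show DihedralGroup.sr (redHom n (i + j)) = DihedralGroup.sr (redHom n i) * DihedralGroup.r (redHom n j)
      rw [map_add]; rfl
    · show DihedralGroup.r (redHom n ((n : ZMod (2 * n)) + j - i))
        = DihedralGroup.sr (redHom n i) * DihedralGroup.sr (redHom n j)
      rw [map_sub, map_add, redHom_n, zero_add]; rfl

theorem quatToDihedral_a (n : ℕ) (i : ZMod (2 * n)) :
    quatToDihedral n (QuaternionGroup.a i) = DihedralGroup.r (redHom n i) := rfl

theorem quatToDihedral_xa (n : ℕ) (i : ZMod (2 * n)) :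
    quatToDihedral n (QuaternionGroup.xa i) = DihedralGroup.sr (redHom n i) := rfl

theorem redHom_surjective (n : ℕ) [NeZero n] : Function.Surjective (redHom n) := by
  intro y
  refine ⟨(y.val : ZMod (2 * n)), ?_⟩
  rw [redHom_natCast, ZMod.natCast_zmod_val]

theorem quatToDihedral_surjective (n : ℕ) [NeZero n] : Function.Surjective (quatToDihedral n) := by
  rintro (y | y)
  · obtain ⟨i, hi⟩ := redHom_surjective n y
    exact ⟨QuaternionGroup.a i, by rw [quatToDihedral_a, hi]⟩
  · obtain ⟨i, hi⟩ := redHom_surjective n y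
    exact ⟨QuaternionGroup.xa i, by rw [quatToDihedral_xa, hi]⟩

theorem natCast_add_self_two_mul (n : ℕ) : ((n : ZMod (2 * n)) + (n : ZMod (2 * n))) = 0 := by
  have : ((2 * n : ℕ) : ZMod (2 * n)) = 0 := ZMod.natCast_self (2 * n)
  rw [← this]
  push_cast
  ring

theorem redHom_eq_zero_iff (n : ℕ) [NeZero n] (i : ZMod (2 * n)) :
    redHom n i = 0 ↔ i = 0 ∨ i = (n : ZMod (2 * n)) := by
  have h2n : NeZero (2 * n) := ⟨by have := NeZero.ne n; omega⟩
  constructor
  · intro h
    have h1 : redHom n ((i.val : ℕ) : ZMod (2 * n)) = 0 := by rw [ZMod.natCast_zmod_val]; exact h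
    rw [redHom_natCast, ZMod.natCast_eq_zero_iff] at h1
    have h9 : i.val < 2 * n := ZMod.val_lt i
    obtain ⟨c, hc⟩ := h1
    have hc' : c < 2 := by
      by_contra hge
      have : n * 2 ≤ n * c := Nat.mul_le_mul_left _ (by omega)
      omega
    interval_cases c
    · left
      have : i.val = 0 := by omega
      exact (ZMod.val_eq_zero i).mp this
    · right
      have hv : i.val = n := by omega
      have h10 := ZMod.natCast_zmod_val i
      rw [hv] at h10
      exact h10.symm
  · rintro (rfl | rfl)
    · exact map_zero _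
    · exact redHom_n n

theorem mem_ker_quatToDihedral (n : ℕ) [NeZero n] (x : QuaternionGroup n) :
    x ∈ (quatToDihedral n).ker ↔ x = 1 ∨ x = QuaternionGroup.a (n : ZMod (2 * n)) := by
  rw [MonoidHom.mem_ker]
  rcases x with i | i
  · rw [quatToDihedral_a, DihedralGroup.one_def, DihedralGroup.r.injEq, redHom_eq_zero_iff,
      QuaternionGroup.one_def, QuaternionGroup.a.injEq, QuaternionGroup.a.injEq]
  · rw [quatToDihedral_xa, DihedralGroup.one_def, QuaternionGroup.one_def]
    constructor
    · intro h; cases h
    · rintro (h | h) <;> cases h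

theorem natCast_ne_zero_two_mul (n : ℕ) [NeZero n] : (n : ZMod (2 * n)) ≠ 0 := by
  intro h
  rw [ZMod.natCast_eq_zero_iff] at h
  have := Nat.le_of_dvd (Nat.pos_of_ne_zero (NeZero.ne n)) h
  have := NeZero.ne n
  omega

theorem card_ker_quatToDihedral (n : ℕ) [NeZero n] : Nat.card (quatToDihedral n).ker = 2 := by
  rw [Nat.card_eq_two_iff]
  refine ⟨⟨1, (mem_ker_quatToDihedral n 1).mpr (Or.inl rfl)⟩,
    ⟨QuaternionGroup.a (n : ZMod (2 * n)), (mem_ker_quatToDihedral n _).mpr (Or.inr rfl)⟩, ?_, ?_⟩
  · intro h
    have h1 := congrArg Subtype.val h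
    simp only at h1
    rw [QuaternionGroup.one_def, QuaternionGroup.a.injEq] at h1
    exact natCast_ne_zero_two_mul n h1.symm
  · ext x
    simp only [Set.mem_insert_iff, Set.mem_singleton_iff, Set.mem_univ, iff_true]
    rcases (mem_ker_quatToDihedral n x.1).mp x.2 with h | h
    · left; exact Subtype.ext h
    · right; exact Subtype.ext h

theorem quatToDihedral_isStem (n : ℕ) [NeZero n] (hn : Even n) :
    Cfsg.IsStemExtension (quatToDihedral n) := by
  refine ⟨quatToDihedral_surjective n, ?_, ?_⟩
  · intro x hx
    rcases (mem_ker_quatToDihedral n x).mp hx with rfl | rfl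
    · exact Subgroup.one_mem _
    · rw [Subgroup.mem_center_iff]
      rintro (j | j)
      · rw [QuaternionGroup.a_mul_a, QuaternionGroup.a_mul_a, add_comm]
      · rw [QuaternionGroup.xa_mul_a, QuaternionGroup.a_mul_xa]
        congr 1
        have := natCast_add_self_two_mul n
        linear_combination this
  · intro x hx
    rcases (mem_ker_quatToDihedral n x).mp hx with rfl | rfl
    · exact Subgroup.one_mem _
    · obtain ⟨m, hm⟩ := hn
      have h1 : ⁅(QuaternionGroup.a (m : ZMod (2 * n)) : QuaternionGroup n), QuaternionGroup.xa 0⁆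
          = QuaternionGroup.a (n : ZMod (2 * n)) := by
        have h2 : ⁅(QuaternionGroup.a (m : ZMod (2 * n)) : QuaternionGroup n), QuaternionGroup.xa 0⁆
            = QuaternionGroup.a ((n : ZMod (2 * n)) + ((n : ZMod (2 * n)) + 0)
                - ((0 : ZMod (2 * n)) - (m : ZMod (2 * n)) + -(m : ZMod (2 * n)))) := rfl
        rw [h2]
        congr 1
        have h3 := natCast_add_self_two_mul n
        have h4 : (n : ZMod (2 * n)) = (m : ZMod (2 * n)) + (m : ZMod (2 * n)) := by
          rw [hm]; push_cast; ring
        linear_combination h3 - h4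
      rw [← h1, commutator_def]
      exact Subgroup.commutator_mem_commutator (Subgroup.mem_top _) (Subgroup.mem_top _)

end Cfsg.Agent.Helper21
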