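import Mathlib
import Cfsg.Prelude.Def_KGroupFacts
import Cfsg.Agent.Helper21.CentralImage

/-!
Killing the kernel of a stem extension by transfer to a subgroup: if the commutator subgroup of
the preimage of a subgroup `U` meets the kernel trivially, then the kernel has exponent dividing
the index of `U`.
-/

set_option autoImplicit false

namespace Cfsg.Agent.Helper21

universe u v w

/-- Transfer: if the commutator subgroup of the preimage of `U` meets the kernel of a stem
extension trivially, the kernel is killed by the index of `U`. -/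
theorem stem_ker_pow_index {G : Type u} {Γ : Type v} [Group G] [Group Γ] [Finite Γ]
    (σ : Γ →* G) (hσ : Cfsg.IsStemExtension σ) (U : Subgroup G)
    (hV : ∀ z : ↥(U.comap σ), z ∈ commutator ↥(U.comap σ) → σ (z : Γ) = 1 → z = 1)
    (a : Γ) (ha : a ∈ σ.ker) : a ^ U.index = 1 := by
  classical
  have hidx : (U.comap σ).index = U.index := Subgroup.index_comap_of_surjective U hσ.1
  have key : ∀ (k : ℕ) (g₀ : Γ), g₀⁻¹ * a ^ k * g₀ ∈ U.comap σ → g₀⁻¹ * a ^ k * g₀ = a ^ k := by
    intro k g₀ _
    have hk := Subgroup.mem_center_iff.1 ((Subgroup.center Γ).pow_mem (hσ.2.1 ha) k) g₀⁻¹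
    rw [hk, inv_mul_cancel_right]
  have h1 := MonoidHom.transfer_eq_pow
    (Abelianization.of : ↥(U.comap σ) →* Abelianization ↥(U.comap σ)) a key
  have h2 : MonoidHom.transfer
      (Abelianization.of : ↥(U.comap σ) →* Abelianization ↥(U.comap σ)) a = 1 := by
    have hac : a ∈ commutator Γ := hσ.2.2 ha
    have h3 : (Abelianization.of a : Abelianization Γ) = 1 := by
      rw [← MonoidHom.mem_ker, Abelianization.ker_of]; exact hac
    have h4 : MonoidHom.transfer
        (Abelianization.of : ↥(U.comap σ) →* Abelianization ↥(U.comap σ)) a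
        = Abelianization.lift (MonoidHom.transfer
          (Abelianization.of : ↥(U.comap σ) →* Abelianization ↥(U.comap σ)))
          (Abelianization.of a) := rfl
    rw [h4, h3, map_one]
  rw [h2] at h1
  have h5 : (⟨a ^ (U.comap σ).index, MonoidHom.transfer_eq_pow_aux a key⟩ : ↥(U.comap σ)) ∈
      commutator ↥(U.comap σ) := by
    rw [← Abelianization.ker_of, MonoidHom.mem_ker]; exact h1.symm
  have h6 := hV _ h5 (by
    show σ (a ^ (U.comap σ).index) = 1
    rw [map_pow, MonoidHom.mem_ker.1 ha, one_pow])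
  have h7 : a ^ (U.comap σ).index = 1 := congrArg Subtype.val h6
  rw [← hidx]; exact h7

/-- If a subgroup `U` is isomorphic to a group with trivial Schur multiplier, then the kernel of
any finite stem extension is killed by the index of `U`. -/
theorem stem_ker_pow_index_of_schur_one {G : Type u} {Γ : Type v} [Group G] [Group Γ] [Finite Γ]
    (σ : Γ →* G) (hσ : Cfsg.IsStemExtension σ) (U : Subgroup G) {Q : Type w} [Group Q]
    (e : ↥U ≃* Q) (hQ : Cfsg.HasCyclicSchurMultiplier Q 1) (a : Γ) (ha : a ∈ σ.ker) :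
    a ^ U.index = 1 := by
  apply stem_ker_pow_index σ hσ U _ a ha
  intro z hz hz1
  let ν : ↥(U.comap σ) →* ↥U := σ.subgroupComap U
  have hν : Function.Surjective ν := by
    rintro ⟨u, hu⟩
    obtain ⟨x, rfl⟩ := hσ.1 u
    exact ⟨⟨x, hu⟩, rfl⟩
  let τ : ↥(U.comap σ) →* Q := e.toMonoidHom.comp ν
  have hτ : Function.Surjective τ := e.surjective.comp hν
  have hτker : ∀ y : ↥(U.comap σ), τ y = 1 ↔ σ (y : Γ) = 1 := by
    intro y
    constructor
    · intro h
      have h1 : ν y = 1 := e.injective (by rw [map_one]; exact h)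
      exact congrArg Subtype.val h1
    · intro h
      have h1 : ν y = 1 := Subtype.ext h
      show e (ν y) = 1
      rw [h1, map_one]
  have hcen : τ.ker ≤ Subgroup.center ↥(U.comap σ) := by
    intro y hy
    have h1 : (y : Γ) ∈ Subgroup.center Γ :=
      hσ.2.1 (MonoidHom.mem_ker.2 ((hτker y).1 (MonoidHom.mem_ker.1 hy)))
    rw [Subgroup.mem_center_iff]
    intro g
    exact Subtype.ext (Subgroup.mem_center_iff.1 h1 (g : Γ))
  obtain ⟨π, hπ⟩ := exists_hom_range_eq_ker_inf_commutator hQ τ hτ hcen
  have h2 : z ∈ π.range := by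
    rw [hπ]
    exact Subgroup.mem_inf.2 ⟨MonoidHom.mem_ker.2 ((hτker z).2 hz1), hz⟩
  obtain ⟨b, hb⟩ := h2
  have hb1 : b = 1 := Subsingleton.elim _ _
  rw [← hb, hb1, map_one]

end Cfsg.Agent.Helper21
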