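import Mathlib
import Cfsg.Prelude.Def_KGroupFacts
import Cfsg.Agent.Helper21.CentralExt

/-!
Bimultiplicative pairings, the tensor product of abelianizations, and a decomposition of the
commutator subgroup of a product of two subgroups with central mutual commutators.
-/

set_option autoImplicit false

namespace Cfsg.Agent.Helper21

universe u v w

open scoped IsMulCommutative commutatorElement TensorProduct

/-- The tensor product of the abelianizations of two finite groups is finite. -/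
theorem finite_tensor_abelianization (Q₁ : Type u) (Q₂ : Type v) [Group Q₁] [Group Q₂]
    [Finite Q₁] [Finite Q₂] :
    Finite (TensorProduct ℤ (Additive (Abelianization Q₁)) (Additive (Abelianization Q₂))) := by
  haveI : Module.Finite ℤ
      (TensorProduct ℤ (Additive (Abelianization Q₁)) (Additive (Abelianization Q₂))) :=
    Module.Finite.tensorProduct ℤ _ _
  apply Module.finite_of_fg_torsion
  intro x
  have hn : (Nat.card (Abelianization Q₁) : ℤ) ≠ 0 := by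
    exact_mod_cast Nat.card_pos.ne'
  refine ⟨⟨(Nat.card (Abelianization Q₁) : ℤ), mem_nonZeroDivisors_of_ne_zero hn⟩, ?_⟩
  show (Nat.card (Abelianization Q₁) : ℤ) • x = 0
  induction x using TensorProduct.induction_on with
  | zero => exact smul_zero _
  | tmul a b =>
    rw [TensorProduct.smul_tmul']
    have h0 : (Nat.card (Abelianization Q₁) : ℤ) • a = 0 := by
      rw [natCast_zsmul]
      exact card_nsmul_eq_zero'
    rw [h0, TensorProduct.zero_tmul]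
  | add x y hx hy => rw [smul_add, hx, hy, add_zero]

/-- A bimultiplicative map into a commutative group induces an additive map on the tensor
product of the abelianizations. -/
theorem exists_tensor_lift {Q₁ : Type u} {Q₂ : Type v} {Zc : Type w} [Group Q₁] [Group Q₂]
    [CommGroup Zc] (c : Q₁ → Q₂ → Zc) (hl : ∀ q q' r, c (q * q') r = c q r * c q' r)
    (hr : ∀ q r r', c q (r * r') = c q r * c q r') :
    ∃ L : TensorProduct ℤ (Additive (Abelianization Q₁)) (Additive (Abelianization Q₂)) →+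
        Additive Zc,
      ∀ q r, L ((Additive.ofMul (Abelianization.of q)) ⊗ₜ[ℤ]
        (Additive.ofMul (Abelianization.of r))) = Additive.ofMul (c q r) := by
  let g₂ : Q₁ → (Abelianization Q₂ →* Zc) := fun q =>
    Abelianization.lift (MonoidHom.mk' (c q) (hr q))
  have hg₂ : ∀ q r, g₂ q (Abelianization.of r) = c q r := fun q r => rfl
  have hg₂mul : ∀ q q', g₂ (q * q') = g₂ q * g₂ q' := by
    intro q q'
    apply Abelianization.hom_ext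
    ext r
    show g₂ (q * q') (Abelianization.of r)
      = g₂ q (Abelianization.of r) * g₂ q' (Abelianization.of r)
    rw [hg₂, hg₂, hg₂, hl]
  let G₁ : Abelianization Q₁ →* (Abelianization Q₂ →* Zc) :=
    Abelianization.lift (MonoidHom.mk' g₂ hg₂mul)
  have hG₁ : ∀ q r, G₁ (Abelianization.of q) (Abelianization.of r) = c q r := fun q r => rfl
  let f : Additive (Abelianization Q₁) →+ Additive (Abelianization Q₂) →+ Additive Zc :=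
    AddMonoidHom.mk' (fun a => AddMonoidHom.mk'
      (fun b => Additive.ofMul (G₁ (Additive.toMul a) (Additive.toMul b)))
      (fun b b' => by rw [toMul_add, map_mul, ofMul_mul]))
      (fun a a' => AddMonoidHom.ext (fun b => by
        show Additive.ofMul (G₁ (Additive.toMul (a + a')) (Additive.toMul b))
          = Additive.ofMul (G₁ (Additive.toMul a) (Additive.toMul b))
            + Additive.ofMul (G₁ (Additive.toMul a') (Additive.toMul b))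
        rw [toMul_add, map_mul, MonoidHom.mul_apply, ofMul_mul]))
  have hf : ∀ (n : ℤ) (a : Additive (Abelianization Q₁)) (b : Additive (Abelianization Q₂)),
      f (n • a) b = f a (n • b) := by
    intro n a b
    rw [map_zsmul, map_zsmul]
    rfl
  refine ⟨TensorProduct.liftAddHom f hf, fun q r => ?_⟩
  rw [TensorProduct.liftAddHom_tmul]
  show Additive.ofMul (G₁ (Abelianization.of q) (Abelianization.of r)) = Additive.ofMul (c q r)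
  rw [hG₁]

/-- `[ab, y] = [a, y][b, y]` when `[b, y]` is central. -/
theorem commutator_mul_left_of_central {G : Type*} [Group G] (a b y : G)
    (hb : b * y * b⁻¹ * y⁻¹ ∈ Subgroup.center G) :
    (a * b) * y * (a * b)⁻¹ * y⁻¹ = (a * y * a⁻¹ * y⁻¹) * (b * y * b⁻¹ * y⁻¹) := by
  have hc := Subgroup.mem_center_iff.1 hb
  calc (a * b) * y * (a * b)⁻¹ * y⁻¹
      = a * (b * y * b⁻¹ * y⁻¹) * y * a⁻¹ * y⁻¹ := by group
    _ = (b * y * b⁻¹ * y⁻¹) * a * y * a⁻¹ * y⁻¹ := by rw [hc a]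
    _ = (b * y * b⁻¹ * y⁻¹) * (a * y * a⁻¹ * y⁻¹) := by group
    _ = (a * y * a⁻¹ * y⁻¹) * (b * y * b⁻¹ * y⁻¹) := (hc _).symm

/-- `[x, ab] = [x, a][x, b]` when `[x, b]` is central. -/
theorem commutator_mul_right_of_central {G : Type*} [Group G] (x a b : G)
    (hb : x * b * x⁻¹ * b⁻¹ ∈ Subgroup.center G) :
    x * (a * b) * x⁻¹ * (a * b)⁻¹ = (x * a * x⁻¹ * a⁻¹) * (x * b * x⁻¹ * b⁻¹) := by
  have hc := Subgroup.mem_center_iff.1 hb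
  calc x * (a * b) * x⁻¹ * (a * b)⁻¹
      = x * a * x⁻¹ * ((x * b * x⁻¹ * b⁻¹) * a⁻¹) := by group
    _ = x * a * x⁻¹ * (a⁻¹ * (x * b * x⁻¹ * b⁻¹)) := by rw [hc a⁻¹]
    _ = (x * a * x⁻¹ * a⁻¹) * (x * b * x⁻¹ * b⁻¹) := by group

/-- Decomposition of the commutator subgroup of a product of two subgroups whose mutual
commutators lie in a central subgroup. -/
theorem commutator_decomp_of_central {Δ : Type*} [Group Δ] (Γ₁ Γ₂ W : Subgroup Δ)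
    (hW : W ≤ Subgroup.center Δ)
    (hcomm : ∀ x ∈ Γ₁, ∀ y ∈ Γ₂, x * y * x⁻¹ * y⁻¹ ∈ W)
    (hsplit : ∀ g : Δ, ∃ x ∈ Γ₁, ∃ y ∈ Γ₂, g = x * y) :
    ∀ k ∈ commutator Δ, ∃ d₁ ∈ (commutator ↥Γ₁).map Γ₁.subtype,
      ∃ d₂ ∈ (commutator ↥Γ₂).map Γ₂.subtype, ∃ w ∈ W, k = d₁ * d₂ * w := by
  have hcen : ∀ w ∈ W, ∀ g : Δ, g * w = w * g := fun w hw g =>
    Subgroup.mem_center_iff.1 (hW hw) g
  have hC₁ : ∀ d ∈ (commutator ↥Γ₁).map Γ₁.subtype, d ∈ Γ₁ := by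
    rintro _ ⟨t, _, rfl⟩
    exact t.2
  have hC₂ : ∀ d ∈ (commutator ↥Γ₂).map Γ₂.subtype, d ∈ Γ₂ := by
    rintro _ ⟨t, _, rfl⟩
    exact t.2
  have hswap : ∀ y ∈ Γ₂, ∀ x ∈ Γ₁, ∃ z ∈ W, y * x = z * (x * y) := by
    intro y hy x hx
    refine ⟨y * x * y⁻¹ * x⁻¹, ?_, by group⟩
    have h := inv_mem (hcomm x hx y hy)
    have e : (x * y * x⁻¹ * y⁻¹)⁻¹ = y * x * y⁻¹ * x⁻¹ := by group
    rw [e] at h
    exact h
  let S : Subgroup Δ :=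
    { carrier := {k | ∃ d₁ ∈ (commutator ↥Γ₁).map Γ₁.subtype,
        ∃ d₂ ∈ (commutator ↥Γ₂).map Γ₂.subtype, ∃ w ∈ W, k = d₁ * d₂ * w}
      one_mem' := ⟨1, one_mem _, 1, one_mem _, 1, one_mem _, by group⟩
      mul_mem' := by
        rintro _ _ ⟨d₁, hd₁, d₂, hd₂, w, hw, rfl⟩ ⟨e₁, he₁, e₂, he₂, w', hw', rfl⟩
        obtain ⟨z, hz, hze⟩ := hswap d₂ (hC₂ _ hd₂) e₁ (hC₁ _ he₁)
        refine ⟨d₁ * e₁, mul_mem hd₁ he₁, d₂ * e₂, mul_mem hd₂ he₂, z * w * w',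
          mul_mem (mul_mem hz hw) hw', ?_⟩
        have h1 := hcen w hw (e₁ * e₂)
        have h2 := hcen z hz (d₁ * e₁ * (d₂ * e₂))
        have h3 := hcen z hz d₁
        calc d₁ * d₂ * w * (e₁ * e₂ * w') = d₁ * d₂ * (w * (e₁ * e₂)) * w' := by group
          _ = d₁ * d₂ * ((e₁ * e₂) * w) * w' := by rw [h1]
          _ = d₁ * (d₂ * e₁) * e₂ * w * w' := by group
          _ = d₁ * (z * (e₁ * d₂)) * e₂ * w * w' := by rw [hze]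
          _ = (d₁ * z) * e₁ * d₂ * e₂ * w * w' := by group
          _ = (z * d₁) * e₁ * d₂ * e₂ * w * w' := by rw [h3]
          _ = z * (d₁ * e₁ * (d₂ * e₂)) * w * w' := by group
          _ = (d₁ * e₁ * (d₂ * e₂)) * z * w * w' := by rw [h2]
          _ = d₁ * e₁ * (d₂ * e₂) * (z * w * w') := by group
      inv_mem' := by
        rintro _ ⟨d₁, hd₁, d₂, hd₂, w, hw, rfl⟩
        obtain ⟨z, hz, hze⟩ := hswap d₂⁻¹ (inv_mem (hC₂ _ hd₂)) d₁⁻¹ (inv_mem (hC₁ _ hd₁))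
        refine ⟨d₁⁻¹, inv_mem hd₁, d₂⁻¹, inv_mem hd₂, z * w⁻¹, mul_mem hz (inv_mem hw), ?_⟩
        have h1 := hcen w⁻¹ (inv_mem hw) (d₂⁻¹ * d₁⁻¹)
        have h2 := hcen z hz (d₁⁻¹ * d₂⁻¹)
        calc (d₁ * d₂ * w)⁻¹ = w⁻¹ * (d₂⁻¹ * d₁⁻¹) := by group
          _ = (d₂⁻¹ * d₁⁻¹) * w⁻¹ := h1.symm
          _ = (z * (d₁⁻¹ * d₂⁻¹)) * w⁻¹ := by rw [hze]
          _ = ((d₁⁻¹ * d₂⁻¹) * z) * w⁻¹ := by rw [h2]
          _ = d₁⁻¹ * d₂⁻¹ * (z * w⁻¹) := by group }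
  have hS : commutator Δ ≤ S := by
    rw [commutator_eq_closure, Subgroup.closure_le]
    rintro _ ⟨g, h, rfl⟩
    obtain ⟨x₁, hx₁, y₁, hy₁, rfl⟩ := hsplit g
    obtain ⟨x₂, hx₂, y₂, hy₂, rfl⟩ := hsplit h
    obtain ⟨z₁, hz₁, e1⟩ := hswap y₁ hy₁ x₂ hx₂
    obtain ⟨z₂, hz₂, e2⟩ := hswap (y₁ * y₂ * y₁⁻¹) (mul_mem (mul_mem hy₁ hy₂) (inv_mem hy₁))
      x₁⁻¹ (inv_mem hx₁)
    obtain ⟨z₃, hz₃, e3⟩ := hswap (y₁ * y₂ * y₁⁻¹ * y₂⁻¹)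
      (mul_mem (mul_mem (mul_mem hy₁ hy₂) (inv_mem hy₁)) (inv_mem hy₂)) x₂⁻¹ (inv_mem hx₂)
    have c1 := hcen z₁ hz₁ x₁
    have c2 := hcen z₂ hz₂ (x₁ * x₂)
    have c3 := hcen z₃ hz₃ (x₁ * x₂ * x₁⁻¹)
    have c4 := hcen (z₁ * z₂ * z₃) (mul_mem (mul_mem hz₁ hz₂) hz₃)
      ((x₁ * x₂ * x₁⁻¹ * x₂⁻¹) * (y₁ * y₂ * y₁⁻¹ * y₂⁻¹))
    have hcalc : ⁅x₁ * y₁, x₂ * y₂⁆
        = (x₁ * x₂ * x₁⁻¹ * x₂⁻¹) * (y₁ * y₂ * y₁⁻¹ * y₂⁻¹) * (z₁ * z₂ * z₃) := by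
      rw [commutatorElement_def]
      calc (x₁ * y₁) * (x₂ * y₂) * (x₁ * y₁)⁻¹ * (x₂ * y₂)⁻¹
          = x₁ * (y₁ * x₂) * y₂ * y₁⁻¹ * x₁⁻¹ * y₂⁻¹ * x₂⁻¹ := by group
        _ = x₁ * (z₁ * (x₂ * y₁)) * y₂ * y₁⁻¹ * x₁⁻¹ * y₂⁻¹ * x₂⁻¹ := by rw [e1]
        _ = (x₁ * z₁) * x₂ * ((y₁ * y₂ * y₁⁻¹) * x₁⁻¹) * y₂⁻¹ * x₂⁻¹ := by group
        _ = (z₁ * x₁) * x₂ * (z₂ * (x₁⁻¹ * (y₁ * y₂ * y₁⁻¹))) * y₂⁻¹ * x₂⁻¹ := by rw [c1, e2]
        _ = z₁ * ((x₁ * x₂) * z₂) * x₁⁻¹ * ((y₁ * y₂ * y₁⁻¹ * y₂⁻¹) * x₂⁻¹) := by group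
        _ = z₁ * (z₂ * (x₁ * x₂)) * x₁⁻¹ * (z₃ * (x₂⁻¹ * (y₁ * y₂ * y₁⁻¹ * y₂⁻¹))) := by
          rw [c2, e3]
        _ = z₁ * z₂ * ((x₁ * x₂ * x₁⁻¹) * z₃) * x₂⁻¹ * (y₁ * y₂ * y₁⁻¹ * y₂⁻¹) := by group
        _ = z₁ * z₂ * (z₃ * (x₁ * x₂ * x₁⁻¹)) * x₂⁻¹ * (y₁ * y₂ * y₁⁻¹ * y₂⁻¹) := by rw [c3]
        _ = (z₁ * z₂ * z₃) * ((x₁ * x₂ * x₁⁻¹ * x₂⁻¹) * (y₁ * y₂ * y₁⁻¹ * y₂⁻¹)) := by group
        _ = (x₁ * x₂ * x₁⁻¹ * x₂⁻¹) * (y₁ * y₂ * y₁⁻¹ * y₂⁻¹) * (z₁ * z₂ * z₃) := c4.symm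
    refine ⟨x₁ * x₂ * x₁⁻¹ * x₂⁻¹, ?_, y₁ * y₂ * y₁⁻¹ * y₂⁻¹, ?_, z₁ * z₂ * z₃,
      mul_mem (mul_mem hz₁ hz₂) hz₃, hcalc⟩
    · refine ⟨⁅(⟨x₁, hx₁⟩ : ↥Γ₁), ⟨x₂, hx₂⟩⁆, ?_, rfl⟩
      rw [SetLike.mem_coe, commutator_def]
      exact Subgroup.commutator_mem_commutator (Subgroup.mem_top _) (Subgroup.mem_top _)
    · refine ⟨⁅(⟨y₁, hy₁⟩ : ↥Γ₂), ⟨y₂, hy₂⟩⁆, ?_, rfl⟩
      rw [SetLike.mem_coe, commutator_def]
      exact Subgroup.commutator_mem_commutator (Subgroup.mem_top _) (Subgroup.mem_top _)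
  intro k hk
  exact hS hk

end Cfsg.Agent.Helper21
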