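import Mathlib
import Cfsg.Prelude.Def_KGroupFacts
import Cfsg.Agent.Helper21.Index2

set_option autoImplicit false

namespace Cfsg.Agent.Helper21

/-- For a stem extension `σ : Γ →* H` where `H = C ∪ C t` with `C` a cyclic subgroup normalized by `t`:
every element of the kernel is `s r s⁻¹ r⁻¹` with `σ r ∈ C`, where `s` is a chosen lift of `t`. -/
theorem stem_ker_form {Γ H : Type*} [Group Γ] [Group H] (σ : Γ →* H) (hσ : Cfsg.IsStemExtension σ)
    (C : Subgroup H) [IsCyclic C] (t : H) (ht : ∀ c ∈ C, t * c * t⁻¹ ∈ C)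
    (hcov : ∀ h : H, h ∈ C ∨ h * t⁻¹ ∈ C) (s : Γ) (hst : σ s = t) :
    ∀ x ∈ σ.ker, ∃ r : Γ, σ r ∈ C ∧ x = s * r * s⁻¹ * r⁻¹ := by
  obtain ⟨-, hcen, hcomm⟩ := hσ
  have hker : (σ.subgroupComap C).ker ≤ Subgroup.center (C.comap σ) := by
    intro x hx
    rw [MonoidHom.mem_ker] at hx
    have h1 : σ (x : Γ) = 1 := congrArg Subtype.val hx
    have h2 : (x : Γ) ∈ Subgroup.center Γ := hcen (MonoidHom.mem_ker.mpr h1)
    rw [Subgroup.mem_center_iff]
    intro y
    apply Subtype.ext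
    exact Subgroup.mem_center_iff.mp h2 y
  have hRc : IsMulCommutative (C.comap σ) :=
    (σ.subgroupComap C).isMulCommutative_of_isCyclic_of_ker_le_center hker
  have hR : ∀ a ∈ C.comap σ, ∀ b ∈ C.comap σ, a * b = b * a := by
    intro a ha b hb
    have := hRc.is_comm.comm (⟨a, ha⟩ : C.comap σ) ⟨b, hb⟩
    exact congrArg Subtype.val this
  have hs : ∀ r ∈ C.comap σ, s * r * s⁻¹ ∈ C.comap σ := by
    intro r hr
    rw [Subgroup.mem_comap] at hr ⊢
    rw [map_mul, map_mul, map_inv, hst]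
    exact ht _ hr
  have hcov' : ∀ g : Γ, g ∈ C.comap σ ∨ ∃ r ∈ C.comap σ, g = r * s := by
    intro g
    rcases hcov (σ g) with h | h
    · exact Or.inl h
    · refine Or.inr ⟨g * s⁻¹, ?_, by group⟩
      rw [Subgroup.mem_comap, map_mul, map_inv, hst]
      exact h
  intro x hx
  obtain ⟨r, hr, hxr⟩ := commutator_index_two (C.comap σ) hR s hs hcov' x (hcomm hx)
  exact ⟨r, hr, hxr⟩

end Cfsg.Agent.Helper21
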