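import Mathlib
import Cfsg.Prelude.Def_KGroupFacts
import Cfsg.Agent.Helper21.StemKill
import Cfsg.Agent.Helper21.InvForm
import Cfsg.Agent.Helper21.UniversalExists
import Cfsg.Agent.Helper21.TensorPair
import Cfsg.Agent.Helper1.Quat
import Cfsg.Agent.S2301
import Cfsg.Agent.S3963
import Cfsg.Agent.S3979

/-!
The Schur multiplier of `SL₂(q)` is trivial for `q ≠ 4, 9`: every finite stem extension of
`SL₂(q)` has trivial kernel.
-/

set_option autoImplicit false

namespace Cfsg.Agent.Helper21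

open Matrix
open scoped IsMulCommutative

variable {F : Type*} [Field F]

/-- The upper unitriangular matrix with entry `t`. -/
def slX (t : F) : SpecialLinearGroup (Fin 2) F :=
  ⟨!![1, t; 0, 1], by simp [Matrix.det_fin_two]⟩

/-- The diagonal matrix `diag(a, a⁻¹)`. -/
def slH (a : F) (ha : a ≠ 0) : SpecialLinearGroup (Fin 2) F :=
  ⟨!![a, 0; 0, a⁻¹], by simp [Matrix.det_fin_two, mul_inv_cancel₀ ha]⟩

theorem slX_add (s t : F) : slX (s + t) = slX s * slX t := by
  apply Subtype.ext
  show !![1, s + t; 0, 1] = !![1, s; 0, 1] * !![1, t; 0, 1]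
  rw [Matrix.mul_fin_two]
  ext i j
  fin_cases i <;> fin_cases j <;> simp [add_comm]

theorem slH_conj (a : F) (ha : a ≠ 0) (t : F) :
    slH a ha * slX t = slX (a ^ 2 * t) * slH a ha := by
  apply Subtype.ext
  show !![a, 0; 0, a⁻¹] * !![1, t; 0, 1] = !![1, a ^ 2 * t; 0, 1] * !![a, 0; 0, a⁻¹]
  rw [Matrix.mul_fin_two, Matrix.mul_fin_two]
  ext i j
  fin_cases i <;> fin_cases j
  · simp
  · show a * t + 0 * 1 = 1 * 0 + a ^ 2 * t * a⁻¹
    field_simp
    ring
  · simp
  · simp

theorem slX_injective : Function.Injective (slX : F → SpecialLinearGroup (Fin 2) F) := by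
  intro s t h
  have h1 := congrArg (fun g : SpecialLinearGroup (Fin 2) F => (g : Matrix (Fin 2) (Fin 2) F) 0 1) h
  simpa [slX] using h1

/-- The unipotent subgroup as a homomorphism from the additive group of the field. -/
def slXHom : Multiplicative F →* SpecialLinearGroup (Fin 2) F :=
  MonoidHom.mk' (fun t => slX (Multiplicative.toAdd t)) (fun a b => by rw [toAdd_mul, slX_add])

theorem slXHom_apply (t : Multiplicative F) : slXHom t = slX (Multiplicative.toAdd t) := rfl

theorem card_range_slXHom [Fintype F] :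
    Nat.card ↥(slXHom (F := F)).range = Fintype.card F := by
  have hinj : Function.Injective (slXHom (F := F)) := by
    intro a b h
    exact Multiplicative.toAdd.injective (slX_injective h)
  rw [← Nat.card_congr (MonoidHom.ofInjective hinj).toEquiv, ← Nat.card_eq_fintype_card]
  exact Nat.card_congr Multiplicative.toAdd

/-- An element of `SL₂(F)` fixing a nonzero vector has order dividing the characteristic. -/
theorem sl2_pow_char_eq_one_of_fix (p : ℕ) [CharP F p] (g : SpecialLinearGroup (Fin 2) F)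
    (v : Fin 2 → F) (hv : v ≠ 0) (hg : (g : Matrix (Fin 2) (Fin 2) F) *ᵥ v = v) : g ^ p = 1 := by
  obtain ⟨M, hM⟩ : ∃ M : Matrix (Fin 2) (Fin 2) F, M = (g : Matrix (Fin 2) (Fin 2) F) := ⟨_, rfl⟩
  have hdet : M.det = 1 := by rw [hM]; exact g.2
  have h1 : (M - 1).det = 0 := by
    rw [← Matrix.exists_mulVec_eq_zero_iff]
    exact ⟨v, hv, by rw [Matrix.sub_mulVec, hM, hg, Matrix.one_mulVec, sub_self]⟩
  have n00 : (M - 1) 0 0 = M 0 0 - 1 := by simp
  have n01 : (M - 1) 0 1 = M 0 1 := by simp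
  have n10 : (M - 1) 1 0 = M 1 0 := by simp
  have n11 : (M - 1) 1 1 = M 1 1 - 1 := by simp
  rw [Matrix.det_fin_two] at h1 hdet
  rw [n00, n01, n10, n11] at h1
  have htr : M 0 0 + M 1 1 = 2 := by linear_combination hdet - h1
  have e : ∀ i j : Fin 2, ((M - 1) * (M - 1)) i j
      = ((M - 1) i 0) * ((M - 1) 0 j) + ((M - 1) i 1) * ((M - 1) 1 j) := by
    intro i j; rw [Matrix.mul_apply, Fin.sum_univ_two]
  obtain ⟨N, hN⟩ : ∃ N : Matrix (Fin 2) (Fin 2) F, N = M - 1 := ⟨_, rfl⟩
  have hNN : N * N = 0 := by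
    rw [hN]
    ext i j
    fin_cases i <;> fin_cases j
    · show ((M - 1) * (M - 1)) 0 0 = 0
      rw [e, n00, n01, n10]; linear_combination (M 0 0) * htr - hdet
    · show ((M - 1) * (M - 1)) 0 1 = 0
      rw [e, n00, n01, n11]; linear_combination (M 0 1) * htr
    · show ((M - 1) * (M - 1)) 1 0 = 0
      rw [e, n10, n00, n11]; linear_combination (M 1 0) * htr
    · show ((M - 1) * (M - 1)) 1 1 = 0
      rw [e, n10, n01, n11]; linear_combination (M 1 1) * htr - hdet
  have hMN : M = 1 + N := by rw [hN]; abel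
  have hpow : ∀ n : ℕ, M ^ n = 1 + n • N := by
    intro n
    induction n with
    | zero => simp
    | succ n ih =>
      rw [pow_succ, ih, hMN]
      have h2 : (1 + n • N) * (1 + N) = 1 + N + n • N + n • (N * N) := by
        rw [add_mul, one_mul, smul_mul_assoc, mul_add, mul_one, smul_add]; abel
      rw [h2, hNN, smul_zero, add_zero, succ_nsmul]; abel
  apply Subtype.ext
  show ((g ^ p : SpecialLinearGroup (Fin 2) F) : Matrix (Fin 2) (Fin 2) F)
    = ((1 : SpecialLinearGroup (Fin 2) F) : Matrix (Fin 2) (Fin 2) F)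
  rw [Matrix.SpecialLinearGroup.coe_pow, Matrix.SpecialLinearGroup.coe_one, ← hM, hpow p]
  have h3 : p • N = 0 := by
    ext i j
    rw [Matrix.smul_apply, nsmul_eq_mul, CharP.cast_eq_zero F p, zero_mul]; rfl
  rw [h3, add_zero]

/-- The action of `SL₂(F)` on the multiplicative copy of its natural module. -/
def slAct : SpecialLinearGroup (Fin 2) F →* MulAut (Multiplicative (Fin 2 → F)) where
  toFun g :=
    { toFun := fun v =>
        Multiplicative.ofAdd ((g : Matrix (Fin 2) (Fin 2) F) *ᵥ Multiplicative.toAdd v)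
      invFun := fun v =>
        Multiplicative.ofAdd ((↑(g⁻¹) : Matrix (Fin 2) (Fin 2) F) *ᵥ Multiplicative.toAdd v)
      left_inv := by
        intro v
        show Multiplicative.ofAdd ((↑(g⁻¹) : Matrix (Fin 2) (Fin 2) F) *ᵥ
          ((g : Matrix (Fin 2) (Fin 2) F) *ᵥ Multiplicative.toAdd v)) = v
        rw [Matrix.mulVec_mulVec, ← Matrix.SpecialLinearGroup.coe_mul, inv_mul_cancel,
          Matrix.SpecialLinearGroup.coe_one, Matrix.one_mulVec]
        rfl
      right_inv := by
        intro v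
        show Multiplicative.ofAdd ((g : Matrix (Fin 2) (Fin 2) F) *ᵥ
          ((↑(g⁻¹) : Matrix (Fin 2) (Fin 2) F) *ᵥ Multiplicative.toAdd v)) = v
        rw [Matrix.mulVec_mulVec, ← Matrix.SpecialLinearGroup.coe_mul, mul_inv_cancel,
          Matrix.SpecialLinearGroup.coe_one, Matrix.one_mulVec]
        rfl
      map_mul' := by
        intro v w
        show Multiplicative.ofAdd ((g : Matrix (Fin 2) (Fin 2) F) *ᵥ
          (Multiplicative.toAdd v + Multiplicative.toAdd w)) = Multiplicative.ofAdd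
          ((g : Matrix (Fin 2) (Fin 2) F) *ᵥ Multiplicative.toAdd v
            + (g : Matrix (Fin 2) (Fin 2) F) *ᵥ Multiplicative.toAdd w)
        rw [Matrix.mulVec_add] }
  map_one' := by
    apply MulEquiv.ext
    intro v
    show Multiplicative.ofAdd (((1 : SpecialLinearGroup (Fin 2) F) : Matrix (Fin 2) (Fin 2) F) *ᵥ
      Multiplicative.toAdd v) = v
    rw [Matrix.SpecialLinearGroup.coe_one, Matrix.one_mulVec]
    rfl
  map_mul' := by
    intro g h
    apply MulEquiv.ext
    intro v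
    show Multiplicative.ofAdd (((g * h : SpecialLinearGroup (Fin 2) F) :
        Matrix (Fin 2) (Fin 2) F) *ᵥ Multiplicative.toAdd v)
      = Multiplicative.ofAdd ((g : Matrix (Fin 2) (Fin 2) F) *ᵥ
        ((h : Matrix (Fin 2) (Fin 2) F) *ᵥ Multiplicative.toAdd v))
    rw [Matrix.SpecialLinearGroup.coe_mul, Matrix.mulVec_mulVec]

theorem slAct_apply (g : SpecialLinearGroup (Fin 2) F) (v : Multiplicative (Fin 2 → F)) :
    Multiplicative.toAdd (slAct g v) = (g : Matrix (Fin 2) (Fin 2) F) *ᵥ Multiplicative.toAdd v :=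
  rfl

/-- Sylow subgroups of `SL₂(F)` for primes other than the characteristic have trivial Schur
multiplier (they are cyclic or generalized quaternion), so the kernel of a stem extension is
killed by their index. -/
theorem sl2_stem_ker_pow_sylow [Fintype F] {Γ : Type*} [Group Γ] [Finite Γ]
    (σ : Γ →* SpecialLinearGroup (Fin 2) F) (hσ : Cfsg.IsStemExtension σ) (r : ℕ)
    [hr : Fact r.Prime] (hrp : r ≠ ringChar F) (R : Sylow r (SpecialLinearGroup (Fin 2) F))
    (a : Γ) (ha : a ∈ σ.ker) : a ^ (R : Subgroup (SpecialLinearGroup (Fin 2) F)).index = 1 := by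
  classical
  haveI : CharP F (ringChar F) := ringChar.charP F
  have hpp : (ringChar F).Prime := CharP.char_is_prime F (ringChar F)
  have hab : ∀ B : Subgroup ↥(R : Subgroup (SpecialLinearGroup (Fin 2) F)),
      (∀ x ∈ B, ∀ y ∈ B, x * y = y * x) → IsCyclic B := by
    intro B hB
    let φ : ↥B →* MulAut (Multiplicative (Fin 2 → F)) :=
      slAct.comp ((R : Subgroup (SpecialLinearGroup (Fin 2) F)).subtype.comp B.subtype)
    apply Cfsg.Agent.Helper1.fpf_cyclic_of_comm φ
    · intro b hb v hv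
      by_contra hv1
      have hv0 : Multiplicative.toAdd v ≠ 0 := fun h => hv1 (Multiplicative.toAdd.injective h)
      have hfix : (((b : ↥(R : Subgroup (SpecialLinearGroup (Fin 2) F))) :
          SpecialLinearGroup (Fin 2) F) : Matrix (Fin 2) (Fin 2) F) *ᵥ Multiplicative.toAdd v
          = Multiplicative.toAdd v := congrArg Multiplicative.toAdd hv
      have hpow := sl2_pow_char_eq_one_of_fix (ringChar F) _ _ hv0 hfix
      obtain ⟨k, hk⟩ := IsPGroup.iff_orderOf.1 R.isPGroup'
        (b : ↥(R : Subgroup (SpecialLinearGroup (Fin 2) F)))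
      have ho : orderOf ((b : ↥(R : Subgroup (SpecialLinearGroup (Fin 2) F))) :
          SpecialLinearGroup (Fin 2) F) = r ^ k := by
        rw [Subgroup.orderOf_coe]; exact hk
      have hdvd := orderOf_dvd_of_pow_eq_one hpow
      have hcop : Nat.Coprime (r ^ k) (ringChar F) :=
        Nat.Coprime.pow_left k ((Nat.coprime_primes hr.out hpp).2 hrp)
      rw [ho] at hdvd
      have h1 : r ^ k = 1 := Nat.Coprime.eq_one_of_dvd hcop hdvd
      rw [h1] at ho
      have h2 := orderOf_eq_one_iff.1 ho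
      exact hb (Subtype.ext (Subtype.ext h2))
    · intro x y
      exact Subtype.ext (hB x x.2 y y.2)
  have huniq := Cfsg.Agent.Helper1.unique_of_abelian_cyclic r R.isPGroup' hab
  rcases Cfsg.Agent.Helper1.pgroup_unique_cyclic_or_quat r R.isPGroup' huniq with
    hc | ⟨-, n, ⟨e⟩⟩
  · haveI := hc
    exact stem_ker_pow_index_of_schur_one σ hσ
      (R : Subgroup (SpecialLinearGroup (Fin 2) F)) (MulEquiv.refl _)
      Cfsg.Agent.S3979.result a ha
  · haveI : NeZero (2 ^ n) := ⟨pow_ne_zero n two_ne_zero⟩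
    exact stem_ker_pow_index_of_schur_one σ hσ
      (R : Subgroup (SpecialLinearGroup (Fin 2) F)) e
      (Cfsg.Agent.S3963.result (2 ^ n)) a ha

/-- For `q ≠ 4, 9` the preimage of the unipotent subgroup in a stem extension of `SL₂(q)` is
abelian, so the kernel is killed by the index of the unipotent subgroup. -/
theorem sl2_stem_ker_pow_unipotent [Fintype F] (h4 : Fintype.card F ≠ 4)
    (h9 : Fintype.card F ≠ 9) {Γ : Type*} [Group Γ] [Finite Γ]
    (σ : Γ →* SpecialLinearGroup (Fin 2) F) (hσ : Cfsg.IsStemExtension σ)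
    (a : Γ) (ha : a ∈ σ.ker) : a ^ (slXHom (F := F)).range.index = 1 := by
  classical
  have hcen : ∀ z : Γ, σ z = 1 → ∀ g : Γ, g * z = z * g := fun z hz g =>
    Subgroup.mem_center_iff.1 (hσ.2.1 (MonoidHom.mem_ker.2 hz)) g
  choose xh hxh using fun t : F => hσ.1 (slX t)
  obtain ⟨C, hC⟩ : ∃ C : F → F → Γ, ∀ s t, C s t = xh s * xh t * (xh s)⁻¹ * (xh t)⁻¹ :=
    ⟨_, fun _ _ => rfl⟩
  have hCker : ∀ s t, σ (C s t) = 1 := by
    intro s t
    rw [hC, map_mul, map_mul, map_mul, map_inv, map_inv, hxh, hxh, ← slX_add, add_comm, slX_add]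
    group
  have hCcen : ∀ s t, C s t ∈ Subgroup.center Γ := fun s t =>
    hσ.2.1 (MonoidHom.mem_ker.2 (hCker s t))
  have hC_add₁ : ∀ s s' t, C (s + s') t = C s t * C s' t := by
    intro s s' t
    rw [hC, hC, hC, commutator_eq_of_map_eq σ hσ.2.1 (xh (s + s')) (xh s * xh s') (xh t) (xh t)
      (by rw [map_mul, hxh, hxh, hxh, slX_add]) rfl]
    exact commutator_mul_left_of_central (xh s) (xh s') (xh t) (by rw [← hC]; exact hCcen s' t)
  have hC_add₂ : ∀ s t t', C s (t + t') = C s t * C s t' := by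
    intro s t t'
    rw [hC, hC, hC, commutator_eq_of_map_eq σ hσ.2.1 (xh s) (xh s) (xh (t + t')) (xh t * xh t')
      rfl (by rw [map_mul, hxh, hxh, hxh, slX_add])]
    exact commutator_mul_right_of_central (xh s) (xh t) (xh t') (by rw [← hC]; exact hCcen s t')
  have hC_alt : ∀ t, C t t = 1 := by
    intro t
    rw [hC]; group
  have hC_inv : ∀ b s t, b ≠ 0 → C (b ^ 2 * s) (b ^ 2 * t) = C s t := by
    intro b s t hb
    obtain ⟨k, hk⟩ := hσ.1 (slH b hb)
    have h1 : ∀ u : F, σ (xh (b ^ 2 * u)) = σ (k * xh u * k⁻¹) := by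
      intro u
      rw [map_mul, map_mul, map_inv, hxh, hxh, hk, slH_conj, mul_inv_cancel_right]
    have h2 := hcen _ (hCker s t) k
    rw [hC] at h2
    rw [hC, commutator_eq_of_map_eq σ hσ.2.1 _ _ _ _ (h1 s) (h1 t), hC]
    calc k * xh s * k⁻¹ * (k * xh t * k⁻¹) * (k * xh s * k⁻¹)⁻¹ * (k * xh t * k⁻¹)⁻¹
        = (k * (xh s * xh t * (xh s)⁻¹ * (xh t)⁻¹)) * k⁻¹ := by group
      _ = ((xh s * xh t * (xh s)⁻¹ * (xh t)⁻¹) * k) * k⁻¹ := by rw [h2]
      _ = xh s * xh t * (xh s)⁻¹ * (xh t)⁻¹ := by group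
  have key := invariant_alternating_eq_zero h4 h9
    (fun s t => Additive.ofMul (⟨C s t, hCcen s t⟩ : Subgroup.center Γ))
    (fun s s' t => (congrArg Additive.ofMul (Subtype.ext (hC_add₁ s s' t) :
      (⟨C (s + s') t, hCcen _ _⟩ : Subgroup.center Γ)
        = ⟨C s t, hCcen _ _⟩ * ⟨C s' t, hCcen _ _⟩)).trans (ofMul_mul _ _))
    (fun s t t' => (congrArg Additive.ofMul (Subtype.ext (hC_add₂ s t t') :
      (⟨C s (t + t'), hCcen _ _⟩ : Subgroup.center Γ)
        = ⟨C s t, hCcen _ _⟩ * ⟨C s t', hCcen _ _⟩)).trans (ofMul_mul _ _))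
    (fun t => congrArg Additive.ofMul (Subtype.ext (hC_alt t) :
      (⟨C t t, hCcen _ _⟩ : Subgroup.center Γ) = 1))
    (fun b s t hb => congrArg Additive.ofMul (Subtype.ext (hC_inv b s t hb) :
      (⟨C (b ^ 2 * s) (b ^ 2 * t), hCcen _ _⟩ : Subgroup.center Γ) = ⟨C s t, hCcen _ _⟩))
  have hC1 : ∀ s t, C s t = 1 := by
    intro s t
    have h := congrArg (fun w : Additive (Subgroup.center Γ) => ((Additive.toMul w : Subgroup.center Γ) : Γ))
      (key s t)
    exact h
  have habel : ∀ u v : Γ, σ u ∈ (slXHom (F := F)).range → σ v ∈ (slXHom (F := F)).range →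
      u * v * u⁻¹ * v⁻¹ = 1 := by
    intro u v hu hv
    obtain ⟨m, hm⟩ := hu
    obtain ⟨m', hm'⟩ := hv
    rw [commutator_eq_of_map_eq σ hσ.2.1 u (xh (Multiplicative.toAdd m)) v
      (xh (Multiplicative.toAdd m')) (by rw [hxh, ← hm]; rfl) (by rw [hxh, ← hm']; rfl), ← hC]
    exact hC1 _ _
  apply stem_ker_pow_index σ hσ _ _ a ha
  intro z hz _
  have hle : commutator ↥((slXHom (F := F)).range.comap σ) ≤ ⊥ := by
    rw [commutator_def, Subgroup.commutator_le]
    intro g₁ _ g₂ _
    rw [Subgroup.mem_bot, commutatorElement_def]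
    exact Subtype.ext (habel g₁.1 g₂.1 (Subgroup.mem_comap.1 g₁.2) (Subgroup.mem_comap.1 g₂.2))
  exact Subgroup.mem_bot.1 (hle hz)

/-- Every finite stem extension of `SL₂(q)`, `q ≠ 4, 9`, has trivial kernel. -/
theorem sl2_stem_ker_eq_bot [Fintype F] (h4 : Fintype.card F ≠ 4) (h9 : Fintype.card F ≠ 9)
    {Γ : Type*} [Group Γ] [Finite Γ] (σ : Γ →* SpecialLinearGroup (Fin 2) F)
    (hσ : Cfsg.IsStemExtension σ) : σ.ker = ⊥ := by
  classical
  rw [Subgroup.eq_bot_iff_forall]
  intro z hz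
  by_contra hz1
  have ho : orderOf z ≠ 1 := fun h => hz1 (orderOf_eq_one_iff.1 h)
  obtain ⟨r, hr, hrd⟩ := Nat.exists_prime_and_dvd ho
  haveI : Fact r.Prime := ⟨hr⟩
  haveI : CharP F (ringChar F) := ringChar.charP F
  by_cases hrp : r = ringChar F
  · have h1 := sl2_stem_ker_pow_unipotent h4 h9 σ hσ z hz
    have h2 : r ∣ (slXHom (F := F)).range.index := hrd.trans (orderOf_dvd_of_pow_eq_one h1)
    have h3 := Subgroup.index_mul_card (slXHom (F := F)).range
    rw [card_range_slXHom, Cfsg.Agent.S2301.card_SL2] at h3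
    have hq : 0 < Fintype.card F := Fintype.card_pos
    have h4' : (slXHom (F := F)).range.index = Fintype.card F ^ 2 - 1 := by
      have h5 : (slXHom (F := F)).range.index * Fintype.card F
          = (Fintype.card F ^ 2 - 1) * Fintype.card F := by rw [h3, mul_comm]
      exact Nat.eq_of_mul_eq_mul_right hq h5
    have h5 : r ∣ Fintype.card F := by
      rw [hrp]
      exact (CharP.cast_eq_zero_iff F (ringChar F) (Fintype.card F)).1 (Nat.cast_card_eq_zero F)
    rw [h4'] at h2
    have h6 : r ∣ Fintype.card F ^ 2 := dvd_pow h5 two_ne_zero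
    have h7 : 1 ≤ Fintype.card F ^ 2 := Nat.one_le_pow _ _ hq
    have h8 : r ∣ 1 := by
      have h9' := Nat.dvd_sub h6 h2
      rwa [Nat.sub_sub_self h7] at h9'
    exact hr.one_lt.ne' (Nat.dvd_one.1 h8)
  · obtain ⟨R⟩ : Nonempty (Sylow r (SpecialLinearGroup (Fin 2) F)) := inferInstance
    have h1 := sl2_stem_ker_pow_sylow σ hσ r hrp R z hz
    have h2 : r ∣ (R : Subgroup (SpecialLinearGroup (Fin 2) F)).index :=
      hrd.trans (orderOf_dvd_of_pow_eq_one h1)
    exact R.not_dvd_index h2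

end Cfsg.Agent.Helper21
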