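import Mathlib
import Cfsg.Prelude.Def_KGroupFacts

set_option autoImplicit false

namespace Cfsg.Agent.Helper21

theorem nonempty_mulEquiv_zmod2_of_card {K : Type*} [Group K] (h : Nat.card K = 2) :
    Nonempty (K ≃* Multiplicative (ZMod 2)) := by
  have : Fact (Nat.Prime 2) := ⟨Nat.prime_two⟩
  have h2 : Nat.card (Multiplicative (ZMod 2)) = 2 := by
    rw [Nat.card_eq_fintype_card]
    rfl
  exact ⟨mulEquivOfPrimeCardEq (p := 2) h h2⟩

theorem exists_surj_zmod2 {K : Type*} [Group K] (z : K) (h : ∀ x : K, x = 1 ∨ x = z) :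
    ∃ π : Multiplicative (ZMod 2) →* K, Function.Surjective π := by
  by_cases hz : z = 1
  · refine ⟨1, fun x => ⟨1, ?_⟩⟩
    rcases h x with hx | hx
    · rw [hx]; rfl
    · rw [hx, hz]; rfl
  · have hc : Nat.card K = 2 := by
      rw [Nat.card_eq_two_iff]
      refine ⟨1, z, fun h1 => hz h1.symm, ?_⟩
      ext x
      simp only [Set.mem_insert_iff, Set.mem_singleton_iff, Set.mem_univ, iff_true]
      exact h x
    obtain ⟨e⟩ := nonempty_mulEquiv_zmod2_of_card hc
    exact ⟨e.symm.toMonoidHom, e.symm.surjective⟩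

end Cfsg.Agent.Helper21
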