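import Mathlib
import Cfsg.Prelude.Def_KGroupFacts
import Cfsg.Agent.Helper21.CentralImage

/-!
Schur multiplier of a direct product of groups whose commutator quotients have coprime orders.
-/

set_option autoImplicit false

namespace Cfsg.Agent.Helper21

universe u v w

open scoped IsMulCommutative commutatorElement

/-- If the commutators `[x, y]`, `x ∈ H`, are central, and `ν : H → Q'` is a surjection whose
kernel commutes with `y`, then `[x, y] ^ |Q'^ab| = 1`. -/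
theorem commutator_pow_card_abelianization {G Q' : Type*} [Group G] [Group Q'] [Finite Q']
    (H : Subgroup G) (y : G)
    (hcen : ∀ x ∈ H, x * y * x⁻¹ * y⁻¹ ∈ Subgroup.center G)
    (ν : ↥H →* Q') (hν : Function.Surjective ν)
    (hker : ∀ x : ↥H, ν x = 1 → (x : G) * y = y * (x : G)) (x : ↥H) :
    ((x : G) * y * (x : G)⁻¹ * y⁻¹) ^ Nat.card (Abelianization Q') = 1 := by
  let F : ↥H →* ↥(Subgroup.center G) :=
    { toFun := fun x => ⟨(x : G) * y * (x : G)⁻¹ * y⁻¹, hcen x x.2⟩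
      map_one' := by
        apply Subtype.ext
        show ((1 : ↥H) : G) * y * ((1 : ↥H) : G)⁻¹ * y⁻¹ = 1
        rw [Subgroup.coe_one]; group
      map_mul' := fun a b => by
        apply Subtype.ext
        show ((a * b : ↥H) : G) * y * ((a * b : ↥H) : G)⁻¹ * y⁻¹
          = ((a : G) * y * (a : G)⁻¹ * y⁻¹) * ((b : G) * y * (b : G)⁻¹ * y⁻¹)
        have hb := Subgroup.mem_center_iff.1 (hcen b b.2)
        rw [Subgroup.coe_mul]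
        calc (a : G) * (b : G) * y * ((a : G) * (b : G))⁻¹ * y⁻¹
            = (a : G) * ((b : G) * y * (b : G)⁻¹ * y⁻¹) * y * (a : G)⁻¹ * y⁻¹ := by group
          _ = ((b : G) * y * (b : G)⁻¹ * y⁻¹) * (a : G) * y * (a : G)⁻¹ * y⁻¹ := by rw [hb (a : G)]
          _ = ((b : G) * y * (b : G)⁻¹ * y⁻¹) * ((a : G) * y * (a : G)⁻¹ * y⁻¹) := by group
          _ = ((a : G) * y * (a : G)⁻¹ * y⁻¹) * ((b : G) * y * (b : G)⁻¹ * y⁻¹) := (hb _).symm }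
  have hkerF : ν.ker ≤ F.ker := by
    intro z hz
    rw [MonoidHom.mem_ker]
    apply Subtype.ext
    show (z : G) * y * (z : G)⁻¹ * y⁻¹ = 1
    rw [hker z (MonoidHom.mem_ker.1 hz)]; group
  let Fbar : Q' →* ↥(Subgroup.center G) := ν.liftOfSurjective hν ⟨F, hkerF⟩
  have hFbar : ∀ z : ↥H, Fbar (ν z) = F z := fun z =>
    MonoidHom.liftOfRightInverse_comp_apply _ _ _ ⟨F, hkerF⟩ z
  have h1 : F x = Abelianization.lift Fbar (Abelianization.of (ν x)) := by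
    rw [Abelianization.lift_apply_of, hFbar]
  have h2 : F x ^ Nat.card (Abelianization Q') = 1 := by
    rw [h1, ← map_pow, pow_card_eq_one', map_one]
  have h3 : ((F x ^ Nat.card (Abelianization Q') : ↥(Subgroup.center G)) : G) = 1 := by
    rw [h2]; rfl
  rw [Subgroup.coe_pow] at h3
  exact h3

/-- The Schur multiplier of `Q₁ × Q₂` is `A × B` when `Q₁ᵃᵇ` and `Q₂ᵃᵇ` have coprime orders. -/
theorem schur_prod_coprime {Q₁ : Type u} {Q₂ : Type v} [Group Q₁] [Group Q₂] [Finite Q₁]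
    [Finite Q₂] {A B : Type w} [CommGroup A] [CommGroup B] (hA : Cfsg.HasSchurMultiplier Q₁ A)
    (hB : Cfsg.HasSchurMultiplier Q₂ B)
    (hcop : Nat.Coprime (Nat.card (Abelianization Q₁)) (Nat.card (Abelianization Q₂))) :
    Cfsg.HasSchurMultiplier (Q₁ × Q₂) (A × B) := by
  refine ⟨?_, ?_⟩
  · obtain ⟨Γ₁, _, _, σ₁, hσ₁, ⟨i₁⟩⟩ := hA.1
    obtain ⟨Γ₂, _, _, σ₂, hσ₂, ⟨i₂⟩⟩ := hB.1
    refine ⟨Γ₁ × Γ₂, inferInstance, inferInstance, σ₁.prodMap σ₂, ⟨?_, ?_, ?_⟩, ?_⟩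
    · exact Function.Surjective.prodMap hσ₁.1 hσ₂.1
    · intro x hx
      have h1 : σ₁ x.1 = 1 := congrArg Prod.fst (MonoidHom.mem_ker.1 hx)
      have h2 : σ₂ x.2 = 1 := congrArg Prod.snd (MonoidHom.mem_ker.1 hx)
      have h3 := Subgroup.mem_center_iff.1 (hσ₁.2.1 (MonoidHom.mem_ker.2 h1))
      have h4 := Subgroup.mem_center_iff.1 (hσ₂.2.1 (MonoidHom.mem_ker.2 h2))
      rw [Subgroup.mem_center_iff]
      intro g
      exact Prod.ext (h3 g.1) (h4 g.2)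
    · intro x hx
      have h1 : σ₁ x.1 = 1 := congrArg Prod.fst (MonoidHom.mem_ker.1 hx)
      have h2 : σ₂ x.2 = 1 := congrArg Prod.snd (MonoidHom.mem_ker.1 hx)
      have h3 := map_mem_commutator (MonoidHom.inl Γ₁ Γ₂) (hσ₁.2.2 (MonoidHom.mem_ker.2 h1))
      have h4 := map_mem_commutator (MonoidHom.inr Γ₁ Γ₂) (hσ₂.2.2 (MonoidHom.mem_ker.2 h2))
      have h5 : x = MonoidHom.inl Γ₁ Γ₂ x.1 * MonoidHom.inr Γ₁ Γ₂ x.2 := by
        apply Prod.ext <;> simp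
      rw [h5]; exact mul_mem h3 h4
    · have hker : (σ₁.prodMap σ₂).ker = σ₁.ker.prod σ₂.ker := MonoidHom.ker_prodMap σ₁ σ₂
      exact ⟨(MulEquiv.subgroupCongr hker).trans
        ((Subgroup.prodEquiv _ _).trans (i₁.prodCongr i₂))⟩
  · intro Δ _ _ τ hτ
    classical
    let τ₁ : Δ →* Q₁ := (MonoidHom.fst Q₁ Q₂).comp τ
    let τ₂ : Δ →* Q₂ := (MonoidHom.snd Q₁ Q₂).comp τ
    have hτker : ∀ x : Δ, τ₁ x = 1 → τ₂ x = 1 → x ∈ τ.ker := fun x h1 h2 =>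
      MonoidHom.mem_ker.2 (Prod.ext h1 h2)
    have hKcen : ∀ x : Δ, τ₁ x = 1 → τ₂ x = 1 → ∀ g : Δ, g * x = x * g := fun x h1 h2 =>
      Subgroup.mem_center_iff.1 (hτ.2.1 (hτker x h1 h2))
    have hcomm_cen : ∀ x ∈ τ₂.ker, ∀ y ∈ τ₁.ker, x * y * x⁻¹ * y⁻¹ ∈ Subgroup.center Δ := by
      intro x hx y hy
      apply hτ.2.1
      apply hτker
      · show τ₁ (x * y * x⁻¹ * y⁻¹) = 1
        rw [map_mul, map_mul, map_mul, map_inv, map_inv, MonoidHom.mem_ker.1 hy]; group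
      · show τ₂ (x * y * x⁻¹ * y⁻¹) = 1
        rw [map_mul, map_mul, map_mul, map_inv, map_inv, MonoidHom.mem_ker.1 hx]; group
    have hν₁ : Function.Surjective (τ₁.comp τ₂.ker.subtype) := by
      intro q
      obtain ⟨x, hx⟩ := hτ.1 (q, 1)
      exact ⟨⟨x, MonoidHom.mem_ker.2 (congrArg Prod.snd hx)⟩, congrArg Prod.fst hx⟩
    have hν₂ : Function.Surjective (τ₂.comp τ₁.ker.subtype) := by
      intro q
      obtain ⟨x, hx⟩ := hτ.1 (1, q)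
      exact ⟨⟨x, MonoidHom.mem_ker.2 (congrArg Prod.fst hx)⟩, congrArg Prod.snd hx⟩
    -- the two preimages commute
    have hAB : ∀ x ∈ τ₂.ker, ∀ y ∈ τ₁.ker, x * y = y * x := by
      intro x hx y hy
      have h1 := commutator_pow_card_abelianization τ₂.ker y
        (fun x' hx' => hcomm_cen x' hx' y hy) (τ₁.comp τ₂.ker.subtype) hν₁
        (fun x' hx' => (hKcen (x' : Δ) hx' (MonoidHom.mem_ker.1 x'.2) y).symm) ⟨x, hx⟩
      have h2 := commutator_pow_card_abelianization τ₁.ker x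
        (fun y' hy' => by
          have : y' * x * y'⁻¹ * x⁻¹ = (x * y' * x⁻¹ * y'⁻¹)⁻¹ := by group
          rw [this]; exact inv_mem (hcomm_cen x hx y' hy'))
        (τ₂.comp τ₁.ker.subtype) hν₂
        (fun y' hy' => (hKcen (y' : Δ) (MonoidHom.mem_ker.1 y'.2) hy' x).symm) ⟨y, hy⟩
      have h2' : (x * y * x⁻¹ * y⁻¹) ^ Nat.card (Abelianization Q₂) = 1 := by
        have : x * y * x⁻¹ * y⁻¹ = (y * x * y⁻¹ * x⁻¹)⁻¹ := by group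
        rw [this, inv_pow]
        exact inv_eq_one.2 h2
      have h3 : orderOf (x * y * x⁻¹ * y⁻¹) ∣ 1 := by
        have := Nat.dvd_gcd (orderOf_dvd_of_pow_eq_one h1) (orderOf_dvd_of_pow_eq_one h2')
        rwa [Nat.Coprime.gcd_eq_one hcop] at this
      have h4 : x * y * x⁻¹ * y⁻¹ = 1 := orderOf_eq_one_iff.1 (Nat.dvd_one.1 h3)
      exact mul_inv_eq_iff_eq_mul.1 (mul_inv_eq_one.1 h4)
    -- the two central extensions
    have hcen₁ : (τ₁.comp τ₂.ker.subtype).ker ≤ Subgroup.center ↥τ₂.ker := by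
      intro z hz
      rw [Subgroup.mem_center_iff]
      intro g
      exact Subtype.ext (hKcen (z : Δ) (MonoidHom.mem_ker.1 hz) (MonoidHom.mem_ker.1 z.2) g)
    have hcen₂ : (τ₂.comp τ₁.ker.subtype).ker ≤ Subgroup.center ↥τ₁.ker := by
      intro z hz
      rw [Subgroup.mem_center_iff]
      intro g
      exact Subtype.ext (hKcen (z : Δ) (MonoidHom.mem_ker.1 z.2) (MonoidHom.mem_ker.1 hz) g)
    obtain ⟨π₁, hπ₁⟩ := exists_hom_range_eq_ker_inf_commutator hA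
      (τ₁.comp τ₂.ker.subtype) hν₁ hcen₁
    obtain ⟨π₂, hπ₂⟩ := exists_hom_range_eq_ker_inf_commutator hB
      (τ₂.comp τ₁.ker.subtype) hν₂ hcen₂
    let f₁ : A →* Δ := τ₂.ker.subtype.comp π₁
    let f₂ : B →* Δ := τ₁.ker.subtype.comp π₂
    have hcomm : ∀ (a : A) (b : B), Commute (f₁ a) (f₂ b) := fun a b =>
      hAB _ (π₁ a).2 _ (π₂ b).2
    have hf₁ : ∀ a : A, f₁ a ∈ τ.ker := by
      intro a
      have h1 : π₁ a ∈ (τ₁.comp τ₂.ker.subtype).ker ⊓ commutator ↥τ₂.ker := by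
        rw [← hπ₁]; exact ⟨a, rfl⟩
      exact hτker _ (MonoidHom.mem_ker.1 (Subgroup.mem_inf.1 h1).1) (MonoidHom.mem_ker.1 (π₁ a).2)
    have hf₂ : ∀ b : B, f₂ b ∈ τ.ker := by
      intro b
      have h1 : π₂ b ∈ (τ₂.comp τ₁.ker.subtype).ker ⊓ commutator ↥τ₁.ker := by
        rw [← hπ₂]; exact ⟨b, rfl⟩
      exact hτker _ (MonoidHom.mem_ker.1 (π₂ b).2) (MonoidHom.mem_ker.1 (Subgroup.mem_inf.1 h1).1)
    let π : A × B →* Δ := f₁.noncommCoprod f₂ hcomm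
    have hπapp : ∀ ab : A × B, π ab = f₁ ab.1 * f₂ ab.2 := fun ab => rfl
    have hπK : ∀ ab : A × B, π ab ∈ τ.ker := fun ab => by
      rw [hπapp]; exact mul_mem (hf₁ _) (hf₂ _)
    -- decomposition of the commutator subgroup
    let C₁ : Subgroup Δ := (commutator ↥τ₂.ker).map τ₂.ker.subtype
    let C₂ : Subgroup Δ := (commutator ↥τ₁.ker).map τ₁.ker.subtype
    have hC₁ : ∀ d ∈ C₁, d ∈ τ₂.ker := by
      rintro _ ⟨t, _, rfl⟩; exact t.2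
    have hC₂ : ∀ d ∈ C₂, d ∈ τ₁.ker := by
      rintro _ ⟨t, _, rfl⟩; exact t.2
    let S : Subgroup Δ :=
      { carrier := {k | ∃ d₁ ∈ C₁, ∃ d₂ ∈ C₂, k = d₁ * d₂}
        one_mem' := ⟨1, one_mem _, 1, one_mem _, (one_mul 1).symm⟩
        mul_mem' := by
          rintro _ _ ⟨d₁, hd₁, d₂, hd₂, rfl⟩ ⟨e₁, he₁, e₂, he₂, rfl⟩
          refine ⟨d₁ * e₁, mul_mem hd₁ he₁, d₂ * e₂, mul_mem hd₂ he₂, ?_⟩
          have hc : e₁ * d₂ = d₂ * e₁ := hAB e₁ (hC₁ _ he₁) d₂ (hC₂ _ hd₂)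
          calc d₁ * d₂ * (e₁ * e₂) = d₁ * (d₂ * e₁) * e₂ := by group
            _ = d₁ * (e₁ * d₂) * e₂ := by rw [hc]
            _ = d₁ * e₁ * (d₂ * e₂) := by group
        inv_mem' := by
          rintro _ ⟨d₁, hd₁, d₂, hd₂, rfl⟩
          refine ⟨d₁⁻¹, inv_mem hd₁, d₂⁻¹, inv_mem hd₂, ?_⟩
          have hc : d₁ * d₂ = d₂ * d₁ := hAB d₁ (hC₁ _ hd₁) d₂ (hC₂ _ hd₂)
          rw [hc, mul_inv_rev] }
    have hsplit : ∀ g : Δ, ∃ x ∈ τ₂.ker, ∃ y ∈ τ₁.ker, g = x * y := by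
      intro g
      obtain ⟨x, hx⟩ := hτ.1 ((τ g).1, 1)
      refine ⟨x, MonoidHom.mem_ker.2 (congrArg Prod.snd hx), x⁻¹ * g, ?_, by group⟩
      rw [MonoidHom.mem_ker]
      show τ₁ (x⁻¹ * g) = 1
      rw [map_mul, map_inv]
      have h1 : (τ x).1 = (τ g).1 := by rw [hx]
      show ((τ x).1)⁻¹ * (τ g).1 = 1
      rw [h1]
      exact inv_mul_cancel _
    have hS : commutator Δ ≤ S := by
      rw [commutator_eq_closure, Subgroup.closure_le]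
      rintro _ ⟨g, h, rfl⟩
      obtain ⟨x₁, hx₁, y₁, hy₁, rfl⟩ := hsplit g
      obtain ⟨x₂, hx₂, y₂, hy₂, rfl⟩ := hsplit h
      have e1 : y₁ * x₂ = x₂ * y₁ := (hAB x₂ hx₂ y₁ hy₁).symm
      have e2 : (y₁ * y₂ * y₁⁻¹) * x₁⁻¹ = x₁⁻¹ * (y₁ * y₂ * y₁⁻¹) :=
        (hAB x₁⁻¹ (inv_mem hx₁) _ (mul_mem (mul_mem hy₁ hy₂) (inv_mem hy₁))).symm
      have e3 : (y₁ * y₂ * y₁⁻¹ * y₂⁻¹) * x₂⁻¹ = x₂⁻¹ * (y₁ * y₂ * y₁⁻¹ * y₂⁻¹) :=
        (hAB x₂⁻¹ (inv_mem hx₂) _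
          (mul_mem (mul_mem (mul_mem hy₁ hy₂) (inv_mem hy₁)) (inv_mem hy₂))).symm
      have hcalc : ⁅x₁ * y₁, x₂ * y₂⁆ = (x₁ * x₂ * x₁⁻¹ * x₂⁻¹) * (y₁ * y₂ * y₁⁻¹ * y₂⁻¹) := by
        rw [commutatorElement_def]
        calc (x₁ * y₁) * (x₂ * y₂) * (x₁ * y₁)⁻¹ * (x₂ * y₂)⁻¹
            = x₁ * (y₁ * x₂) * y₂ * y₁⁻¹ * x₁⁻¹ * y₂⁻¹ * x₂⁻¹ := by group
          _ = x₁ * (x₂ * y₁) * y₂ * y₁⁻¹ * x₁⁻¹ * y₂⁻¹ * x₂⁻¹ := by rw [e1]
          _ = x₁ * x₂ * ((y₁ * y₂ * y₁⁻¹) * x₁⁻¹) * y₂⁻¹ * x₂⁻¹ := by group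
          _ = x₁ * x₂ * (x₁⁻¹ * (y₁ * y₂ * y₁⁻¹)) * y₂⁻¹ * x₂⁻¹ := by rw [e2]
          _ = x₁ * x₂ * x₁⁻¹ * ((y₁ * y₂ * y₁⁻¹ * y₂⁻¹) * x₂⁻¹) := by group
          _ = x₁ * x₂ * x₁⁻¹ * (x₂⁻¹ * (y₁ * y₂ * y₁⁻¹ * y₂⁻¹)) := by rw [e3]
          _ = (x₁ * x₂ * x₁⁻¹ * x₂⁻¹) * (y₁ * y₂ * y₁⁻¹ * y₂⁻¹) := by group
      refine ⟨x₁ * x₂ * x₁⁻¹ * x₂⁻¹, ?_, y₁ * y₂ * y₁⁻¹ * y₂⁻¹, ?_, hcalc⟩
      · refine ⟨⁅(⟨x₁, hx₁⟩ : ↥τ₂.ker), ⟨x₂, hx₂⟩⁆, ?_, rfl⟩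
        rw [SetLike.mem_coe, commutator_def]
        exact Subgroup.commutator_mem_commutator (Subgroup.mem_top _) (Subgroup.mem_top _)
      · refine ⟨⁅(⟨y₁, hy₁⟩ : ↥τ₁.ker), ⟨y₂, hy₂⟩⁆, ?_, rfl⟩
        rw [SetLike.mem_coe, commutator_def]
        exact Subgroup.commutator_mem_commutator (Subgroup.mem_top _) (Subgroup.mem_top _)
    refine ⟨π.codRestrict τ.ker hπK, ?_⟩
    rintro ⟨k, hk⟩
    obtain ⟨d₁, hd₁, d₂, hd₂, rfl⟩ := hS (hτ.2.2 hk)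
    obtain ⟨t₁, ht₁, rfl⟩ := hd₁
    obtain ⟨t₂, ht₂, rfl⟩ := hd₂
    have hk1 : τ₁ ((t₁ : Δ) * (t₂ : Δ)) = 1 := congrArg Prod.fst (MonoidHom.mem_ker.1 hk)
    have hk2 : τ₂ ((t₁ : Δ) * (t₂ : Δ)) = 1 := congrArg Prod.snd (MonoidHom.mem_ker.1 hk)
    have ht₁' : τ₁ (t₁ : Δ) = 1 := by
      rw [map_mul, MonoidHom.mem_ker.1 t₂.2, mul_one] at hk1
      exact hk1
    have ht₂' : τ₂ (t₂ : Δ) = 1 := by
      rw [map_mul, MonoidHom.mem_ker.1 t₁.2, one_mul] at hk2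
      exact hk2
    have h1 : t₁ ∈ π₁.range := by
      rw [hπ₁]; exact Subgroup.mem_inf.2 ⟨MonoidHom.mem_ker.2 ht₁', ht₁⟩
    have h2 : t₂ ∈ π₂.range := by
      rw [hπ₂]; exact Subgroup.mem_inf.2 ⟨MonoidHom.mem_ker.2 ht₂', ht₂⟩
    obtain ⟨a, ha⟩ := h1
    obtain ⟨b, hb⟩ := h2
    refine ⟨(a, b), Subtype.ext ?_⟩
    show f₁ a * f₂ b = (t₁ : Δ) * (t₂ : Δ)
    show (π₁ a : Δ) * (π₂ b : Δ) = (t₁ : Δ) * (t₂ : Δ)
    rw [ha, hb]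

end Cfsg.Agent.Helper21
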