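import Mathlib
import Cfsg.Prelude.Def_KGroupFacts
import Cfsg.Agent.Helper21.CentralExt

/-!
A central extension of `M × N` by an abelian group `Z` twisted by a biadditive map.
-/

set_option autoImplicit false

namespace Cfsg.Agent.Helper21

universe u v w

open scoped commutatorElement

/-- A biadditive map from a pair of groups to an additive commutative group. -/
structure BiAddMap (M : Type u) (N : Type v) (Z : Type w) [Group M] [Group N]
    [AddCommGroup Z] where
  /-- the underlying function -/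
  toFun : M → N → Z
  map_mul_left : ∀ x x' y, toFun (x * x') y = toFun x y + toFun x' y
  map_mul_right : ∀ x y y', toFun x (y * y') = toFun x y + toFun x y'

namespace BiAddMap

variable {M : Type u} {N : Type v} {Z : Type w} [Group M] [Group N] [AddCommGroup Z]
  (β : BiAddMap M N Z)

theorem map_one_left (y : N) : β.toFun 1 y = 0 := by
  have h := β.map_mul_left 1 1 y
  rw [one_mul] at h
  simpa using h

theorem map_one_right (x : M) : β.toFun x 1 = 0 := by
  have h := β.map_mul_right x 1 1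
  rw [one_mul] at h
  simpa using h

theorem map_inv_left (x : M) (y : N) : β.toFun x⁻¹ y = -β.toFun x y := by
  have h := β.map_mul_left x x⁻¹ y
  rw [mul_inv_cancel, map_one_left] at h
  exact eq_neg_of_add_eq_zero_right h.symm

theorem map_inv_right (x : M) (y : N) : β.toFun x y⁻¹ = -β.toFun x y := by
  have h := β.map_mul_right x y y⁻¹
  rw [mul_inv_cancel, map_one_right] at h
  exact eq_neg_of_add_eq_zero_right h.symm

end BiAddMap

/-- The twisted product: the set `Z × M × N` with multiplication twisted by `β`. -/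
@[ext] structure TwProd {M : Type u} {N : Type v} {Z : Type w} [Group M] [Group N]
    [AddCommGroup Z] (β : BiAddMap M N Z) : Type (max u v w) where
  /-- central coordinate -/
  z : Z
  /-- first coordinate -/
  x : M
  /-- second coordinate -/
  y : N

namespace TwProd

variable {M : Type u} {N : Type v} {Z : Type w} [Group M] [Group N] [AddCommGroup Z]

instance instGroupTw (β : BiAddMap M N Z) : Group (TwProd β) where
  mul a b := ⟨a.z + b.z + β.toFun a.x b.y, a.x * b.x, a.y * b.y⟩
  one := ⟨0, 1, 1⟩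
  inv a := ⟨-a.z + β.toFun a.x a.y, a.x⁻¹, a.y⁻¹⟩
  mul_assoc a b c := by
    apply TwProd.ext
    · show (a.z + b.z + β.toFun a.x b.y) + c.z + β.toFun (a.x * b.x) c.y
        = a.z + (b.z + c.z + β.toFun b.x c.y) + β.toFun a.x (b.y * c.y)
      rw [β.map_mul_left, β.map_mul_right]; abel
    · exact mul_assoc _ _ _
    · exact mul_assoc _ _ _
  one_mul a := by
    apply TwProd.ext
    · show (0 : Z) + a.z + β.toFun 1 a.y = a.z
      rw [β.map_one_left]; abel
    · exact one_mul _
    · exact one_mul _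
  mul_one a := by
    apply TwProd.ext
    · show a.z + 0 + β.toFun a.x 1 = a.z
      rw [β.map_one_right]; abel
    · exact mul_one _
    · exact mul_one _
  inv_mul_cancel a := by
    apply TwProd.ext
    · show (-a.z + β.toFun a.x a.y) + a.z + β.toFun a.x⁻¹ a.y = 0
      rw [β.map_inv_left]; abel
    · exact inv_mul_cancel _
    · exact inv_mul_cancel _

variable {β : BiAddMap M N Z}

theorem tmul_z (a b : TwProd β) : (a * b).z = a.z + b.z + β.toFun a.x b.y := rfl
theorem tmul_x (a b : TwProd β) : (a * b).x = a.x * b.x := rfl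
theorem tmul_y (a b : TwProd β) : (a * b).y = a.y * b.y := rfl
theorem tone_z : (1 : TwProd β).z = 0 := rfl
theorem tone_x : (1 : TwProd β).x = 1 := rfl
theorem tone_y : (1 : TwProd β).y = 1 := rfl
theorem tinv_z (a : TwProd β) : (a⁻¹).z = -a.z + β.toFun a.x a.y := rfl
theorem tinv_x (a : TwProd β) : (a⁻¹).x = a.x⁻¹ := rfl
theorem tinv_y (a : TwProd β) : (a⁻¹).y = a.y⁻¹ := rfl

/-- The underlying equivalence with a product. -/
def twEquivProd (β : BiAddMap M N Z) : TwProd β ≃ Z × M × N where
  toFun a := (a.z, a.x, a.y)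
  invFun t := ⟨t.1, t.2.1, t.2.2⟩
  left_inv _ := rfl
  right_inv _ := rfl

theorem twFinite (β : BiAddMap M N Z) [Finite M] [Finite N] [Finite Z] : Finite (TwProd β) :=
  Finite.of_equiv _ (twEquivProd β).symm

/-- The projection onto `M × N`. -/
def twProj (β : BiAddMap M N Z) : TwProd β →* M × N where
  toFun a := (a.x, a.y)
  map_one' := rfl
  map_mul' _ _ := rfl

/-- The embedding of `M`. -/
def twInl (β : BiAddMap M N Z) : M →* TwProd β where
  toFun x := ⟨0, x, 1⟩
  map_one' := rfl
  map_mul' x x' := by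
    apply TwProd.ext
    · show (0 : Z) = 0 + 0 + β.toFun x 1
      rw [β.map_one_right]; abel
    · rfl
    · show (1 : N) = 1 * 1
      rw [one_mul]

/-- The embedding of `N`. -/
def twInr (β : BiAddMap M N Z) : N →* TwProd β where
  toFun y := ⟨0, 1, y⟩
  map_one' := rfl
  map_mul' y y' := by
    apply TwProd.ext
    · show (0 : Z) = 0 + 0 + β.toFun 1 y'
      rw [β.map_one_left]; abel
    · show (1 : M) = 1 * 1
      rw [one_mul]
    · rfl

/-- The embedding of `Z`. -/
def twInz (β : BiAddMap M N Z) : Multiplicative Z →* TwProd β where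
  toFun t := ⟨Multiplicative.toAdd t, 1, 1⟩
  map_one' := rfl
  map_mul' t t' := by
    apply TwProd.ext
    · show Multiplicative.toAdd (t * t')
        = Multiplicative.toAdd t + Multiplicative.toAdd t' + β.toFun 1 1
      rw [β.map_one_left, add_zero]; rfl
    · show (1 : M) = 1 * 1
      rw [one_mul]
    · show (1 : N) = 1 * 1
      rw [one_mul]

theorem twInz_commutator (β : BiAddMap M N Z) (x : M) (y : N) :
    twInz β (Multiplicative.ofAdd (β.toFun x y)) = ⁅twInl β x, twInr β y⁆ := by
  rw [commutatorElement_def]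
  apply TwProd.ext
  · show β.toFun x y = ((0 + 0 + β.toFun x y) + (-0 + β.toFun x 1) + β.toFun (x * 1) 1⁻¹)
      + (-0 + β.toFun 1 y) + β.toFun (x * 1 * x⁻¹) y⁻¹
    simp only [mul_one, mul_inv_cancel, inv_one, β.map_one_right, β.map_one_left]
    abel
  · show (1 : M) = x * 1 * x⁻¹ * 1⁻¹
    group
  · show (1 : N) = 1 * y * 1⁻¹ * y⁻¹
    group

/-- The twisted product of two stem extensions is a stem extension of the product. -/
theorem twIsStem {Q₁ : Type*} {Q₂ : Type*} [Group Q₁] [Group Q₂] (σ₁ : M →* Q₁) (σ₂ : N →* Q₂)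
    (h₁ : Cfsg.IsStemExtension σ₁) (h₂ : Cfsg.IsStemExtension σ₂) (β : BiAddMap M N Z)
    (hβl : ∀ x y, σ₁ x = 1 → β.toFun x y = 0) (hβr : ∀ x y, σ₂ y = 1 → β.toFun x y = 0)
    (hgen : ∀ t : Z, t ∈ AddSubgroup.closure {t : Z | ∃ x y, t = β.toFun x y}) :
    Cfsg.IsStemExtension ((σ₁.prodMap σ₂).comp (twProj β)) := by
  refine ⟨?_, ?_, ?_⟩
  · rintro ⟨q₁, q₂⟩
    obtain ⟨x, hx⟩ := h₁.1 q₁
    obtain ⟨y, hy⟩ := h₂.1 q₂
    exact ⟨⟨0, x, y⟩, Prod.ext hx hy⟩
  · intro a ha
    have ha1 : σ₁ a.x = 1 := congrArg Prod.fst (MonoidHom.mem_ker.1 ha)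
    have ha2 : σ₂ a.y = 1 := congrArg Prod.snd (MonoidHom.mem_ker.1 ha)
    have hx := Subgroup.mem_center_iff.1 (h₁.2.1 (MonoidHom.mem_ker.2 ha1))
    have hy := Subgroup.mem_center_iff.1 (h₂.2.1 (MonoidHom.mem_ker.2 ha2))
    rw [Subgroup.mem_center_iff]
    intro g
    apply TwProd.ext
    · rw [tmul_z, tmul_z, hβl _ _ ha1, hβr _ _ ha2]; abel
    · exact hx g.x
    · exact hy g.y
  · intro a ha
    have ha1 : σ₁ a.x = 1 := congrArg Prod.fst (MonoidHom.mem_ker.1 ha)
    have ha2 : σ₂ a.y = 1 := congrArg Prod.snd (MonoidHom.mem_ker.1 ha)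
    have key : ∀ t : Z, twInz β (Multiplicative.ofAdd t) ∈ commutator (TwProd β) := by
      intro t
      have ht := hgen t
      induction ht using AddSubgroup.closure_induction with
      | mem t ht =>
        obtain ⟨x, y, rfl⟩ := ht
        rw [twInz_commutator, commutator_def]
        exact Subgroup.commutator_mem_commutator (Subgroup.mem_top _) (Subgroup.mem_top _)
      | zero =>
        rw [ofAdd_zero, map_one]
        exact one_mem _
      | add t t' _ _ h h' =>
        rw [ofAdd_add, map_mul]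
        exact mul_mem h h'
      | neg t _ h =>
        rw [ofAdd_neg, map_inv]
        exact inv_mem h
    have hdecomp : a = twInz β (Multiplicative.ofAdd a.z) * twInl β a.x * twInr β a.y := by
      apply TwProd.ext
      · show a.z = (a.z + 0 + β.toFun 1 1) + 0 + β.toFun (1 * a.x) a.y
        rw [one_mul, β.map_one_left, hβl _ _ ha1]; abel
      · show a.x = 1 * a.x * 1
        rw [one_mul, mul_one]
      · show a.y = 1 * 1 * a.y
        rw [one_mul, one_mul]
    rw [hdecomp]
    refine mul_mem (mul_mem (key a.z) ?_) ?_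
    · exact map_mem_commutator (twInl β) (h₁.2.2 (MonoidHom.mem_ker.2 ha1))
    · exact map_mem_commutator (twInr β) (h₂.2.2 (MonoidHom.mem_ker.2 ha2))

/-- The kernel of the twisted product of two extensions. -/
def twKerEquiv {Q₁ : Type*} {Q₂ : Type*} [Group Q₁] [Group Q₂] (σ₁ : M →* Q₁) (σ₂ : N →* Q₂)
    (β : BiAddMap M N Z) (hβl : ∀ x y, σ₁ x = 1 → β.toFun x y = 0) :
    ((σ₁.prodMap σ₂).comp (twProj β)).ker ≃* (σ₁.ker × σ₂.ker × Multiplicative Z) where
  toFun a := (⟨a.1.x, MonoidHom.mem_ker.2 (congrArg Prod.fst (MonoidHom.mem_ker.1 a.2))⟩,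
    ⟨a.1.y, MonoidHom.mem_ker.2 (congrArg Prod.snd (MonoidHom.mem_ker.1 a.2))⟩,
    Multiplicative.ofAdd a.1.z)
  invFun t := ⟨⟨Multiplicative.toAdd t.2.2, t.1.1, t.2.1.1⟩,
    MonoidHom.mem_ker.2 (Prod.ext (MonoidHom.mem_ker.1 t.1.2) (MonoidHom.mem_ker.1 t.2.1.2))⟩
  left_inv a := Subtype.ext rfl
  right_inv t := rfl
  map_mul' a b := by
    refine Prod.ext (Subtype.ext rfl) (Prod.ext (Subtype.ext rfl) ?_)
    show Multiplicative.ofAdd ((a.1 * b.1).z)
      = Multiplicative.ofAdd a.1.z * Multiplicative.ofAdd b.1.z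
    have ha1 : σ₁ a.1.x = 1 := congrArg Prod.fst (MonoidHom.mem_ker.1 a.2)
    rw [tmul_z, hβl a.1.x b.1.y ha1, add_zero]
    rfl

end TwProd

end Cfsg.Agent.Helper21
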