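import Mathlib
import Cfsg.Prelude.Def_KGroupFacts
import Cfsg.Agent.Helper21.CentralImage
import Cfsg.Agent.Helper21.UniversalExists
import Cfsg.Agent.Helper21.TwProd
import Cfsg.Agent.Helper21.TensorPair

/-!
The Schur multiplier of a direct product of two finite groups.
-/

set_option autoImplicit false

namespace Cfsg.Agent.Helper21

universe u v w

open scoped IsMulCommutative commutatorElement TensorProduct

/-- `M(Q₁ × Q₂) ≅ M(Q₁) × M(Q₂) × (Q₁ᵃᵇ ⊗ Q₂ᵃᵇ)`. -/
theorem schur_prod_tensor {Q₁ : Type u} {Q₂ : Type v} [Group Q₁] [Group Q₂] [Finite Q₁]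
    [Finite Q₂] {A B : Type w} [CommGroup A] [CommGroup B] (hA : Cfsg.HasSchurMultiplier Q₁ A)
    (hB : Cfsg.HasSchurMultiplier Q₂ B) :
    Cfsg.HasSchurMultiplier (Q₁ × Q₂) (A × B × Multiplicative
      (TensorProduct ℤ (Additive (Abelianization Q₁)) (Additive (Abelianization Q₂)))) := by
  haveI : Finite (TensorProduct ℤ (Additive (Abelianization Q₁))
      (Additive (Abelianization Q₂))) := finite_tensor_abelianization Q₁ Q₂
  have hof₁ : Function.Surjective (Abelianization.of : Q₁ → Abelianization Q₁) :=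
    QuotientGroup.mk_surjective
  have hof₂ : Function.Surjective (Abelianization.of : Q₂ → Abelianization Q₂) :=
    QuotientGroup.mk_surjective
  refine ⟨?_, ?_⟩
  · obtain ⟨Γ₁, _, _, σ₁, hσ₁, ⟨i₁⟩⟩ := hA.1
    obtain ⟨Γ₂, _, _, σ₂, hσ₂, ⟨i₂⟩⟩ := hB.1
    let β : BiAddMap Γ₁ Γ₂
        (TensorProduct ℤ (Additive (Abelianization Q₁)) (Additive (Abelianization Q₂))) :=
      { toFun := fun x y => (Additive.ofMul (Abelianization.of (σ₁ x))) ⊗ₜ[ℤ]
          (Additive.ofMul (Abelianization.of (σ₂ y)))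
        map_mul_left := fun x x' y => by
          rw [map_mul, map_mul, ofMul_mul, TensorProduct.add_tmul]
        map_mul_right := fun x y y' => by
          rw [map_mul, map_mul, ofMul_mul, TensorProduct.tmul_add] }
    have hβl : ∀ x y, σ₁ x = 1 → β.toFun x y = 0 := by
      intro x y hx
      show (Additive.ofMul (Abelianization.of (σ₁ x))) ⊗ₜ[ℤ]
          (Additive.ofMul (Abelianization.of (σ₂ y))) = 0
      rw [hx, map_one, ofMul_one, TensorProduct.zero_tmul]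
    have hβr : ∀ x y, σ₂ y = 1 → β.toFun x y = 0 := by
      intro x y hy
      show (Additive.ofMul (Abelianization.of (σ₁ x))) ⊗ₜ[ℤ]
          (Additive.ofMul (Abelianization.of (σ₂ y))) = 0
      rw [hy, map_one, ofMul_one, TensorProduct.tmul_zero]
    have hgen : ∀ t : TensorProduct ℤ (Additive (Abelianization Q₁))
        (Additive (Abelianization Q₂)),
        t ∈ AddSubgroup.closure {t | ∃ x y, t = β.toFun x y} := by
      intro t
      induction t using TensorProduct.induction_on with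
      | zero => exact zero_mem _
      | tmul a b =>
        obtain ⟨q₁, hq₁⟩ := hof₁ (Additive.toMul a)
        obtain ⟨q₂, hq₂⟩ := hof₂ (Additive.toMul b)
        obtain ⟨x, rfl⟩ := hσ₁.1 q₁
        obtain ⟨y, rfl⟩ := hσ₂.1 q₂
        apply AddSubgroup.subset_closure
        refine ⟨x, y, ?_⟩
        show a ⊗ₜ[ℤ] b = (Additive.ofMul (Abelianization.of (σ₁ x))) ⊗ₜ[ℤ]
          (Additive.ofMul (Abelianization.of (σ₂ y)))
        rw [hq₁, hq₂]
        rfl
      | add t t' h h' => exact add_mem h h'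
    haveI : Finite (TwProd β) := TwProd.twFinite β
    refine ⟨TwProd β, inferInstance, inferInstance, (σ₁.prodMap σ₂).comp (TwProd.twProj β),
      TwProd.twIsStem σ₁ σ₂ hσ₁ hσ₂ β hβl hβr hgen, ?_⟩
    exact ⟨(TwProd.twKerEquiv σ₁ σ₂ β hβl).trans
      (i₁.prodCongr (i₂.prodCongr (MulEquiv.refl _)))⟩
  · intro Δ _ _ τ hτ
    classical
    let τ₁ : Δ →* Q₁ := (MonoidHom.fst Q₁ Q₂).comp τ
    let τ₂ : Δ →* Q₂ := (MonoidHom.snd Q₁ Q₂).comp τ
    have hτker : ∀ x : Δ, τ₁ x = 1 → τ₂ x = 1 → x ∈ τ.ker := fun x h1 h2 =>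
      MonoidHom.mem_ker.2 (Prod.ext h1 h2)
    have hKcen : ∀ x : Δ, τ₁ x = 1 → τ₂ x = 1 → ∀ g : Δ, g * x = x * g := fun x h1 h2 =>
      Subgroup.mem_center_iff.1 (hτ.2.1 (hτker x h1 h2))
    have hcomm_ker : ∀ x ∈ τ₂.ker, ∀ y ∈ τ₁.ker, x * y * x⁻¹ * y⁻¹ ∈ τ.ker := by
      intro x hx y hy
      apply hτker
      · show τ₁ (x * y * x⁻¹ * y⁻¹) = 1
        rw [map_mul, map_mul, map_mul, map_inv, map_inv, MonoidHom.mem_ker.1 hy]; group
      · show τ₂ (x * y * x⁻¹ * y⁻¹) = 1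
        rw [map_mul, map_mul, map_mul, map_inv, map_inv, MonoidHom.mem_ker.1 hx]; group
    have hcomm_cen : ∀ x ∈ τ₂.ker, ∀ y ∈ τ₁.ker, x * y * x⁻¹ * y⁻¹ ∈ Subgroup.center Δ :=
      fun x hx y hy => hτ.2.1 (hcomm_ker x hx y hy)
    have hν₁ : Function.Surjective (τ₁.comp τ₂.ker.subtype) := by
      intro q
      obtain ⟨x, hx⟩ := hτ.1 (q, 1)
      exact ⟨⟨x, MonoidHom.mem_ker.2 (congrArg Prod.snd hx)⟩, congrArg Prod.fst hx⟩
    have hν₂ : Function.Surjective (τ₂.comp τ₁.ker.subtype) := by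
      intro q
      obtain ⟨x, hx⟩ := hτ.1 (1, q)
      exact ⟨⟨x, MonoidHom.mem_ker.2 (congrArg Prod.fst hx)⟩, congrArg Prod.snd hx⟩
    -- sections and the commutator pairing
    let sx : Q₁ → Δ := fun q => Function.surjInv hτ.1 (q, 1)
    let sy : Q₂ → Δ := fun q => Function.surjInv hτ.1 (1, q)
    have hsx : ∀ q, τ (sx q) = (q, 1) := fun q => Function.surjInv_eq hτ.1 (q, 1)
    have hsy : ∀ q, τ (sy q) = (1, q) := fun q => Function.surjInv_eq hτ.1 (1, q)
    have hsx2 : ∀ q, sx q ∈ τ₂.ker := fun q => MonoidHom.mem_ker.2 (congrArg Prod.snd (hsx q))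
    have hsy1 : ∀ q, sy q ∈ τ₁.ker := fun q => MonoidHom.mem_ker.2 (congrArg Prod.fst (hsy q))
    let c : Q₁ → Q₂ → ↥(Subgroup.center Δ) := fun q r =>
      ⟨sx q * sy r * (sx q)⁻¹ * (sy r)⁻¹, hcomm_cen _ (hsx2 q) _ (hsy1 r)⟩
    have hceq : ∀ (x y : Δ) (q : Q₁) (r : Q₂), τ x = (q, 1) → τ y = (1, r) →
        x * y * x⁻¹ * y⁻¹ = (c q r : Δ) := by
      intro x y q r hx hy
      exact commutator_eq_of_map_eq τ hτ.2.1 x (sx q) y (sy r) (hx.trans (hsx q).symm)
        (hy.trans (hsy r).symm)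
    have hcl : ∀ q q' r, c (q * q') r = c q r * c q' r := by
      intro q q' r
      apply Subtype.ext
      have h1 : τ (sx q * sx q') = (q * q', 1) := by
        rw [map_mul, hsx, hsx]
        exact Prod.ext rfl (mul_one 1)
      rw [← hceq (sx q * sx q') (sy r) (q * q') r h1 (hsy r)]
      exact commutator_mul_left_of_central (sx q) (sx q') (sy r)
        (hcomm_cen _ (hsx2 q') _ (hsy1 r))
    have hcr : ∀ q r r', c q (r * r') = c q r * c q r' := by
      intro q r r'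
      apply Subtype.ext
      have h1 : τ (sy r * sy r') = (1, r * r') := by
        rw [map_mul, hsy, hsy]
        exact Prod.ext (mul_one 1) rfl
      rw [← hceq (sx q) (sy r * sy r') q (r * r') (hsx q) h1]
      exact commutator_mul_right_of_central (sx q) (sy r) (sy r')
        (hcomm_cen _ (hsx2 q) _ (hsy1 r'))
    obtain ⟨L, hL⟩ := exists_tensor_lift c hcl hcr
    let f₃ : Multiplicative (TensorProduct ℤ (Additive (Abelianization Q₁))
        (Additive (Abelianization Q₂))) →* Δ :=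
      { toFun := fun t => ((Additive.toMul (L (Multiplicative.toAdd t)) :
          ↥(Subgroup.center Δ)) : Δ)
        map_one' := by
          show ((Additive.toMul (L 0) : ↥(Subgroup.center Δ)) : Δ) = 1
          rw [map_zero]
          rfl
        map_mul' := fun s t => by
          show ((Additive.toMul (L (Multiplicative.toAdd s + Multiplicative.toAdd t)) :
            ↥(Subgroup.center Δ)) : Δ) = _
          rw [map_add]
          rfl }
    have hf₃pair : ∀ x ∈ τ₂.ker, ∀ y ∈ τ₁.ker,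
        f₃ (Multiplicative.ofAdd ((Additive.ofMul (Abelianization.of (τ₁ x))) ⊗ₜ[ℤ]
          (Additive.ofMul (Abelianization.of (τ₂ y))))) = x * y * x⁻¹ * y⁻¹ := by
      intro x hx y hy
      show ((Additive.toMul (L ((Additive.ofMul (Abelianization.of (τ₁ x))) ⊗ₜ[ℤ]
          (Additive.ofMul (Abelianization.of (τ₂ y))))) : ↥(Subgroup.center Δ)) : Δ) = _
      rw [hL]
      exact (hceq x y (τ₁ x) (τ₂ y) (Prod.ext rfl (MonoidHom.mem_ker.1 hx))
        (Prod.ext (MonoidHom.mem_ker.1 hy) rfl)).symm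
    have hf₃cen : ∀ t, f₃ t ∈ Subgroup.center Δ := fun t =>
      (Additive.toMul (L (Multiplicative.toAdd t))).2
    have hf₃K : ∀ t, f₃ t ∈ τ.ker := by
      have key : ∀ s : TensorProduct ℤ (Additive (Abelianization Q₁))
          (Additive (Abelianization Q₂)),
          ((Additive.toMul (L s) : ↥(Subgroup.center Δ)) : Δ) ∈ τ.ker := by
        intro s
        induction s using TensorProduct.induction_on with
        | zero =>
          rw [map_zero]
          show (1 : Δ) ∈ τ.ker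
          exact one_mem _
        | tmul a b =>
          obtain ⟨q, hq⟩ := hof₁ (Additive.toMul a)
          obtain ⟨r, hr⟩ := hof₂ (Additive.toMul b)
          have hab : a ⊗ₜ[ℤ] b = (Additive.ofMul (Abelianization.of q)) ⊗ₜ[ℤ]
              (Additive.ofMul (Abelianization.of r)) := by
            rw [hq, hr]
            rfl
          rw [hab, hL]
          exact hcomm_ker _ (hsx2 q) _ (hsy1 r)
        | add s s' h h' =>
          rw [map_add]
          show ((Additive.toMul (L s) : ↥(Subgroup.center Δ)) : Δ)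
            * ((Additive.toMul (L s') : ↥(Subgroup.center Δ)) : Δ) ∈ τ.ker
          exact mul_mem h h'
      intro t
      exact key _
    -- the two central extensions
    have hcen₁ : (τ₁.comp τ₂.ker.subtype).ker ≤ Subgroup.center ↥τ₂.ker := by
      intro z hz
      rw [Subgroup.mem_center_iff]
      intro g
      exact Subtype.ext (hKcen (z : Δ) (MonoidHom.mem_ker.1 hz) (MonoidHom.mem_ker.1 z.2) g)
    have hcen₂ : (τ₂.comp τ₁.ker.subtype).ker ≤ Subgroup.center ↥τ₁.ker := by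
      intro z hz
      rw [Subgroup.mem_center_iff]
      intro g
      exact Subtype.ext (hKcen (z : Δ) (MonoidHom.mem_ker.1 z.2) (MonoidHom.mem_ker.1 hz) g)
    obtain ⟨π₁, hπ₁⟩ := exists_hom_range_eq_ker_inf_commutator hA
      (τ₁.comp τ₂.ker.subtype) hν₁ hcen₁
    obtain ⟨π₂, hπ₂⟩ := exists_hom_range_eq_ker_inf_commutator hB
      (τ₂.comp τ₁.ker.subtype) hν₂ hcen₂
    let f₁ : A →* Δ := τ₂.ker.subtype.comp π₁
    let f₂ : B →* Δ := τ₁.ker.subtype.comp π₂
    have hf₁ : ∀ a : A, f₁ a ∈ τ.ker := by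
      intro a
      have h1 : π₁ a ∈ (τ₁.comp τ₂.ker.subtype).ker ⊓ commutator ↥τ₂.ker := by
        rw [← hπ₁]; exact ⟨a, rfl⟩
      exact hτker _ (MonoidHom.mem_ker.1 (Subgroup.mem_inf.1 h1).1) (MonoidHom.mem_ker.1 (π₁ a).2)
    have hf₂ : ∀ b : B, f₂ b ∈ τ.ker := by
      intro b
      have h1 : π₂ b ∈ (τ₂.comp τ₁.ker.subtype).ker ⊓ commutator ↥τ₁.ker := by
        rw [← hπ₂]; exact ⟨b, rfl⟩
      exact hτker _ (MonoidHom.mem_ker.1 (π₂ b).2) (MonoidHom.mem_ker.1 (Subgroup.mem_inf.1 h1).1)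
    have hKc : ∀ k ∈ τ.ker, ∀ g : Δ, Commute k g := fun k hk g =>
      (Subgroup.mem_center_iff.1 (hτ.2.1 hk) g).symm
    let π : A × B × Multiplicative (TensorProduct ℤ (Additive (Abelianization Q₁))
        (Additive (Abelianization Q₂))) →* Δ :=
      f₁.noncommCoprod (f₂.noncommCoprod f₃ (fun b t => hKc _ (hf₂ b) _))
        (fun a bt => hKc _ (hf₁ a) _)
    have hπapp : ∀ abt : A × B × Multiplicative (TensorProduct ℤ (Additive (Abelianization Q₁))
        (Additive (Abelianization Q₂))), π abt = f₁ abt.1 * (f₂ abt.2.1 * f₃ abt.2.2) :=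
      fun abt => rfl
    have hπK : ∀ abt, π abt ∈ τ.ker := fun abt => by
      rw [hπapp]
      exact mul_mem (hf₁ _) (mul_mem (hf₂ _) (hf₃K _))
    have hsplit : ∀ g : Δ, ∃ x ∈ τ₂.ker, ∃ y ∈ τ₁.ker, g = x * y := by
      intro g
      obtain ⟨x, hx⟩ := hτ.1 ((τ g).1, 1)
      refine ⟨x, MonoidHom.mem_ker.2 (congrArg Prod.snd hx), x⁻¹ * g, ?_, by group⟩
      rw [MonoidHom.mem_ker]
      show τ₁ (x⁻¹ * g) = 1
      rw [map_mul, map_inv]
      have h1 : (τ x).1 = (τ g).1 := by rw [hx]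
      show ((τ x).1)⁻¹ * (τ g).1 = 1
      rw [h1]
      exact inv_mul_cancel _
    have hdec := commutator_decomp_of_central τ₂.ker τ₁.ker f₃.range
      (by rintro _ ⟨t, rfl⟩; exact hf₃cen t)
      (fun x hx y hy => ⟨_, hf₃pair x hx y hy⟩) hsplit
    refine ⟨π.codRestrict τ.ker hπK, ?_⟩
    rintro ⟨k, hk⟩
    obtain ⟨d₁, hd₁, d₂, hd₂, w, ⟨t, rfl⟩, rfl⟩ := hdec k (hτ.2.2 hk)
    obtain ⟨t₁, ht₁, rfl⟩ := hd₁
    obtain ⟨t₂, ht₂, rfl⟩ := hd₂
    have hk1 : τ₁ ((t₁ : Δ) * (t₂ : Δ) * f₃ t) = 1 := congrArg Prod.fst (MonoidHom.mem_ker.1 hk)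
    have hk2 : τ₂ ((t₁ : Δ) * (t₂ : Δ) * f₃ t) = 1 := congrArg Prod.snd (MonoidHom.mem_ker.1 hk)
    have hw1 : τ₁ (f₃ t) = 1 := congrArg Prod.fst (MonoidHom.mem_ker.1 (hf₃K t))
    have hw2 : τ₂ (f₃ t) = 1 := congrArg Prod.snd (MonoidHom.mem_ker.1 (hf₃K t))
    have ht₁' : τ₁ (t₁ : Δ) = 1 := by
      rw [map_mul, map_mul, hw1, MonoidHom.mem_ker.1 t₂.2, mul_one, mul_one] at hk1
      exact hk1
    have ht₂' : τ₂ (t₂ : Δ) = 1 := by
      rw [map_mul, map_mul, hw2, MonoidHom.mem_ker.1 t₁.2, one_mul, mul_one] at hk2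
      exact hk2
    have h1 : t₁ ∈ π₁.range := by
      rw [hπ₁]; exact Subgroup.mem_inf.2 ⟨MonoidHom.mem_ker.2 ht₁', ht₁⟩
    have h2 : t₂ ∈ π₂.range := by
      rw [hπ₂]; exact Subgroup.mem_inf.2 ⟨MonoidHom.mem_ker.2 ht₂', ht₂⟩
    obtain ⟨a, ha⟩ := h1
    obtain ⟨b, hb⟩ := h2
    refine ⟨(a, b, t), Subtype.ext ?_⟩
    show f₁ a * (f₂ b * f₃ t) = (t₁ : Δ) * (t₂ : Δ) * f₃ t
    show (π₁ a : Δ) * ((π₂ b : Δ) * f₃ t) = (t₁ : Δ) * (t₂ : Δ) * f₃ t
    rw [ha, hb, mul_assoc]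

end Cfsg.Agent.Helper21
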