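import Mathlib
import Cfsg.Prelude.Def_KGroupFacts
import Cfsg.Agent.Helper21.CentralImage

/-!
Schur multiplier of a subgroup of index `m`: the `m`-th powers of `M(G)` embed in `M(U)`.
-/

set_option autoImplicit false

namespace Cfsg.Agent.Helper21

universe u v w

/-- A subgroup of the image of a homomorphism of finite abelian groups `B → A` is isomorphic to a
subgroup of `B`. -/
theorem exists_subgroup_mulEquiv_of_le_range {A B : Type*} [CommGroup A] [CommGroup B] [Finite A]
    [Finite B] (η : B →* A) (S : Subgroup A) (hS : S ≤ η.range) :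
    ∃ C : Subgroup B, Nonempty (S ≃* C) := by
  classical
  let W : Subgroup B := S.comap η
  let η' : ↥W →* ↥S := η.subgroupComap S
  have hη' : Function.Surjective η' := by
    rintro ⟨s, hs⟩
    obtain ⟨b, rfl⟩ := hS hs
    exact ⟨⟨b, hs⟩, rfl⟩
  haveI : NeZero (Monoid.exponent ↥S) := ⟨Monoid.exponent_ne_zero_of_finite⟩
  haveI : NeZero (Monoid.exponent ↥W) := ⟨Monoid.exponent_ne_zero_of_finite⟩
  obtain ⟨eS⟩ := CommGroup.monoidHom_mulEquiv_of_hasEnoughRootsOfUnity ↥S ℂ
  obtain ⟨eW⟩ := CommGroup.monoidHom_mulEquiv_of_hasEnoughRootsOfUnity ↥W ℂ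
  let c : (↥S →* ℂˣ) →* (↥W →* ℂˣ) :=
    { toFun := fun f => f.comp η'
      map_one' := rfl
      map_mul' := fun f g => rfl }
  have hc : Function.Injective c := by
    intro f g hfg
    ext s
    obtain ⟨w, rfl⟩ := hη' s
    have := congrArg (fun t : ↥W →* ℂˣ => t w) hfg
    exact congrArg Units.val this
  let j : ↥S →* B := W.subtype.comp (eW.toMonoidHom.comp (c.comp eS.symm.toMonoidHom))
  have hj : Function.Injective j := by
    intro a b hab
    have h1 : eW (c (eS.symm a)) = eW (c (eS.symm b)) := W.subtype_injective hab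
    exact eS.symm.injective (hc (eW.injective h1))
  exact ⟨j.range, ⟨MonoidHom.ofInjective hj⟩⟩

/-- Let `U` be a subgroup of the finite group `G`, `A` the Schur multiplier of `G` and `B` that of
`U`. Then the subgroup of `|G : U|`-th powers of `A` is isomorphic to a subgroup of `B`. -/
theorem schur_subgroup_pow {G : Type u} [Group G] [Finite G] (U : Subgroup G) {A : Type v}
    {B : Type w} [CommGroup A] [CommGroup B] (hA : Cfsg.HasSchurMultiplier G A)
    (hB : Cfsg.HasSchurMultiplier U B) :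
    ∃ C : Subgroup B, Nonempty ((powMonoidHom U.index : A →* A).range ≃* C) := by
  classical
  obtain ⟨Γ, _, _, σ, hσ, ⟨i⟩⟩ := hA.1
  obtain ⟨Γ', _, _, σ', hσ', ⟨i'⟩⟩ := hB.1
  haveI : Finite A := Finite.of_equiv _ i.toEquiv
  haveI : Finite B := Finite.of_equiv _ i'.toEquiv
  let V : Subgroup Γ := U.comap σ
  let ν : ↥V →* ↥U := σ.subgroupComap U
  have hν : Function.Surjective ν := by
    rintro ⟨u, hu⟩
    obtain ⟨x, rfl⟩ := hσ.1 u
    exact ⟨⟨x, hu⟩, rfl⟩
  have hνker : ∀ z : ↥V, ν z = 1 ↔ σ (z : Γ) = 1 := by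
    intro z
    constructor
    · intro h; exact congrArg Subtype.val h
    · intro h; exact Subtype.ext h
  have hcen : ν.ker ≤ Subgroup.center ↥V := by
    intro z hz
    have h1 : (z : Γ) ∈ Subgroup.center Γ :=
      hσ.2.1 (MonoidHom.mem_ker.2 ((hνker z).1 (MonoidHom.mem_ker.1 hz)))
    rw [Subgroup.mem_center_iff]
    intro g
    exact Subtype.ext (Subgroup.mem_center_iff.1 h1 (g : Γ))
  obtain ⟨π, hπ⟩ := exists_hom_range_eq_ker_inf_commutator hB ν hν hcen
  have hidx : V.index = U.index := Subgroup.index_comap_of_surjective U hσ.1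
  -- transfer
  have htr : ∀ a : Γ, a ∈ σ.ker →
      ∃ h : a ^ U.index ∈ V, (⟨a ^ U.index, h⟩ : ↥V) ∈ commutator ↥V := by
    intro a ha
    have key : ∀ (k : ℕ) (g₀ : Γ), g₀⁻¹ * a ^ k * g₀ ∈ V → g₀⁻¹ * a ^ k * g₀ = a ^ k := by
      intro k g₀ _
      have hk := Subgroup.mem_center_iff.1 ((Subgroup.center Γ).pow_mem (hσ.2.1 ha) k) g₀⁻¹
      rw [hk, inv_mul_cancel_right]
    have h1 := MonoidHom.transfer_eq_pow (Abelianization.of : ↥V →* Abelianization ↥V) a key
    have h2 : MonoidHom.transfer (Abelianization.of : ↥V →* Abelianization ↥V) a = 1 := by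
      have hac : a ∈ commutator Γ := hσ.2.2 ha
      have h3 : (Abelianization.of a : Abelianization Γ) = 1 := by
        rw [← MonoidHom.mem_ker, Abelianization.ker_of]; exact hac
      have h4 : MonoidHom.transfer (Abelianization.of : ↥V →* Abelianization ↥V) a
          = Abelianization.lift (MonoidHom.transfer (Abelianization.of : ↥V →* Abelianization ↥V))
            (Abelianization.of a) := rfl
      rw [h4, h3, map_one]
    rw [h2] at h1
    have h5 : (⟨a ^ V.index, MonoidHom.transfer_eq_pow_aux a key⟩ : ↥V) ∈ commutator ↥V := by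
      rw [← Abelianization.ker_of, MonoidHom.mem_ker]; exact h1.symm
    have h6 : ∀ m : ℕ, m = V.index →
        ∃ h : a ^ m ∈ V, (⟨a ^ m, h⟩ : ↥V) ∈ commutator ↥V := by
      rintro m rfl
      exact ⟨_, h5⟩
    exact h6 _ hidx.symm
  have hπker : ∀ b : B, (V.subtype.comp π) b ∈ σ.ker := by
    intro b
    have h1 : π b ∈ ν.ker ⊓ commutator ↥V := by rw [← hπ]; exact ⟨b, rfl⟩
    exact MonoidHom.mem_ker.2 ((hνker _).1 (MonoidHom.mem_ker.1 (Subgroup.mem_inf.1 h1).1))
  let η₀ : B →* ↥σ.ker := (V.subtype.comp π).codRestrict σ.ker hπker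
  let η : B →* A := i.toMonoidHom.comp η₀
  have hS : (powMonoidHom U.index : A →* A).range ≤ η.range := by
    rintro _ ⟨a, rfl⟩
    obtain ⟨h, hc⟩ := htr (i.symm a : Γ) (i.symm a).2
    have h2 : (⟨(i.symm a : Γ) ^ U.index, h⟩ : ↥V) ∈ π.range := by
      rw [hπ]
      refine Subgroup.mem_inf.2 ⟨MonoidHom.mem_ker.2 ((hνker _).2 ?_), hc⟩
      show σ ((i.symm a : Γ) ^ U.index) = 1
      rw [map_pow, MonoidHom.mem_ker.1 (i.symm a).2, one_pow]
    obtain ⟨b, hb⟩ := h2
    refine ⟨b, ?_⟩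
    show i (η₀ b) = a ^ U.index
    have h3 : η₀ b = (i.symm a) ^ U.index := by
      apply Subtype.ext
      show ((π b : ↥V) : Γ) = ((i.symm a ^ U.index : ↥σ.ker) : Γ)
      rw [hb, Subgroup.coe_pow]
    rw [h3, map_pow, MulEquiv.apply_symm_apply]
  exact exists_subgroup_mulEquiv_of_le_range η _ hS

end Cfsg.Agent.Helper21
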