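import Mathlib
import Cfsg.Prelude.Def_KGroupFacts
import Cfsg.Agent.Helper21.Schur
import Cfsg.Agent.Helper21.Perfect

set_option autoImplicit false

namespace Cfsg.Agent.Helper21

universe u v

theorem schur_one_of_universal {G : Type u} {Q : Type v} [Group G] [Group Q] [Finite G]
    (hG : Group.IsPerfect G) (π : G →* Q) (hπ : Function.Surjective π)
    (hker : π.ker ≤ Subgroup.center G)
    (hU : ∀ (X : Type u) [Group X] (ξ : X →* Q), Function.Surjective ξ → ξ.ker ≤ Subgroup.center X →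
      ∃ η : G →* X, ξ.comp η = π) :
    Cfsg.HasCyclicSchurMultiplier G 1 := by
  apply schur_one_of_ker_bot
  intro Γ _ _ τ hτ
  have hΓ : Group.IsPerfect Γ := perfect_of_stem hG τ hτ
  have hξker : (π.comp τ).ker ≤ Subgroup.center Γ := by
    intro x hx
    apply perfect_mem_center_of_map_mem_center hΓ τ hτ.2.1 x
    apply hker
    rw [MonoidHom.mem_ker]
    exact MonoidHom.mem_ker.mp hx
  obtain ⟨η, hη⟩ := hU Γ (π.comp τ) (hπ.comp hτ.1) hξker
  have h1 : τ.comp η = MonoidHom.id G := by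
    apply perfect_lift_unique hG π hker
    rw [← MonoidHom.comp_assoc, hη]
    rfl
  have h1' : ∀ g : G, τ (η g) = g := fun g => DFunLike.congr_fun h1 g
  have hd : ∀ g : Γ, g * (η (τ g))⁻¹ ∈ Subgroup.center Γ := by
    intro g
    apply hτ.2.1
    rw [MonoidHom.mem_ker, map_mul, map_inv, h1', mul_inv_cancel]
  have hmul : ∀ g g' : Γ, (g * g') * (η (τ (g * g')))⁻¹
      = g * (η (τ g))⁻¹ * (g' * (η (τ g'))⁻¹) := by
    intro g g'
    have hc := Subgroup.mem_center_iff.mp (hd g') ((η (τ g))⁻¹)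
    rw [map_mul, map_mul]
    calc g * g' * (η (τ g) * η (τ g'))⁻¹ = g * ((g' * (η (τ g'))⁻¹) * (η (τ g))⁻¹) := by group
      _ = g * ((η (τ g))⁻¹ * (g' * (η (τ g'))⁻¹)) := by rw [hc]
      _ = g * (η (τ g))⁻¹ * (g' * (η (τ g'))⁻¹) := by group
  have h2 := perfect_central_map_trivial hΓ (fun g => g * (η (τ g))⁻¹) hd hmul
  rw [Subgroup.eq_bot_iff_forall]
  intro x hx
  have h3 : x * (η (τ x))⁻¹ = 1 := h2 x
  rw [MonoidHom.mem_ker.mp hx, map_one, inv_one, mul_one] at h3
  exact h3

theorem universal_of_schur_one {G : Type u} {Q : Type v} [Group G] [Group Q] [Finite G]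
    (hG : Group.IsPerfect G) (π : G →* Q) (hM : Cfsg.HasCyclicSchurMultiplier G 1)
    (X : Type u) [Group X] (ξ : X →* Q) (hξ : Function.Surjective ξ)
    (hξker : ξ.ker ≤ Subgroup.center X) : ∃ η : G →* X, ξ.comp η = π := by
  classical
  let E : Subgroup (G × X) :=
    MonoidHom.eqLocus (π.comp (MonoidHom.fst G X)) (ξ.comp (MonoidHom.snd G X))
  have hE : ∀ e : G × X, e ∈ E ↔ π e.1 = ξ e.2 := fun e => Iff.rfl
  let pr : E →* G := (MonoidHom.fst G X).comp E.subtype
  have hpr : ∀ e : E, pr e = e.1.1 := fun e => rfl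
  have hpr_surj : Function.Surjective pr := by
    intro g
    obtain ⟨x, hx⟩ := hξ (π g)
    exact ⟨⟨(g, x), (hE (g, x)).mpr hx.symm⟩, rfl⟩
  have hZ : ∀ e : E, pr e = 1 → e ∈ Subgroup.center E := by
    intro e he
    rw [hpr] at he
    have h2 : e.1.2 ∈ Subgroup.center X := by
      apply hξker
      rw [MonoidHom.mem_ker, ← (hE e.1).mp e.2, he, map_one]
    rw [Subgroup.mem_center_iff]
    intro y
    apply Subtype.ext
    apply Prod.ext
    · show y.1.1 * e.1.1 = e.1.1 * y.1.1
      rw [he, mul_one, one_mul]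
    · exact Subgroup.mem_center_iff.mp h2 y.1.2
  -- commutators only depend on the images
  have hleft : ∀ a a' b : E, pr a = pr a' → a * b * a⁻¹ * b⁻¹ = a' * b * a'⁻¹ * b⁻¹ := by
    intro a a' b h
    have hz : a'⁻¹ * a ∈ Subgroup.center E := by
      apply hZ
      rw [map_mul, map_inv, h, inv_mul_cancel]
    have hzb := Subgroup.mem_center_iff.mp hz b
    calc a * b * a⁻¹ * b⁻¹ = a' * ((a'⁻¹ * a) * b) * (a'⁻¹ * a)⁻¹ * a'⁻¹ * b⁻¹ := by group
      _ = a' * (b * (a'⁻¹ * a)) * (a'⁻¹ * a)⁻¹ * a'⁻¹ * b⁻¹ := by rw [hzb]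
      _ = a' * b * a'⁻¹ * b⁻¹ := by group
  have hright : ∀ a b b' : E, pr b = pr b' → a * b * a⁻¹ * b⁻¹ = a * b' * a⁻¹ * b'⁻¹ := by
    intro a b b' h
    have h1 := hleft b b' a h
    have h2 : a * b * a⁻¹ * b⁻¹ = (b * a * b⁻¹ * a⁻¹)⁻¹ := by group
    have h3 : a * b' * a⁻¹ * b'⁻¹ = (b' * a * b'⁻¹ * a⁻¹)⁻¹ := by group
    rw [h2, h3, h1]
  have hboth : ∀ a a' b b' : E, pr a = pr a' → pr b = pr b' →
      a * b * a⁻¹ * b⁻¹ = a' * b' * a'⁻¹ * b'⁻¹ := by
    intro a a' b b' h1 h2
    rw [hleft a a' b h1, hright a' b b' h2]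
  have hfin : (commutatorSet E).Finite := by
    apply Set.Finite.subset (Set.finite_range (fun ab : G × G =>
      Function.surjInv hpr_surj ab.1 * Function.surjInv hpr_surj ab.2
        * (Function.surjInv hpr_surj ab.1)⁻¹ * (Function.surjInv hpr_surj ab.2)⁻¹))
    rintro x ⟨e1, e2, rfl⟩
    refine ⟨(pr e1, pr e2), ?_⟩
    rw [commutatorElement_def]
    exact hboth _ _ _ _ (Function.surjInv_eq hpr_surj _) (Function.surjInv_eq hpr_surj _)
  have hfin' : Finite (commutatorSet E) := hfin.to_subtype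
  have hfinC : Finite (commutator E) := inferInstance
  let τ : (commutator E) →* G := pr.comp (commutator E).subtype
  have hτ : ∀ c : commutator E, τ c = pr c.1 := fun c => rfl
  have hτ_surj : Function.Surjective τ := by
    intro g
    have h1 : (commutator E).map pr = commutator G := by
      rw [commutator_def, Subgroup.map_commutator, ← MonoidHom.range_eq_map,
        MonoidHom.range_eq_top.mpr hpr_surj, ← commutator_def]
    have h2 : g ∈ (commutator E).map pr := by
      rw [h1, hG.commutator_eq_top]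
      exact Subgroup.mem_top _
    obtain ⟨c, hc, hcg⟩ := h2
    exact ⟨⟨c, hc⟩, hcg⟩
  have hstem : Cfsg.IsStemExtension τ := by
    refine ⟨hτ_surj, ?_, ?_⟩
    · intro c hc
      have h1 := hZ c.1 (MonoidHom.mem_ker.mp hc)
      rw [Subgroup.mem_center_iff]
      intro y
      apply Subtype.ext
      exact Subgroup.mem_center_iff.mp h1 y.1
    · intro c _
      have h1 : commutator E ≤ ⁅commutator E, commutator E⁆ := by
        rw [commutator_def, Subgroup.commutator_le]
        intro e1 _ e2 _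
        obtain ⟨c1, hc1⟩ := hτ_surj (pr e1)
        obtain ⟨c2, hc2⟩ := hτ_surj (pr e2)
        rw [commutatorElement_def, hboth e1 c1.1 e2 c2.1 hc1.symm hc2.symm, ← commutatorElement_def]
        exact Subgroup.commutator_mem_commutator c1.2 c2.2
      have h2 : c.1 ∈ (commutator (commutator E)).map (commutator E).subtype := by
        rw [Subgroup.map_subtype_commutator]
        exact h1 c.2
      obtain ⟨c', hc', hcc⟩ := h2
      have : c' = c := Subtype.ext hcc
      rw [← this]
      exact hc'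
  have hkerτ : τ.ker = ⊥ := ker_bot_of_schur_one hM (commutator E) τ hstem
  have hinj : Function.Injective τ := (MonoidHom.ker_eq_bot_iff τ).mp hkerτ
  let e := MulEquiv.ofBijective τ ⟨hinj, hτ_surj⟩
  refine ⟨((MonoidHom.snd G X).comp E.subtype).comp ((commutator E).subtype.comp e.symm.toMonoidHom), ?_⟩
  ext g
  show ξ ((e.symm g).1.1.2) = π g
  rw [← (hE (e.symm g).1.1).mp (e.symm g).1.2]
  have h5 : τ (e.symm g) = g := e.apply_symm_apply g
  rw [hτ, hpr] at h5
  rw [h5]

end Cfsg.Agent.Helper21
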